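import Mathlib
import Cfsg.Prelude.Def_Characters
import Cfsg.Agent.Lib.Helper19.BSChar3
import Cfsg.Agent.Lib.Helper82.ClassSum
import Cfsg.Agent.Lib.Helper82.CharKer
import Cfsg.Agent.Lib.Helper82.LinCount

set_option autoImplicit false

namespace Cfsg.Agent.Lib.Helper19

open Cfsg Cfsg.Agent.Lib.Helper20 Cfsg.Agent.Lib.Helper32
open scoped ComplexConjugate Pointwise

section
variable {G : Type*} [Group G] [Finite G]

/-- With a generalized quaternion Sylow 2-subgroup, commuting involutions are equal. -/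
theorem comm_involutions_eq (S : Sylow 2 G) {m : ℕ} [NeZero m]
    (e : (S : Subgroup G) ≃* QuaternionGroup m) (u w : G) (hu : orderOf u = 2) (hw : orderOf w = 2)
    (huw : Commute u w) : u = w := by
  haveI : Fact (Nat.Prime 2) := ⟨Nat.prime_two⟩
  have h1 : IsPGroup 2 (Subgroup.zpowers u) :=
    IsPGroup.of_card (n := 1) (by rw [Nat.card_zpowers, hu, pow_one])
  have h2 : IsPGroup 2 (Subgroup.zpowers w) :=
    IsPGroup.of_card (n := 1) (by rw [Nat.card_zpowers, hw, pow_one])
  have h3 : Subgroup.zpowers u ≤ Subgroup.normalizer ((Subgroup.zpowers w : Subgroup G) : Set G) := by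
    refine le_trans ?_ (Subgroup.centralizer_le_normalizer _)
    rw [Subgroup.zpowers_le, Subgroup.mem_centralizer_iff]
    intro x hx
    obtain ⟨k, rfl⟩ := Subgroup.mem_zpowers_iff.mp hx
    exact (huw.zpow_right k).symm.eq
  obtain ⟨Q, hQ⟩ := (IsPGroup.to_sup_of_normal_right' h1 h2 h3).exists_le_sylow
  obtain ⟨g, hg⟩ := MulAction.exists_smul_eq G Q S
  have key : ∀ x ∈ (Q : Subgroup G), g * x * g⁻¹ ∈ (S : Subgroup G) := by
    intro x hx
    rw [← hg]
    have h3 := Subgroup.smul_mem_pointwise_smul x (MulAut.conj g) (Q : Subgroup G) hx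
    have h4 : ((g • Q : Sylow 2 G) : Subgroup G) = MulAut.conj g • (Q : Subgroup G) := rfl
    rw [h4]
    simpa using h3
  have hu' := key u (hQ (Subgroup.mem_sup_left (Subgroup.mem_zpowers u)))
  have hw' := key w (hQ (Subgroup.mem_sup_right (Subgroup.mem_zpowers w)))
  have h5 := quatX_involution_unique e ⟨_, hu'⟩ ⟨_, hw'⟩
    (by rw [← Subgroup.orderOf_coe]; simpa [orderOf_conj_eq] using hu)
    (by rw [← Subgroup.orderOf_coe]; simpa [orderOf_conj_eq] using hw)
  have h6 : g * u * g⁻¹ = g * w * g⁻¹ := congrArg Subtype.val h5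
  simpa using h6

/-- With a generalized quaternion Sylow 2-subgroup, the product of two involutions has odd order. -/
theorem not_two_dvd_orderOf_mul_involutions (S : Sylow 2 G) {m : ℕ} [NeZero m]
    (e : (S : Subgroup G) ≃* QuaternionGroup m) (t t' : G) (ht : orderOf t = 2)
    (ht' : orderOf t' = 2) : ¬ 2 ∣ orderOf (t' * t) := by
  intro hdvd
  have ht2 : t * t = 1 := by
    have := pow_orderOf_eq_one t
    rwa [ht, sq] at this
  have ht2' : t' * t' = 1 := by
    have := pow_orderOf_eq_one t'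
    rwa [ht', sq] at this
  have htinv : t⁻¹ = t := inv_eq_of_mul_eq_one_left ht2
  have htinv' : t'⁻¹ = t' := inv_eq_of_mul_eq_one_left ht2'
  set r := t' * t with hr
  have hrinv : r⁻¹ = t * t' := by rw [hr, mul_inv_rev, htinv, htinv']
  obtain ⟨k, hk⟩ := hdvd
  have hk0 : k ≠ 0 := by
    rintro rfl
    have := orderOf_pos r
    omega
  set z := r ^ k with hz
  have hzo : orderOf z = 2 := by
    rw [hz, orderOf_pow_of_dvd hk0 ⟨2, by rw [hk]; ring⟩, hk]
    exact Nat.mul_div_cancel _ (Nat.pos_of_ne_zero hk0)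
  have hz2 : z * z = 1 := by
    have := pow_orderOf_eq_one z
    rwa [hzo, sq] at this
  have hzinv : z⁻¹ = z := inv_eq_of_mul_eq_one_left hz2
  have hc1 : t * z * t⁻¹ = z := by
    have h1 : t * r * t⁻¹ = r⁻¹ := by
      rw [hrinv, hr, htinv]
      calc t * (t' * t) * t = t * t' * (t * t) := by group
        _ = t * t' := by rw [ht2, mul_one]
    rw [hz, ← conj_pow, h1, inv_pow, ← hz, hzinv]
  have hc2 : t' * z * t'⁻¹ = z := by
    have h1 : t' * r * t'⁻¹ = r⁻¹ := by
      rw [hrinv, hr, htinv']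
      calc t' * (t' * t) * t' = (t' * t') * t * t' := by group
        _ = t * t' := by rw [ht2', one_mul]
    rw [hz, ← conj_pow, h1, inv_pow, ← hz, hzinv]
  have e1 : t = z := comm_involutions_eq S e t z ht hzo (by
    show t * z = z * t
    calc t * z = t * z * t⁻¹ * t := by group
      _ = z * t := by rw [hc1])
  have e2 : t' = z := comm_involutions_eq S e t' z ht' hzo (by
    show t' * z = z * t'
    calc t' * z = t' * z * t'⁻¹ * t' := by group
      _ = z * t' := by rw [hc2])
  have hr1 : r = 1 := by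
    have h1 : t' = t := e2.trans e1.symm
    rw [hr, h1, ht2]
  rw [hr1, orderOf_one] at hk
  omega

/-- **S0845**, in the stronger form: the normal subgroup contains all involutions. -/
theorem bs_normal (S : Sylow 2 G) (n : ℕ) (e : (S : Subgroup G) ≃* QuaternionGroup (2 ^ (n + 2))) :
    ∃ M : Subgroup G, M.Normal ∧ (∀ t : G, orderOf t = 2 → t ∈ M) ∧ ¬ commutator G ≤ M := by
  classical
  haveI : Fintype G := Fintype.ofFinite G
  obtain ⟨χ₁, χ₂, h1, h2, -, -, hdeg, hval⟩ := bs_chars S n e
  obtain ⟨d, hd, hd1⟩ := irr_apply_one h2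
  have hc1 : IsCharacter G χ₁ := isCharacter_of_isIrrCharacter h1
  refine ⟨Cfsg.Agent.Lib.Helper82.charKer χ₁ hc1, inferInstance, ?_, ?_⟩
  · intro t ht
    rw [Cfsg.Agent.Lib.Helper82.mem_charKer]
    have hs1 := Cfsg.Agent.Lib.Helper82.isIrr_sum_conj_mul h1 t t
    have hs2 := Cfsg.Agent.Lib.Helper82.isIrr_sum_conj_mul h2 t t
    have hall : ∀ a : G, χ₁ (a * t * a⁻¹ * t) - χ₂ (a * t * a⁻¹ * t) = 1 := by
      intro a
      apply hval
      intro h4
      exact not_two_dvd_orderOf_mul_involutions S e t (a * t * a⁻¹) ht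
        (by rw [orderOf_conj_eq, ht]) (dvd_trans (by norm_num) h4)
    have hsum : ∑ a : G, χ₁ (a * t * a⁻¹ * t) - ∑ a : G, χ₂ (a * t * a⁻¹ * t) = (Nat.card G : ℂ) := by
      rw [← Finset.sum_sub_distrib, Finset.sum_congr rfl (fun a _ => hall a), Finset.sum_const,
        Finset.card_univ, Nat.card_eq_fintype_card]
      simp
    have hvt : χ₁ t = χ₂ t + 1 := by
      have := hval t (by rw [ht]; norm_num)
      linear_combination this
    rw [hs1, hs2, hvt, hdeg, hd1] at hsum
    have hG : (Nat.card G : ℂ) ≠ 0 := by exact_mod_cast (Nat.card_pos (α := G)).ne'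
    have hd0 : (d : ℂ) ≠ 0 := by exact_mod_cast hd.ne'
    have hd10 : (d : ℂ) + 1 ≠ 0 := by exact_mod_cast (Nat.succ_ne_zero d)
    field_simp at hsum
    have hsq : (χ₂ t - d) ^ 2 = 0 := by linear_combination -hsum
    have hv : χ₂ t = d := by
      have := pow_eq_zero_iff (n := 2) (by norm_num) |>.mp hsq
      linear_combination this
    rw [hvt, hdeg, hv, hd1]
  · intro hle
    have h3 : χ₁ 1 = 1 := (Cfsg.Agent.Lib.Helper82.isIrr_linear_iff h1).mpr (fun x hx => hle hx)
    rw [hdeg, hd1] at h3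
    have : (d : ℂ) = 0 := by linear_combination h3
    have : d = 0 := by exact_mod_cast this
    omega

end

end Cfsg.Agent.Lib.Helper19
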