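import Mathlib
import Cfsg.Prelude.Def_Characters
import Cfsg.Agent.Lib.Helper19.BSNormal
import Cfsg.Agent.Lib.Helper76.SylowNumber

set_option autoImplicit false

namespace Cfsg.Agent.Lib.Helper19

open Cfsg QuaternionGroup

section
variable {G : Type*} [Group G]

/-- the subgroup generated by the involutions is normal -/
theorem normal_closure_involutions : (Subgroup.closure {g : G | orderOf g = 2}).Normal := by
  have h : Subgroup.closure {g : G | orderOf g = 2} =
      Subgroup.normalClosure {g : G | orderOf g = 2} := by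
    unfold Subgroup.normalClosure
    congr 1
    ext x
    rw [Group.mem_conjugatesOfSet_iff]
    constructor
    · intro hx
      exact ⟨x, hx, IsConj.refl x⟩
    · rintro ⟨y, hy, hxy⟩
      obtain ⟨c, hc⟩ := isConj_iff.mp hxy
      rw [← hc]
      show orderOf (c * y * c⁻¹) = 2
      rw [orderOf_conj_eq]
      exact hy
  rw [h]
  infer_instance

/-- a normal subgroup of a generalized quaternion group is cyclic or contains the commutator
subgroup -/
theorem quatX_normal_cyclic_or {X : Type*} [Group X] {m : ℕ} [NeZero m]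
    (e : X ≃* QuaternionGroup m) (R : Subgroup X) [hR : R.Normal] :
    IsCyclic R ∨ commutator X ≤ R := by
  by_cases h : ∃ i, (xa i : QuaternionGroup m) ∈ R.map e.toMonoidHom
  · right
    obtain ⟨i, hi⟩ := h
    haveI : (R.map e.toMonoidHom).Normal := hR.map _ e.surjective
    have h1 := quat_commutator_le_of_normal (R.map e.toMonoidHom) i hi
    rw [commutator_eq_comap e]
    have h2 := Subgroup.comap_mono (f := e.toMonoidHom) h1
    rwa [Subgroup.comap_map_eq_self_of_injective e.injective] at h2
  · left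
    push Not at h
    let f : R →* Subgroup.zpowers (a 1 : QuaternionGroup m) :=
      (e.toMonoidHom.comp R.subtype).codRestrict _ (fun x => by
        rw [quat_mem_zpowers_a_one]
        rcases hx : e (x : X) with i | i
        · exact ⟨i, hx⟩
        · exact absurd ⟨(x : X), x.2, hx⟩ (h i))
    apply isCyclic_of_injective f
    intro x y hxy
    have h1 : e (x : X) = e (y : X) := congrArg Subtype.val hxy
    exact Subtype.ext (e.injective h1)

end

section
variable {G : Type*} [Group G] [Finite G]

theorem bs_inf_closure_cyclic (S : Sylow 2 G) (n : ℕ)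
    (e : (S : Subgroup G) ≃* QuaternionGroup (2 ^ (n + 2))) :
    IsCyclic ((S : Subgroup G) ⊓ Subgroup.closure {g : G | orderOf g = 2} : Subgroup G) := by
  classical
  haveI : Fact (Nat.Prime 2) := ⟨Nat.prime_two⟩
  set L := Subgroup.closure {g : G | orderOf g = 2} with hL
  haveI hLn : L.Normal := normal_closure_involutions
  rcases quatX_normal_cyclic_or e (L.subgroupOf (S : Subgroup G)) with h | h
  · rw [← Subgroup.inf_subgroupOf_left] at h
    exact isCyclic_of_surjective (Subgroup.subgroupOfEquivOfLe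
      (inf_le_left : (S : Subgroup G) ⊓ L ≤ (S : Subgroup G))).toMonoidHom
      (Subgroup.subgroupOfEquivOfLe _).surjective
  · exfalso
    have hD : ⁅(S : Subgroup G), (S : Subgroup G)⁆ ≤ L := by
      rw [← Subgroup.map_subtype_commutator]
      rintro _ ⟨x, hx, rfl⟩
      exact Subgroup.mem_subgroupOf.mp (h hx)
    set G₁ : Subgroup G := L ⊔ (S : Subgroup G) with hG₁
    have hSG₁ : (S : Subgroup G) ≤ G₁ := le_sup_right
    have hLG₁ : L ≤ G₁ := le_sup_left
    have hcomm : ⁅G₁, G₁⁆ ≤ L := by
      rw [Subgroup.commutator_le]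
      intro g₁ hg₁ g₂ hg₂
      obtain ⟨l₁, hl₁, s₁, hs₁, rfl⟩ := Subgroup.mem_sup_of_normal_left.mp hg₁
      obtain ⟨l₂, hl₂, s₂, hs₂, rfl⟩ := Subgroup.mem_sup_of_normal_left.mp hg₂
      rw [← QuotientGroup.eq_one_iff, ← QuotientGroup.mk'_apply, map_commutatorElement, map_mul,
        map_mul]
      have e1 : QuotientGroup.mk' L l₁ = 1 := by
        rw [QuotientGroup.mk'_apply, QuotientGroup.eq_one_iff]; exact hl₁
      have e2 : QuotientGroup.mk' L l₂ = 1 := by
        rw [QuotientGroup.mk'_apply, QuotientGroup.eq_one_iff]; exact hl₂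
      rw [e1, e2, one_mul, one_mul, ← map_commutatorElement, QuotientGroup.mk'_apply,
        QuotientGroup.eq_one_iff]
      exact hD (Subgroup.commutator_mem_commutator hs₁ hs₂)
    let S₁ : Sylow 2 G₁ := S.subtype hSG₁
    let e₁ : (S₁ : Subgroup G₁) ≃* QuaternionGroup (2 ^ (n + 2)) :=
      (Subgroup.subgroupOfEquivOfLe hSG₁).trans e
    obtain ⟨M, hM, hinv, hnot⟩ := bs_normal S₁ n e₁
    apply hnot
    rw [← Subgroup.map_le_map_iff_of_injective G₁.subtype_injective,
      Subgroup.map_subtype_commutator]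
    refine hcomm.trans ?_
    rw [hL, Subgroup.closure_le]
    intro t ht
    have htL : t ∈ L := Subgroup.subset_closure ht
    refine ⟨⟨t, hLG₁ htL⟩, hinv _ ?_, rfl⟩
    rw [← Subgroup.orderOf_coe]
    exact ht

theorem sylow_normal_cyclic_of_inf (S : Sylow 2 G) (L : Subgroup G) [L.Normal]
    (hcyc : IsCyclic ((S : Subgroup G) ⊓ L : Subgroup G)) (Q : Sylow 2 L) : IsCyclic Q := by
  classical
  haveI : Fact (Nat.Prime 2) := ⟨Nat.prime_two⟩
  have hpg : IsPGroup 2 (((S : Subgroup G) ⊓ L).subgroupOf L) :=
    (S.isPGroup'.to_le inf_le_left).comap_subtype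
  let T : Sylow 2 L := hpg.toSylow (Cfsg.Agent.Lib.Helper76.not_dvd_relIndex_inf_normal 2 S L)
  haveI : IsCyclic (T : Subgroup L) := by
    show IsCyclic (((S : Subgroup G) ⊓ L).subgroupOf L)
    exact isCyclic_of_surjective (Subgroup.subgroupOfEquivOfLe
      (inf_le_right : (S : Subgroup G) ⊓ L ≤ L)).symm.toMonoidHom
      (Subgroup.subgroupOfEquivOfLe _).symm.surjective
  exact isCyclic_of_surjective (Sylow.equiv T Q).toMonoidHom (Sylow.equiv T Q).surjective

/-- **S0846** -/
theorem bs_closure_sylow_cyclic (S : Sylow 2 G) (n : ℕ)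
    (e : (S : Subgroup G) ≃* QuaternionGroup (2 ^ (n + 2)))
    (Q : Sylow 2 ↥(Subgroup.closure {g : G | orderOf g = 2})) : IsCyclic Q := by
  haveI : (Subgroup.closure {g : G | orderOf g = 2}).Normal := normal_closure_involutions
  exact sylow_normal_cyclic_of_inf S _ (bs_inf_closure_cyclic S n e) Q

end

end Cfsg.Agent.Lib.Helper19
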