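import Mathlib
import Cfsg.Prelude.Def_Characters
import Cfsg.Agent.Lib.Helper5.Clifford
import Cfsg.Agent.Lib.Helper19.IndFun2

set_option autoImplicit false

namespace Cfsg.Agent.Lib.Helper19

open Cfsg Cfsg.Agent.Lib.Helper20 Cfsg.Agent.Lib.Helper5
open scoped ComplexConjugate

/-- Orbit-sum lemma over `ℤ`: all orbits have `p`-power size, `f` invariant, `p ∣ f` at all fixed
points; then `p` divides the total sum. -/
theorem dvd_sum_of_orbit {p : ℕ} {A X : Type*} [Group A] [MulAction A X] [Fintype X]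
    (horb : ∀ x : X, ∃ n : ℕ, Nat.card (MulAction.orbit A x) = p ^ n)
    (f : X → ℤ) (hinv : ∀ (a : A) (x : X), f (a • x) = f x)
    (hfix : ∀ x, (∀ a : A, a • x = x) → (p : ℤ) ∣ f x) : (p : ℤ) ∣ ∑ x, f x := by
  classical
  haveI : Fintype (Quotient (MulAction.orbitRel A X)) := Fintype.ofFinite _
  rw [← Finset.sum_fiberwise Finset.univ
    (fun x : X => (Quotient.mk'' x : Quotient (MulAction.orbitRel A X))) f]
  apply Finset.dvd_sum
  intro ω _
  have h1 : ∀ x ∈ Finset.univ.filter
      (fun x : X => (Quotient.mk'' x : Quotient (MulAction.orbitRel A X)) = ω),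
      f x = f ω.out := by
    intro x hx
    have hx' : (Quotient.mk'' x : Quotient (MulAction.orbitRel A X)) = ω :=
      (Finset.mem_filter.1 hx).2
    have h2 : (MulAction.orbitRel A X) x ω.out := by
      apply Quotient.exact
      rw [Quotient.out_eq]; exact hx'
    rw [MulAction.orbitRel_apply] at h2
    obtain ⟨q, hq⟩ := h2
    rw [← hq]; exact hinv q _
  rw [Finset.sum_congr rfl h1, Finset.sum_const, nsmul_eq_mul]
  have hcard : (Finset.univ.filter
      (fun x : X => (Quotient.mk'' x : Quotient (MulAction.orbitRel A X)) = ω)).card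
      = Nat.card (MulAction.orbit A ω.out) := by
    rw [Nat.card_eq_fintype_card, Fintype.card_subtype]
    congr 1
    ext x
    simp only [Finset.mem_filter, Finset.mem_univ, true_and]
    rw [← MulAction.orbitRel_apply]
    constructor
    · intro hx
      apply Quotient.exact
      rw [Quotient.out_eq]; exact hx
    · intro hx
      have := Quotient.sound hx
      rw [Quotient.out_eq] at this
      exact this
  rw [hcard]
  obtain ⟨n, hn⟩ := horb ω.out
  rw [hn]
  rcases Nat.eq_zero_or_pos n with h0 | h0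
  · subst h0
    rw [pow_zero, Nat.cast_one, one_mul]
    apply hfix
    intro q
    rw [pow_zero] at hn
    have hsub : Subsingleton (MulAction.orbit A ω.out) := (Nat.card_eq_one_iff_unique.1 hn).1
    have := hsub.elim ⟨q • ω.out, MulAction.mem_orbit _ q⟩ ⟨ω.out, MulAction.mem_orbit_self _⟩
    exact congrArg Subtype.val this
  · apply Dvd.dvd.mul_right
    exact_mod_cast dvd_pow_self p h0.ne'

section Act

variable {E : Type*} [Group E] {D : Subgroup E}

/-- the left action of `E` on the irreducible characters of a normal subgroup -/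
@[reducible] noncomputable def irrAct [Finite D] (hD : D.Normal) : MulAction E (IrrCharacter D) where
  smul g φ := ⟨cjF hD φ g⁻¹, isIrrCharacter_cjF hD φ.2 g⁻¹⟩
  one_smul φ := by
    apply Subtype.ext
    change cjF hD φ (1 : E)⁻¹ = φ
    rw [inv_one, cjF_one]
  mul_smul g h φ := by
    apply Subtype.ext
    change cjF hD φ (g * h)⁻¹ = cjF hD (cjF hD φ h⁻¹) g⁻¹
    rw [cjF_cjF, mul_inv_rev]

theorem cjF_of_mem (hD : D.Normal) {φ : D → ℂ} (hφ : IsClassFunction D φ) {g : E} (hg : g ∈ D) :
    cjF hD φ g = φ := by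
  funext n
  rw [cjF_apply]
  exact hφ n ⟨g, hg⟩

theorem card_orbit_irrAct [Finite E] {p : ℕ} (hp : p.Prime) (hD : D.Normal)
    (hind : ∃ k : ℕ, D.index = p ^ k) (φ : IrrCharacter D) :
    ∃ n : ℕ, Nat.card (@MulAction.orbit E (IrrCharacter D) (irrAct hD).toSMul φ) = p ^ n := by
  letI := irrAct (E := E) hD
  obtain ⟨k, hk⟩ := hind
  have h1 : D ≤ MulAction.stabilizer E φ := by
    intro g hg
    rw [MulAction.mem_stabilizer_iff]
    apply Subtype.ext
    change cjF hD φ g⁻¹ = φ
    exact cjF_of_mem hD (isClassFunction_of_isCharacter (isCharacter_of_isIrrCharacter φ.2))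
      (D.inv_mem hg)
  have h2 : (MulAction.stabilizer E φ).index ∣ p ^ k := by
    rw [← hk]; exact Subgroup.index_dvd_of_le h1
  obtain ⟨n, _, hn⟩ := (Nat.dvd_prime_pow hp).1 h2
  refine ⟨n, ?_⟩
  rw [← hn, MulAction.index_stabilizer]
  rfl

end Act

/-- **Key step of Dade's theorem.**  `D` normal of `p`-power index in `E`, `Θ` an `E`-invariant
character of `D`, `ψ` a character of `E` with `[ψ_D Θ, Θ]` prime to `p`: some `E`-invariant
irreducible constituent of `Θ` has multiplicity prime to `p`. -/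
theorem exists_invariant_constituent {E : Type*} [Group E] [Fintype E] {p : ℕ} (hp : p.Prime)
    (D : Subgroup E) [Fintype D] (hD : D.Normal) (hind : ∃ k : ℕ, D.index = p ^ k)
    (Θ : D → ℂ) (hΘ : IsCharacter D Θ) (hinv : ∀ g : E, cjF hD Θ g = Θ)
    (ψ : E → ℂ) (hψ : IsCharacter E ψ) (a : ℤ)
    (ha : classInner (fun d : D => ψ d * Θ d) Θ = a) (hpa : ¬ (p : ℤ) ∣ a) :
    ∃ φ : D → ℂ, IsIrrCharacter D φ ∧ (∀ g : E, cjF hD φ g = φ) ∧
      ∃ m : ℕ, ¬ p ∣ m ∧ classInner Θ φ = m := by
  classical
  by_contra hcon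
  push Not at hcon
  haveI : Finite (IrrCharacter D) := finite_irrCharacter
  haveI : Fintype (IrrCharacter D) := Fintype.ofFinite _
  letI := irrAct (E := E) hD
  have hΞ : IsCharacter D (fun d : D => ψ d * Θ d) :=
    isCharacter_mul (isCharacter_restrict hψ D) hΘ
  have hb : ∀ φ : IrrCharacter D, ∃ n : ℕ, classInner Θ (φ : D → ℂ) = n :=
    fun φ => isCharacter_classInner_nat hΘ φ.2
  have hc : ∀ φ : IrrCharacter D, ∃ n : ℕ, classInner (fun d : D => ψ d * Θ d) (φ : D → ℂ) = n :=
    fun φ => isCharacter_classInner_nat hΞ φ.2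
  choose b hb using hb
  choose c hc using hc
  have hexp : Θ = ∑ φ : IrrCharacter D, classInner Θ (φ : D → ℂ) • (φ : D → ℂ) :=
    eq_sum_classInner_smul (isClassFunction_of_isCharacter hΘ)
  have hsum : (a : ℂ) = ((∑ φ : IrrCharacter D, (c φ : ℤ) * (b φ : ℤ) : ℤ) : ℂ) := by
    rw [← ha]
    have hx : classInner (fun d : D => ψ d * Θ d) Θ = classInner (fun d : D => ψ d * Θ d)
        (∑ φ : IrrCharacter D, classInner Θ (φ : D → ℂ) • (φ : D → ℂ)) := by rw [← hexp]
    rw [hx, classInner_sum_right]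
    push_cast
    apply Finset.sum_congr rfl
    intro φ _
    rw [classInner_smul_right, hb, hc]
    simp [mul_comm]
  have hsum' : a = ∑ φ : IrrCharacter D, (c φ : ℤ) * (b φ : ℤ) := by exact_mod_cast hsum
  apply hpa
  rw [hsum']
  have hΞinv : ∀ g : E, cjF hD (fun d : D => ψ d * Θ d) g = fun d : D => ψ d * Θ d := by
    intro g
    funext d
    rw [cjF_apply]
    have h1 := congrFun (hinv g) d
    rw [cjF_apply] at h1
    rw [h1]
    congr 1
    exact isClassFunction_of_isCharacter hψ d g
  apply dvd_sum_of_orbit (A := E) (fun φ => card_orbit_irrAct hp hD hind φ)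
  · intro g φ
    have e1 : (b (g • φ) : ℂ) = b φ := by
      rw [← hb, ← hb]
      change classInner Θ (cjF hD φ g⁻¹) = _
      conv_lhs => rw [← hinv g⁻¹]
      exact classInner_cjF hD _ _ _
    have e2 : (c (g • φ) : ℂ) = c φ := by
      rw [← hc, ← hc]
      change classInner _ (cjF hD φ g⁻¹) = _
      conv_lhs => rw [← hΞinv g⁻¹]
      exact classInner_cjF hD _ _ _
    have e1' : b (g • φ) = b φ := by exact_mod_cast e1
    have e2' : c (g • φ) = c φ := by exact_mod_cast e2
    rw [e1', e2']
  · intro φ hfix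
    have h1 : ∀ g : E, cjF hD (φ : D → ℂ) g = φ := by
      intro g
      have := congrArg Subtype.val (hfix g⁻¹)
      change cjF hD φ g⁻¹⁻¹ = φ at this
      rwa [inv_inv] at this
    have h2 := hcon φ φ.2 h1 (b φ)
    have h3 : p ∣ b φ := by
      by_contra h
      exact h2 h (hb φ)
    apply Dvd.dvd.mul_left
    exact_mod_cast h3

end Cfsg.Agent.Lib.Helper19
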