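import Mathlib
import Cfsg.Prelude.Def_Characters
import Cfsg.Agent.Lib.Helper19.Dade
import Cfsg.Agent.S0874

set_option autoImplicit false

namespace Cfsg.Agent.Lib.Helper19

open Cfsg Cfsg.Agent.Lib.Helper20 Cfsg.Agent.Lib.Helper5
open scoped ComplexConjugate

section

variable {G : Type*} [Group G]

/-- `E ⊓ N` as a subgroup of `E` -/
def infEquiv (E N : Subgroup G) : ↥(E ⊓ N) ≃* ↥(N.subgroupOf E) where
  toFun x := ⟨⟨x, x.2.1⟩, Subgroup.mem_subgroupOf.mpr x.2.2⟩
  invFun y := ⟨y.1.1, ⟨y.1.2, Subgroup.mem_subgroupOf.mp y.2⟩⟩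
  left_inv _ := rfl
  right_inv _ := rfl
  map_mul' _ _ := rfl

/-- restriction of a function on `N` to `N.subgroupOf E` -/
def resSub (E N : Subgroup G) (ϑ : N → ℂ) : ↥(N.subgroupOf E) → ℂ :=
  fun x => ϑ ⟨((x : E) : G), Subgroup.mem_subgroupOf.mp x.2⟩

/-- `|ϑ|²` extended by zero -/
noncomputable def sqExt (N : Subgroup G) (ϑ : N → ℂ) : G → ℂ :=
  fun g => extendByZero N ϑ g * conj (extendByZero N ϑ g)

theorem conj_sqExt (N : Subgroup G) (ϑ : N → ℂ) (g : G) : conj (sqExt N ϑ g) = sqExt N ϑ g := by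
  simp only [sqExt, map_mul, Complex.conj_conj]
  ring

theorem extendByZero_classFunction (N : Subgroup G) [hN : N.Normal] (ϑ : N → ℂ)
    (hinv : ∀ (g : G) (n : N), ϑ ⟨g * n * g⁻¹, hN.conj_mem (n : G) n.2 g⟩ = ϑ n) :
    IsClassFunction G (extendByZero N ϑ) := by
  intro g h
  by_cases hg : g ∈ N
  · rw [extendByZero_of_mem N ϑ hg, extendByZero_of_mem N ϑ (hN.conj_mem g hg h)]
    exact hinv h ⟨g, hg⟩
  · have : h * g * h⁻¹ ∉ N := by
      intro hh
      apply hg
      have := hN.conj_mem _ hh h⁻¹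
      simpa [mul_assoc] using this
    rw [extendByZero_of_not_mem N ϑ hg, extendByZero_of_not_mem N ϑ this]

theorem sqExt_classFunction (N : Subgroup G) [hN : N.Normal] (ϑ : N → ℂ)
    (hinv : ∀ (g : G) (n : N), ϑ ⟨g * n * g⁻¹, hN.conj_mem (n : G) n.2 g⟩ = ϑ n) :
    IsClassFunction G (sqExt N ϑ) := by
  intro g h
  simp only [sqExt]
  rw [extendByZero_classFunction N ϑ hinv g h]

theorem index_mul_classInner_indFun [Fintype G] (N : Subgroup G) [hN : N.Normal] (ϑ : N → ℂ)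
    (hinv : ∀ (g : G) (n : N), ϑ ⟨g * n * g⁻¹, hN.conj_mem (n : G) n.2 g⟩ = ϑ n)
    (E : Subgroup G) [Fintype E] [Fintype ↥(N.subgroupOf E)] (ψ : E → ℂ) :
    (N.index : ℂ) * classInner (indFun E ψ) (sqExt N ϑ)
      = ((E ⊔ N).index : ℂ) *
        classInner (fun d : ↥(N.subgroupOf E) => ψ d * resSub E N ϑ d) (resSub E N ϑ) := by
  rw [frobenius_reciprocity E ψ _ (sqExt_classFunction N ϑ hinv)]
  unfold classInner
  have h1 : ∑ x : E, ψ x * conj (sqExt N ϑ x)
      = ∑ d : ↥(N.subgroupOf E), ψ d * resSub E N ϑ d * conj (resSub E N ϑ d) := by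
    have h2 : ∀ x : E, ψ x * conj (sqExt N ϑ x)
        = extendByZero (N.subgroupOf E) (resSub E N ϑ) x *
          (ψ x * conj (extendByZero (N.subgroupOf E) (resSub E N ϑ) x)) := by
      intro x
      rw [conj_sqExt, sqExt]
      have := extendByZero_subgroupOf N E ϑ x
      rw [← this]
      change ψ x * (extendByZero (N.subgroupOf E) (resSub E N ϑ) x *
        conj (extendByZero (N.subgroupOf E) (resSub E N ϑ) x)) = _
      ring
    rw [Finset.sum_congr rfl (fun x _ => h2 x), sum_extendByZero_mul]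
    apply Finset.sum_congr rfl
    intro d _
    rw [extendByZero_coe]
    ring
  rw [h1]
  have h3 : (N.index : ℂ) = ((N.subgroupOf E).index : ℂ) * ((E ⊔ N).index : ℂ) := by
    have := Subgroup.relIndex_mul_index (le_sup_right : N ≤ E ⊔ N)
    rw [Subgroup.relIndex_sup_right] at this
    rw [← this]
    push_cast
    rfl
  have h4 : ((N.subgroupOf E).index : ℂ) = (Nat.card ↥(N.subgroupOf E) : ℂ)⁻¹ * (Nat.card E : ℂ) :=
    index_eq_div _
  have hE : (Nat.card E : ℂ) ≠ 0 := by exact_mod_cast Nat.card_pos.ne'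
  rw [h3, h4]
  field_simp

theorem index_mul_classInner_const [Fintype G] (N : Subgroup G) [Fintype N] (ϑ : N → ℂ)
    (hϑ : IsIrrCharacter N ϑ) (m : ℂ) :
    (N.index : ℂ) * classInner (fun _ : G => m) (sqExt N ϑ) = m := by
  have h0 := classInner_irr_self hϑ
  unfold classInner at h0 ⊢
  have h1 : ∑ g : G, m * conj (sqExt N ϑ g) = m * ∑ n : N, ϑ n * conj (ϑ n) := by
    rw [Finset.mul_sum]
    have h2 : ∀ g : G, m * conj (sqExt N ϑ g)
        = extendByZero N ϑ g * (m * conj (extendByZero N ϑ g)) := by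
      intro g
      rw [conj_sqExt, sqExt]; ring
    rw [Finset.sum_congr rfl (fun x _ => h2 x), sum_extendByZero_mul]
    apply Finset.sum_congr rfl
    intro d _
    rw [extendByZero_coe]
    ring
  rw [h1, index_eq_div N]
  have hG : (Nat.card G : ℂ) ≠ 0 := by exact_mod_cast Nat.card_pos.ne'
  have hN : (Nat.card N : ℂ) ≠ 0 := by exact_mod_cast Nat.card_pos.ne'
  have h5 : ∑ n : N, ϑ n * conj (ϑ n) = (Nat.card N : ℂ) := by
    field_simp at h0
    exact h0
  rw [h5]
  field_simp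

end

theorem list_sum_int_dvd {α : Type*} (p : ℤ) (F : α → ℂ) (l : List α)
    (h : ∀ t ∈ l, ∃ z : ℤ, p ∣ z ∧ F t = z) : ∃ z : ℤ, p ∣ z ∧ (l.map F).sum = z := by
  induction l with
  | nil => exact ⟨0, dvd_zero _, by simp⟩
  | cons a l ih =>
    obtain ⟨z, hz, e⟩ := ih (fun t ht => h t (List.mem_cons_of_mem _ ht))
    obtain ⟨w, hw, e'⟩ := h a List.mem_cons_self
    refine ⟨w + z, dvd_add hw hz, ?_⟩
    rw [List.map_cons, List.sum_cons, e, e']
    push_cast; ring

/-- the functional `h ↦ c * [h, f]` -/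
noncomputable def innerHom {G : Type*} [Group G] [Fintype G] (c : ℂ) (f : G → ℂ) :
    (G → ℂ) →+ ℂ where
  toFun h := c * classInner h f
  map_zero' := by rw [classInner_zero_left, mul_zero]
  map_add' a b := by rw [classInner_add_left, mul_add]

/-- first half of Dade's theorem: choice of the elementary subgroup. -/
theorem exists_elementary_sup_top {G : Type*} [Group G] [Fintype G] (p : ℕ) (hp : p.Prime)
    (N : Subgroup G) [hN : N.Normal] (hind : ∃ k : ℕ, N.index = p ^ k) (ϑ : N → ℂ)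
    (hϑ : IsIrrCharacter N ϑ)
    (hinv : ∀ (g : G) (n : N), ϑ ⟨g * n * g⁻¹, hN.conj_mem (n : G) n.2 g⟩ = ϑ n) :
    ∃ (E : Subgroup G) (ψ : E → ℂ) (_ : Fintype ↥(N.subgroupOf E)) (a : ℤ),
      IsElementary p E ∧ IsCharacter E ψ ∧ E ⊔ N = ⊤ ∧ ¬ (p : ℤ) ∣ a ∧
      classInner (fun d : ↥(N.subgroupOf E) => ψ d * resSub E N ϑ d) (resSub E N ϑ) = a := by
  classical
  obtain ⟨m, l, hm, hl, hsum⟩ := Cfsg.Agent.S0874.result (G := G) p hp
  by_contra hcon
  push Not at hcon
  apply hm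
  haveI : Fintype N := Fintype.ofFinite _
  have h1 := congrArg (innerHom (N.index : ℂ) (sqExt N ϑ)) hsum
  rw [map_list_sum, List.map_map] at h1
  have h2 : innerHom (N.index : ℂ) (sqExt N ϑ) (fun _ : G => (m : ℂ)) = m :=
    index_mul_classInner_const N ϑ hϑ m
  rw [h2] at h1
  obtain ⟨z, hz, e⟩ := list_sum_int_dvd (p : ℤ)
    ((innerHom (N.index : ℂ) (sqExt N ϑ)) ∘
      fun t : (E : Subgroup G) × ((E → ℂ) × ℤ) => (t.2.2 : ℂ) • indFun t.1 t.2.1) l (by
    intro t ht
    obtain ⟨hel, hch⟩ := hl t ht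
    haveI : Fintype t.1 := Fintype.ofFinite _
    haveI : Fintype ↥(N.subgroupOf t.1) := Fintype.ofFinite _
    have hΘ : IsCharacter ↥(N.subgroupOf t.1) (resSub t.1 N ϑ) :=
      isCharacter_comp_hom (isCharacter_of_isIrrCharacter hϑ)
        ((Subgroup.inclusion (inf_le_right : t.1 ⊓ N ≤ N)).comp (infEquiv t.1 N).symm.toMonoidHom)
    obtain ⟨a, ha⟩ := isCharacter_classInner_nat'
      (isCharacter_mul (isCharacter_restrict hch (N.subgroupOf t.1)) hΘ) hΘ
    have h3 : (innerHom (N.index : ℂ) (sqExt N ϑ)) ((t.2.2 : ℂ) • indFun t.1 t.2.1)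
        = ((t.2.2 * ((t.1 ⊔ N).index * a : ℕ) : ℤ) : ℂ) := by
      change (N.index : ℂ) * classInner ((t.2.2 : ℂ) • indFun t.1 t.2.1) (sqExt N ϑ) = _
      rw [classInner_smul_left, mul_left_comm, index_mul_classInner_indFun N ϑ hinv t.1 t.2.1]
      have ha' : classInner (fun d : ↥(N.subgroupOf t.1) => t.2.1 d * resSub t.1 N ϑ d)
          (resSub t.1 N ϑ) = a := ha
      rw [ha']
      push_cast; ring
    refine ⟨_, ?_, h3⟩
    apply Dvd.dvd.mul_left
    by_cases htop : t.1 ⊔ N = ⊤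
    · have h4 := hcon t.1 t.2.1 inferInstance a hel hch htop
      by_contra h5
      have h6 : ¬ (p : ℤ) ∣ (a : ℤ) := by
        intro h7
        apply h5
        push_cast
        exact Dvd.dvd.mul_left h7 _
      exact h4 h6 (by exact_mod_cast ha)
    · obtain ⟨k, hk⟩ := hind
      have h4 : (t.1 ⊔ N).index ∣ p ^ k := by
        rw [← hk]; exact Subgroup.index_dvd_of_le le_sup_right
      obtain ⟨j, _, hj⟩ := (Nat.dvd_prime_pow hp).1 h4
      have hj0 : j ≠ 0 := by
        rintro rfl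
        rw [pow_zero] at hj
        exact htop (Subgroup.index_eq_one.1 hj)
      have : p ∣ (t.1 ⊔ N).index * a := by
        rw [hj]
        exact Dvd.dvd.mul_right (dvd_pow_self p hj0) _
      exact_mod_cast this)
  rw [e] at h1
  have : m = z := by exact_mod_cast h1
  rw [this]; exact hz

end Cfsg.Agent.Lib.Helper19
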