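import Mathlib
import Cfsg.Prelude.Def_Characters
import Cfsg.Agent.Lib.Helper19.LinChar
import Cfsg.Agent.Lib.Helper82.LinCount

set_option autoImplicit false

namespace Cfsg.Agent.Lib.Helper19

open Cfsg Cfsg.Agent.Lib.Helper20
open scoped ComplexConjugate Pointwise

/-- extension of a homomorphism to `ℂˣ` along an injective homomorphism into a finite commutative
group -/
theorem exists_hom_ext_of_injective {A B : Type*} [Group A] [CommGroup B] [Finite B]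
    (j : A →* B) (hj : Function.Injective j) (f : A →* ℂˣ) :
    ∃ l : B →* ℂˣ, ∀ a : A, l (j a) = f a := by
  let e : A ≃* j.range := MonoidHom.ofInjective hj
  obtain ⟨l, hl⟩ := MonoidHom.domRestrict_surjective (M := ℂ) j.range (f.comp e.symm.toMonoidHom)
  refine ⟨l, fun a => ?_⟩
  have h1 := DFunLike.congr_fun hl (e a)
  have h2 : (f.comp e.symm.toMonoidHom) (e a) = f a := by simp
  rw [h2] at h1
  rw [← h1]
  rfl

/-- structure of an elementary group: central cyclic `p'`-subgroup times a Sylow `p`-subgroup -/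
theorem isComplement'_of_isElementary {E : Type*} [Group E] [Finite E] (p : ℕ) [hp : Fact p.Prime]
    (x₀ : E) (hx₀p : Nat.Coprime (orderOf x₀) p) (k : ℕ)
    (hk : (Subgroup.zpowers x₀).index = p ^ k) (Q : Sylow p E) :
    Subgroup.IsComplement' (Subgroup.zpowers x₀) (Q : Subgroup E) := by
  have hcardC : Nat.card (Subgroup.zpowers x₀) = orderOf x₀ := Nat.card_zpowers x₀
  have hcardE : Nat.card (Subgroup.zpowers x₀) * p ^ k = Nat.card E := by
    rw [← hk]; exact (Subgroup.zpowers x₀).card_mul_index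
  have hnd : ¬ p ∣ orderOf x₀ := by
    intro h
    have := Nat.Coprime.eq_one_of_dvd hx₀p.symm h
    exact hp.out.one_lt.ne' this
  have hcardQ : Nat.card (Q : Subgroup E) = p ^ k := by
    rw [Sylow.card_eq_multiplicity, ← hcardE, hcardC,
      Nat.factorization_mul (orderOf_pos x₀).ne' (pow_ne_zero _ hp.out.ne_zero)]
    simp [Nat.factorization_eq_zero_of_not_dvd hnd, hp.out.factorization_self]
  apply Subgroup.isComplement'_of_coprime
  · rw [hcardQ]; exact hcardE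
  · rw [hcardQ, hcardC]; exact Nat.Coprime.pow_right _ hx₀p

theorem mem_of_coprime_order {G : Type*} [Group G] [Finite G] {p : ℕ} (N : Subgroup G)
    [hN : N.Normal] (hind : ∃ k : ℕ, N.index = p ^ k) {x : G} (hx : Nat.Coprime (orderOf x) p) :
    x ∈ N := by
  obtain ⟨k, hk⟩ := hind
  rw [← QuotientGroup.eq_one_iff, ← orderOf_eq_one_iff]
  have h1 : orderOf (x : G ⧸ N) ∣ orderOf x := orderOf_map_dvd (QuotientGroup.mk' N) x
  have h2 : orderOf (x : G ⧸ N) ∣ p ^ k := by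
    rw [← hk, Subgroup.index_eq_card]; exact orderOf_dvd_natCard _
  exact Nat.Coprime.eq_one_of_dvd (Nat.Coprime.coprime_dvd_left h1 (Nat.Coprime.pow_right k hx)) h2

theorem exists_hom_ext_of_injective' {A B : Type*} [Group A] [Group B] [Finite B]
    (hB : ∀ a b : B, a * b = b * a)
    (j : A →* B) (hj : Function.Injective j) (f : A →* ℂˣ) :
    ∃ l : B →* ℂˣ, ∀ a : A, l (j a) = f a := by
  letI : CommGroup B := { ‹Group B› with mul_comm := hB }
  exact exists_hom_ext_of_injective j hj f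

/-- **Extension step of Dade's theorem.** -/
theorem exists_hom_extension {G : Type*} [Group G] [Finite G] (p : ℕ) [hp : Fact p.Prime]
    (N : Subgroup G) [hN : N.Normal] (hind : ∃ k : ℕ, N.index = p ^ k) (P : Sylow p G)
    (hcent : ∀ x ∈ (P : Subgroup G) ⊓ N, ∀ y ∈ (P : Subgroup G), x * y = y * x)
    (hlin : ∀ lam : ↥((P : Subgroup G) ⊓ N) → ℂ, IsCharacter ↥((P : Subgroup G) ⊓ N) lam →
      lam 1 = 1 → ∃ μ : ↥(P : Subgroup G) → ℂ, IsCharacter ↥(P : Subgroup G) μ ∧ μ 1 = 1 ∧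
        ∀ x : ↥((P : Subgroup G) ⊓ N), μ ⟨(x : G), x.2.1⟩ = lam x)
    (E : Subgroup G) (hel : IsElementary p E) (φ : ↥(E ⊓ N) → ℂ)
    (hφ : IsIrrCharacter ↥(E ⊓ N) φ) :
    ∃ μ : E →* ℂˣ, ∀ x : ↥(E ⊓ N), ((μ ⟨x, x.2.1⟩ : ℂˣ) : ℂ) = φ x := by
  classical
  obtain ⟨x₀, hx₀c, hx₀p, k, hk⟩ := hel
  obtain ⟨Q⟩ : Nonempty (Sylow p E) := inferInstance
  have hcompl := isComplement'_of_isElementary p x₀ hx₀p k hk Q
  have hQp : IsPGroup p ((Q : Subgroup E).map E.subtype) := Q.2.map _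
  obtain ⟨P', hP'⟩ := hQp.exists_le_sylow
  obtain ⟨g, hg⟩ := MulAction.exists_smul_eq G P' P
  have key : ∀ x ∈ (P' : Subgroup G), g * x * g⁻¹ ∈ (P : Subgroup G) := by
    intro x hx
    rw [← hg]
    have h3 := Subgroup.smul_mem_pointwise_smul x (MulAut.conj g) (P' : Subgroup G) hx
    have h4 : ((g • P' : Sylow p G) : Subgroup G) = MulAut.conj g • (P' : Subgroup G) := rfl
    rw [h4]
    simpa using h3
  have hQP : ∀ q : E, q ∈ (Q : Subgroup E) → g * (q : G) * g⁻¹ ∈ (P : Subgroup G) :=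
    fun q hq => key _ (hP' ⟨q, hq, rfl⟩)
  have hx₀N : (x₀ : G) ∈ N := mem_of_coprime_order N hind (by rwa [Subgroup.orderOf_coe])
  have hCN : ∀ c : E, c ∈ Subgroup.zpowers x₀ → (c : G) ∈ N := by
    rintro c ⟨n, rfl⟩
    simpa using N.zpow_mem hx₀N n
  have hCc : ∀ c : E, c ∈ Subgroup.zpowers x₀ → ∀ y : E, c * y = y * c := by
    rintro c ⟨n, rfl⟩ y
    exact ((Subgroup.mem_center_iff.1 (Subgroup.zpow_mem _ hx₀c n)) y).symm
  have hdec : ∀ y : E, ∃ c ∈ Subgroup.zpowers x₀, ∃ q ∈ (Q : Subgroup E), y = c * q := by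
    intro y
    obtain ⟨⟨c, q⟩, h⟩ := hcompl.2 y
    exact ⟨c.1, c.2, q.1, q.2, h.symm⟩
  have hQN : ∀ q q' : E, q ∈ (Q : Subgroup E) → (q : G) ∈ N → q' ∈ (Q : Subgroup E) →
      q * q' = q' * q := by
    intro q q' hq hqN hq'
    have h1 := hcent (g * q * g⁻¹) ⟨hQP q hq, hN.conj_mem _ hqN g⟩ (g * q' * g⁻¹) (hQP q' hq')
    apply Subtype.ext
    have h2 : g * ((q : G) * q') * g⁻¹ = g * ((q' : G) * q) * g⁻¹ := by
      calc g * ((q : G) * q') * g⁻¹ = (g * q * g⁻¹) * (g * q' * g⁻¹) := by group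
        _ = (g * q' * g⁻¹) * (g * q * g⁻¹) := h1
        _ = _ := by group
    exact mul_left_cancel (mul_right_cancel h2)
  have hqN_of : ∀ (a : ↥(E ⊓ N)) (c q : E), c ∈ Subgroup.zpowers x₀ →
      (⟨a, a.2.1⟩ : E) = c * q → (q : G) ∈ N := by
    intro a c q hc e1
    have h0 : (a : G) = (c : G) * q := congrArg Subtype.val e1
    have : (q : G) = (c : G)⁻¹ * a := by rw [h0]; group
    rw [this]; exact N.mul_mem (N.inv_mem (hCN c hc)) a.2.2
  have hDcomm : ∀ a b : ↥(E ⊓ N), a * b = b * a := by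
    intro a b
    obtain ⟨c, hc, q, hq, e1⟩ := hdec ⟨a, a.2.1⟩
    obtain ⟨c', hc', q', hq', e2⟩ := hdec ⟨b, b.2.1⟩
    have hqN := hqN_of a c q hc e1
    have h3 : Commute (c * q) (c' * q') :=
      Commute.mul_left (hCc c hc _) (Commute.mul_right (hCc c' hc' q).symm (hQN q q' hq hqN hq'))
    rw [← e1, ← e2] at h3
    apply Subtype.ext
    exact congrArg (Subtype.val : E → G) h3.eq
  have hφ1 : φ 1 = 1 := Cfsg.Agent.Lib.Helper82.isIrr_one_eq_one_of_comm hDcomm hφ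
  obtain ⟨f, hf⟩ := exists_hom_of_linear φ ⟨isCharacter_of_isIrrCharacter hφ, hφ1⟩
  have hPNcomm : ∀ a b : ↥((P : Subgroup G) ⊓ N), a * b = b * a :=
    fun a b => Subtype.ext (hcent a a.2 b b.2.1)
  let QN : Subgroup G := (Q : Subgroup E).map E.subtype ⊓ N
  have hQNE : QN ≤ E ⊓ N := by
    rintro _ ⟨⟨q, _, rfl⟩, h2⟩; exact ⟨q.2, h2⟩
  have hQNP : ∀ q : QN, g * (q : G) * g⁻¹ ∈ (P : Subgroup G) ⊓ N := by
    intro q
    obtain ⟨⟨q', hq', e⟩, h2⟩ := q.2
    refine ⟨?_, hN.conj_mem _ h2 g⟩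
    rw [← e]; exact hQP q' hq'
  let j : QN →* ↥((P : Subgroup G) ⊓ N) :=
    { toFun := fun q => ⟨g * q * g⁻¹, hQNP q⟩
      map_one' := by apply Subtype.ext; simp
      map_mul' := by intro a b; apply Subtype.ext; simp }
  have hj : Function.Injective j := by
    intro a b h
    have h' : g * (a : G) * g⁻¹ = g * (b : G) * g⁻¹ := congrArg Subtype.val h
    apply Subtype.ext
    exact mul_left_cancel (mul_right_cancel h')
  obtain ⟨l, hl⟩ := exists_hom_ext_of_injective' hPNcomm j hj (f.comp (Subgroup.inclusion hQNE))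
  obtain ⟨μP, hμP, hμP1, hμPl⟩ := hlin (homFun l) (isCharacter_homFun l).1 (isCharacter_homFun l).2
  obtain ⟨m, hm⟩ := exists_hom_of_linear μP ⟨hμP, hμP1⟩
  let κ : (Q : Subgroup E) →* (P : Subgroup G) :=
    { toFun := fun q => ⟨g * ((q : E) : G) * g⁻¹, hQP q q.2⟩
      map_one' := by apply Subtype.ext; simp
      map_mul' := by intro a b; apply Subtype.ext; simp }
  have hμQ : ∀ (q : (Q : Subgroup E)) (hqN : ((q : E) : G) ∈ N),
      m (κ q) = f ⟨((q : E) : G), ⟨(q : E).2, hqN⟩⟩ := by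
    intro q hqN
    apply Units.ext
    have h1 := hμPl ⟨g * ((q : E) : G) * g⁻¹, ⟨hQP q q.2, hN.conj_mem _ hqN g⟩⟩
    rw [hm] at h1
    have h2 := hl ⟨((q : E) : G), ⟨⟨q, q.2, rfl⟩, hqN⟩⟩
    have h3 : ((m (κ q) : ℂˣ) : ℂ)
        = ((l ⟨g * ((q : E) : G) * g⁻¹, ⟨hQP q q.2, hN.conj_mem _ hqN g⟩⟩ : ℂˣ) : ℂ) := h1
    rw [h3]
    exact congrArg Units.val h2
  let fC : Subgroup.zpowers x₀ →* ℂˣ := f.comp
    { toFun := fun c => ⟨((c : E) : G), ⟨(c : E).2, hCN c c.2⟩⟩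
      map_one' := rfl
      map_mul' := fun _ _ => rfl }
  let Φ : Subgroup.zpowers x₀ × (Q : Subgroup E) →* E :=
    (Subgroup.zpowers x₀).subtype.noncommCoprod (Q : Subgroup E).subtype
      (fun c q => hCc c c.2 q)
  have hΦ : Function.Bijective Φ := hcompl
  let e := MulEquiv.ofBijective Φ hΦ
  refine ⟨(fC.coprod (m.comp κ)).comp e.symm.toMonoidHom, fun x => ?_⟩
  obtain ⟨c, hc, q, hq, e1⟩ := hdec ⟨x, x.2.1⟩
  have hqN := hqN_of x c q hc e1
  have hsymm : e.symm ⟨x, x.2.1⟩ = (⟨c, hc⟩, ⟨q, hq⟩) := by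
    rw [MulEquiv.symm_apply_eq]; exact e1
  have h5 : ((fC.coprod (m.comp κ)).comp e.symm.toMonoidHom) ⟨x, x.2.1⟩
      = fC ⟨c, hc⟩ * m (κ ⟨q, hq⟩) := by
    rw [MonoidHom.comp_apply]
    change (fC.coprod (m.comp κ)) (e.symm ⟨x, x.2.1⟩) = _
    rw [hsymm]
    rfl
  rw [h5, hμQ ⟨q, hq⟩ hqN, hf]
  change ((f ⟨((c : E) : G), ⟨(c : E).2, hCN c hc⟩⟩ * f ⟨((q : E) : G), ⟨(q : E).2, hqN⟩⟩ : ℂˣ) : ℂ)
    = ((f x : ℂˣ) : ℂ)
  rw [← map_mul]
  congr 2
  apply Subtype.ext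
  exact (congrArg Subtype.val e1).symm

end Cfsg.Agent.Lib.Helper19
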