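import Mathlib
import Cfsg.Prelude.Def_Characters
import Cfsg.Agent.Lib.Helper19.Dade2
import Cfsg.Agent.Lib.Helper19.LinChar
import Cfsg.Agent.Lib.Helper19.CharMisc
import Cfsg.Agent.Lib.Helper19.IndChar
import Cfsg.Agent.Lib.Helper5.Inertia
import Cfsg.Agent.Lib.Helper32.GenChar
import Cfsg.Agent.S0887

set_option autoImplicit false

namespace Cfsg.Agent.Lib.Helper19

open Cfsg Cfsg.Agent.Lib.Helper20 Cfsg.Agent.Lib.Helper5
open scoped ComplexConjugate

/-- multiplicities of the constituents of `ϑ^G` are divisible by `p` unless `ϑ` extends. -/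
theorem dvd_mult_of_not_extends {G : Type*} [Group G] [Fintype G] (p : ℕ) (hp : p.Prime)
    (N : Subgroup G) [hN : N.Normal] [Fintype N] (hind : ∃ k : ℕ, N.index = p ^ k) (ϑ : N → ℂ)
    (hϑ : IsIrrCharacter N ϑ)
    (hinv : ∀ (g : G) (n : N), ϑ ⟨g * n * g⁻¹, hN.conj_mem (n : G) n.2 g⟩ = ϑ n)
    (hcon : ∀ χ : G → ℂ, IsIrrCharacter G χ → ∃ n : N, χ n ≠ ϑ n)
    (χ : G → ℂ) (hχ : IsIrrCharacter G χ) :
    ∃ e : ℕ, p ∣ e ∧ classInner (indFun N ϑ) χ = e := by
  have hχc := isCharacter_of_isIrrCharacter hχ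
  obtain ⟨e, he⟩ := isCharacter_classInner_nat (isCharacter_restrict hχc N) hϑ
  have he' : classInner (fun n : N => χ n) ϑ = e := he
  have h1 : classInner (indFun N ϑ) χ = e := by
    rw [frobenius_reciprocity N ϑ χ (isClassFunction_of_isCharacter hχc),
      ← classInner_conj_symm, he']
    simp
  refine ⟨e, ?_, h1⟩
  by_cases h0 : e = 0
  · rw [h0]; exact dvd_zero _
  have hne : classInner (fun n : N => χ n) ϑ ≠ 0 := by
    rw [he']; exact_mod_cast h0
  have hcl := clifford_invariant hN hχ hϑ hne (by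
    intro g; funext n; rw [cjF_apply]; exact hinv g n)
  rw [he'] at hcl
  obtain ⟨d, hd0, hd⟩ := Cfsg.Agent.Lib.Helper32.irr_apply_one hϑ
  have hc : χ 1 = ((e * d : ℕ) : ℂ) := by
    have := congrFun hcl 1
    simp only [Pi.smul_apply, smul_eq_mul] at this
    rw [hd] at this
    push_cast
    exact this
  obtain ⟨-, h2⟩ := Cfsg.Agent.S0887.result N χ hχ ϑ hϑ hne (e * d) d hc hd
  rw [Nat.mul_div_cancel _ hd0] at h2
  obtain ⟨k, hk⟩ := hind
  rw [hk] at h2
  obtain ⟨j, _, hj⟩ := (Nat.dvd_prime_pow hp).1 h2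
  rcases Nat.eq_zero_or_pos j with hj0 | hj0
  · exfalso
    rw [hj0, pow_zero] at hj
    obtain ⟨n, hn⟩ := hcon χ hχ
    apply hn
    have := congrFun hcl n
    rw [hj] at this
    simpa using this
  · rw [hj]; exact dvd_pow_self p hj0.ne'

theorem exists_extension_of_hom {G : Type*} [Group G] [Fintype G] (p : ℕ) (hp : p.Prime)
    (N : Subgroup G) [hN : N.Normal] (hind : ∃ k : ℕ, N.index = p ^ k) (ϑ : N → ℂ)
    (hϑ : IsIrrCharacter N ϑ)
    (hinv : ∀ (g : G) (n : N), ϑ ⟨g * n * g⁻¹, hN.conj_mem (n : G) n.2 g⟩ = ϑ n)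
    (E : Subgroup G) (htop : E ⊔ N = ⊤) (μ : E →* ℂˣ) (m : ℕ) (hm : ¬ p ∣ m)
    (hinner : (Nat.card ↥(E ⊓ N) : ℂ)⁻¹ *
      ∑ᶠ x : ↥(E ⊓ N), ϑ ⟨(x : G), x.2.2⟩ * conj ((μ ⟨x, x.2.1⟩ : ℂˣ) : ℂ) = (m : ℂ)) :
    ∃ χ : G → ℂ, IsIrrCharacter G χ ∧ ∀ n : N, χ n = ϑ n := by
  classical
  by_contra hcon
  push Not at hcon
  haveI : Fintype N := Fintype.ofFinite _
  haveI : Fintype E := Fintype.ofFinite _
  haveI : Fintype ↥(N.subgroupOf E) := Fintype.ofFinite _
  haveI : Fintype ↥(E ⊓ N) := Fintype.ofFinite _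
  haveI : Finite (IrrCharacter G) := finite_irrCharacter
  haveI : Fintype (IrrCharacter G) := Fintype.ofFinite _
  have hΨ : IsCharacter G (indFun N ϑ) := isCharacter_indFun N ϑ (isCharacter_of_isIrrCharacter hϑ)
  -- Step 1
  have h1 : classInner (fun x : E => indFun N ϑ x) (homFun μ) = m := by
    rw [← hinner, finsum_eq_sum_of_fintype]
    unfold classInner
    have e1 : ∀ x : E, indFun N ϑ x * conj (homFun μ x)
        = extendByZero (N.subgroupOf E) (resSub E N ϑ) x * ((N.index : ℂ) * conj (homFun μ x)) := by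
      intro x
      have e2 : extendByZero (N.subgroupOf E) (resSub E N ϑ) x = extendByZero N ϑ (x : G) :=
        extendByZero_subgroupOf N E ϑ x
      rw [e2]
      by_cases hx : (x : G) ∈ N
      · rw [extendByZero_of_mem N ϑ hx]
        have := indFun_normal_invariant N ϑ hinv ⟨x, hx⟩
        rw [this]; ring
      · rw [extendByZero_of_not_mem N ϑ hx, indFun_normal_of_not_mem N ϑ hx]; ring
    rw [Finset.sum_congr rfl (fun x _ => e1 x), sum_extendByZero_mul,
      ← Equiv.sum_comp (infEquiv E N).toEquiv]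
    have e3 : ∀ x : ↥(E ⊓ N), resSub E N ϑ ((infEquiv E N).toEquiv x) *
        ((N.index : ℂ) * conj (homFun μ (((infEquiv E N).toEquiv x : ↥(N.subgroupOf E)) : E)))
        = (N.index : ℂ) * (ϑ ⟨(x : G), x.2.2⟩ * conj ((μ ⟨x, x.2.1⟩ : ℂˣ) : ℂ)) := by
      intro x
      change ϑ ⟨(x : G), x.2.2⟩ * ((N.index : ℂ) * conj ((μ ⟨x, x.2.1⟩ : ℂˣ) : ℂ)) = _
      ring
    rw [Finset.sum_congr rfl (fun x _ => e3 x), ← Finset.mul_sum]
    have e4 : (N.index : ℂ) = ((N.subgroupOf E).index : ℂ) := by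
      have := Subgroup.relIndex_mul_index (le_sup_right : N ≤ E ⊔ N)
      rw [Subgroup.relIndex_sup_right, htop, Subgroup.index_top, mul_one] at this
      rw [← this]; rfl
    rw [e4, index_eq_div, Nat.card_congr (infEquiv E N).toEquiv]
    have hE : (Nat.card E : ℂ) ≠ 0 := by exact_mod_cast Nat.card_pos.ne'
    field_simp
  -- Step 2
  have hexp : indFun N ϑ = ∑ χ : IrrCharacter G, classInner (indFun N ϑ) (χ : G → ℂ) • (χ : G → ℂ) :=
    eq_sum_classInner_smul (isClassFunction_of_isCharacter hΨ)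
  have hres : (fun x : E => indFun N ϑ x)
      = ∑ χ : IrrCharacter G, classInner (indFun N ϑ) (χ : G → ℂ) • (fun x : E => (χ : G → ℂ) x) := by
    funext x
    conv_lhs => rw [hexp]
    simp [Finset.sum_apply]
  rw [hres, classInner_sum_left] at h1
  have h2 : ∀ χ : IrrCharacter G, ∃ z : ℕ, p ∣ z ∧
      classInner (classInner (indFun N ϑ) (χ : G → ℂ) • (fun x : E => (χ : G → ℂ) x)) (homFun μ)
        = z := by
    intro χ
    obtain ⟨e, hpe, he⟩ := dvd_mult_of_not_extends p hp N hind ϑ hϑ hinv hcon χ χ.2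
    obtain ⟨a, ha⟩ := isCharacter_classInner_nat'
      (isCharacter_restrict (isCharacter_of_isIrrCharacter χ.2) E) (isCharacter_homFun μ).1
    have ha' : classInner (fun x : E => (χ : G → ℂ) x) (homFun μ) = a := ha
    refine ⟨e * a, Dvd.dvd.mul_right hpe a, ?_⟩
    rw [classInner_smul_left, he, ha']
    push_cast; ring
  choose z hz1 hz2 using h2
  rw [Finset.sum_congr rfl (fun χ _ => hz2 χ)] at h1
  apply hm
  have h3 : m = ∑ χ : IrrCharacter G, z χ := by exact_mod_cast h1.symm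
  rw [h3]
  exact Finset.dvd_sum (fun χ _ => hz1 χ)

end Cfsg.Agent.Lib.Helper19
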