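import Mathlib

set_option autoImplicit false

namespace Cfsg.Agent.Lib.Helper19.Deg2

/-! ### arithmetic -/

theorem arith_aux (m b c u v w : ℕ) (hc : 2 ≤ c)
    (hv : 2 ≤ v) (hw : 2 ≤ w) (h1 : m = 2 * u) (h2 : m = b * v) (h3 : m = c * w)
    (hs : u + v + w = m + 1) (hb : b = 2 ∨ b = 3) : m = 6 ∨ m = 12 ∨ m = 30 := by
  rcases hb with rfl | rfl
  · omega
  · rcases lt_or_ge c 6 with h | h
    · interval_cases c <;> omega
    · have : 6 * w ≤ c * w := Nat.mul_le_mul_right _ h
      omega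

theorem arith_aux2 (m b c u v w : ℕ) (hb : 2 ≤ b) (hc : 2 ≤ c)
    (hv : 2 ≤ v) (hw : 2 ≤ w) (h1 : m = 2 * u) (h2 : m = b * v) (h3 : m = c * w)
    (hs : u + v + w = m + 1) : m = 6 ∨ m = 12 ∨ m = 30 := by
  rcases lt_or_ge b 4 with h | h
  · exact arith_aux m b c u v w hc hv hw h1 h2 h3 hs (by omega)
  · rcases lt_or_ge c 4 with h' | h'
    · exact arith_aux m c b u w v hb hw hv h1 h3 h2 (by omega) (by omega)
    · have e1 : 4 * v ≤ b * v := Nat.mul_le_mul_right _ h
      have e2 : 4 * w ≤ c * w := Nat.mul_le_mul_right _ h'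
      omega

theorem arith222 (m a b c u v w : ℕ) (ha : 2 ≤ a) (hb : 2 ≤ b) (hc : 2 ≤ c) (hu : 2 ≤ u)
    (hv : 2 ≤ v) (hw : 2 ≤ w) (h1 : m = a * u) (h2 : m = b * v) (h3 : m = c * w)
    (hs : u + v + w = m + 1) : m = 6 ∨ m = 12 ∨ m = 30 := by
  rcases lt_or_ge a 3 with h | h
  · obtain rfl : a = 2 := by omega
    exact arith_aux2 m b c u v w hb hc hv hw h1 h2 h3 hs
  rcases lt_or_ge b 3 with h' | h'
  · obtain rfl : b = 2 := by omega
    exact arith_aux2 m a c v u w ha hc hu hw h2 h1 h3 (by omega)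
  rcases lt_or_ge c 3 with h'' | h''
  · obtain rfl : c = 2 := by omega
    exact arith_aux2 m a b w u v ha hb hu hv h3 h1 h2 (by omega)
  have e1 : 3 * u ≤ a * u := Nat.mul_le_mul_right _ h
  have e2 : 3 * v ≤ b * v := Nat.mul_le_mul_right _ h'
  have e3 : 3 * w ≤ c * w := Nat.mul_le_mul_right _ h''
  omega

/-- case `(e₁, e₂) = (1, 2)` -/
theorem arith12 (g a b u v : ℕ) (ha : 2 ≤ a) (hb : 2 ≤ b) (hu : 3 ≤ u) (hv : 2 ≤ v)
    (h1 : g = a * u) (h2 : g = 2 * (b * v)) (hs : g + u + v = a * u + b * v + 1) : g = 12 := by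
  rcases lt_or_ge a 4 with h | h
  · interval_cases a
    · omega
    · rcases lt_or_ge b 3 with h' | h'
      · obtain rfl : b = 2 := by omega
        omega
      · have e2 : 3 * v ≤ b * v := Nat.mul_le_mul_right _ h'
        omega
  · have e1 : 4 * u ≤ a * u := Nat.mul_le_mul_right _ h
    have e2 : 2 * v ≤ b * v := Nat.mul_le_mul_right _ hb
    omega

/-- The class equation analysis. -/
theorem arith_main {Q : Type*} [Fintype Q] (g : ℕ) (hg : 1 ≤ g) (e a u : Q → ℕ)
    (he : ∀ q, e q = 1 ∨ e q = 2) (ha : ∀ q, 2 ≤ a q)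
    (hgq : ∀ q, g = e q * (a q * u q)) (hsum : g = 1 + ∑ q, u q * (a q - 1)) :
    g = 1 ∨ g = 12 ∨ g = 24 ∨ g = 60 ∨ ∃ q, e q * u q ≤ 2 := by
  classical
  by_contra hcon
  push Not at hcon
  obtain ⟨hg1, h12, h24, h60, hq⟩ := hcon
  -- rewrite terms
  have hterm : ∀ q, u q * (a q - 1) + u q = a q * u q := by
    intro q
    obtain ⟨k, hk⟩ : ∃ k, a q = k + 1 := ⟨a q - 1, by have := ha q; omega⟩
    rw [hk]; simp; ring
  have hlow : ∀ q, g ≤ 4 * (u q * (a q - 1)) := by
    intro q
    have h1 := hterm q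
    have h2 : 2 * u q ≤ a q * u q := Nat.mul_le_mul_right _ (ha q)
    have h3 := hgq q
    rcases he q with h | h <;> rw [h] at h3 <;> omega
  have hcard : Fintype.card Q ≤ 3 := by
    by_contra hc
    have h4 : 4 ≤ Fintype.card Q := by omega
    have h5 : Fintype.card Q * g ≤ ∑ q, 4 * (u q * (a q - 1)) := by
      have := Finset.card_nsmul_le_sum Finset.univ (fun q => 4 * (u q * (a q - 1))) g
        (fun q _ => hlow q)
      simpa [Finset.card_univ] using this
    rw [← Finset.mul_sum] at h5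
    have h6 : 4 * g ≤ Fintype.card Q * g := Nat.mul_le_mul_right _ h4
    omega
  have hcases : Fintype.card Q = 0 ∨ Fintype.card Q = 1 ∨ Fintype.card Q = 2 ∨
      Fintype.card Q = 3 := by omega
  rcases hcases with h0 | h1 | h2 | h3
  · have : IsEmpty Q := Fintype.card_eq_zero_iff.1 h0
    simp at hsum
    exact hg1 hsum
  · rw [← Finset.card_univ, Finset.card_eq_one] at h1
    obtain ⟨x, hx⟩ := h1
    rw [hx, Finset.sum_singleton] at hsum
    have t1 := hterm x
    have g1 := hgq x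
    have q1 := hq x
    rcases he x with h | h <;> rw [h] at g1 q1 <;> omega
  · rw [← Finset.card_univ, Finset.card_eq_two] at h2
    obtain ⟨x, y, hxy, hx⟩ := h2
    rw [hx, Finset.sum_pair hxy] at hsum
    have t1 := hterm x
    have t2 := hterm y
    have g1 := hgq x
    have g2 := hgq y
    have q1 := hq x
    have q2 := hq y
    have a1 : 2 * u x ≤ a x * u x := Nat.mul_le_mul_right _ (ha x)
    have a2 : 2 * u y ≤ a y * u y := Nat.mul_le_mul_right _ (ha y)
    rcases he x with h | h <;> rcases he y with h' | h' <;> rw [h] at g1 q1 <;> rw [h'] at g2 q2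
    · omega
    · exact h12 (arith12 g (a x) (a y) (u x) (u y) (ha x) (ha y) (by omega) (by omega)
        (by omega) g2 (by omega))
    · exact h12 (arith12 g (a y) (a x) (u y) (u x) (ha y) (ha x) (by omega) (by omega)
        (by omega) g1 (by omega))
    · omega
  · rw [← Finset.card_univ, Finset.card_eq_three] at h3
    obtain ⟨x, y, z, hxy, hxz, hyz, hx⟩ := h3
    rw [hx, Finset.sum_insert (by simp [hxy, hxz]), Finset.sum_pair hyz] at hsum
    have t1 := hterm x
    have t2 := hterm y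
    have t3 := hterm z
    have g1 := hgq x
    have g2 := hgq y
    have g3 := hgq z
    have q1 := hq x
    have q2 := hq y
    have q3 := hq z
    have a1 : 2 * u x ≤ a x * u x := Nat.mul_le_mul_right _ (ha x)
    have a2 : 2 * u y ≤ a y * u y := Nat.mul_le_mul_right _ (ha y)
    have a3 : 2 * u z ≤ a z * u z := Nat.mul_le_mul_right _ (ha z)
    rcases he x with h | h <;> rcases he y with h' | h' <;> rcases he z with h'' | h'' <;>
      rw [h] at g1 q1 <;> rw [h'] at g2 q2 <;> rw [h''] at g3 q3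
    any_goals omega
    have := arith222 (a x * u x) (a x) (a y) (a z) (u x) (u y) (u z) (ha x) (ha y) (ha z)
      (by omega) (by omega) (by omega) rfl (by omega) (by omega) (by omega)
    omega

end Cfsg.Agent.Lib.Helper19.Deg2
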