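import Cfsg.Agent.Lib.Helper19.Deg2A

set_option autoImplicit false

namespace Cfsg.Agent.Lib.Helper19.Deg2

open Subgroup

variable {G : Type*} [Group G]

/-- centralizer of an element -/
abbrev Cz (x : G) : Subgroup G := centralizer ({x} : Set G)

theorem mem_Cz {x y : G} : y ∈ Cz x ↔ y * x = x * y := mem_centralizer_singleton_iff

/-- centralizers of non-central elements are abelian -/
def CA (G : Type*) [Group G] : Prop :=
  ∀ x : G, x ∉ center G → ∀ a ∈ Cz x, ∀ b ∈ Cz x, a * b = b * a

theorem Cz_eq (h : CA G) {x y : G} (hx : x ∉ center G) (hy : y ∉ center G) (hyx : y ∈ Cz x) :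
    Cz y = Cz x := by
  apply le_antisymm
  · intro a ha
    have hxy : x ∈ Cz y := mem_Cz.2 (mem_Cz.1 hyx).symm
    exact mem_Cz.2 (h y hy a ha x hxy)
  · intro a ha
    exact mem_Cz.2 (h x hx a ha y hyx)

theorem conj_mem_center_iff' {y h : G} : h * y * h⁻¹ ∈ center G ↔ y ∈ center G := by
  constructor
  · intro hh
    have := (center G).normal_of_characteristic.conj_mem _ hh h⁻¹
    have e : h⁻¹ * (h * y * h⁻¹) * h⁻¹⁻¹ = y := by group
    rwa [e] at this
  · intro hh
    exact (center G).normal_of_characteristic.conj_mem _ hh h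

theorem center_le_Cz (x : G) : center G ≤ Cz x := by
  intro z hz
  exact mem_Cz.2 ((mem_center_iff.1 hz x).symm)

theorem conj_mem_Cz_conj {x a n : G} : n * a * n⁻¹ ∈ Cz (n * x * n⁻¹) ↔ a ∈ Cz x := by
  rw [mem_Cz, mem_Cz]
  constructor
  · intro h
    have h1 : n * (a * x) * n⁻¹ = n * (x * a) * n⁻¹ := by
      have e1 : n * (a * x) * n⁻¹ = n * a * n⁻¹ * (n * x * n⁻¹) := by group
      have e2 : n * (x * a) * n⁻¹ = n * x * n⁻¹ * (n * a * n⁻¹) := by group
      rw [e1, e2, h]
    exact mul_left_cancel (mul_right_cancel h1)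
  · intro h
    have e1 : n * a * n⁻¹ * (n * x * n⁻¹) = n * (a * x) * n⁻¹ := by group
    have e2 : n * x * n⁻¹ * (n * a * n⁻¹) = n * (x * a) * n⁻¹ := by group
    rw [e1, e2, h]

/-- the set of `h` conjugating `y` into `A = C(x)` is a coset of the normalizer -/
theorem conj_mem_iff (hCA : CA G) {x y h₀ : G} (hx : x ∉ center G) (hy : y ∉ center G)
    (h₀y : h₀ * y * h₀⁻¹ ∈ Cz x) (h : G) :
    h * y * h⁻¹ ∈ Cz x ↔ h * h₀⁻¹ ∈ normalizer (Cz x : Set G) := by
  have hy₀ : h₀ * y * h₀⁻¹ ∉ center G := fun hh => hy (conj_mem_center_iff'.1 hh)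
  have e0 : Cz (h₀ * y * h₀⁻¹) = Cz x := Cz_eq hCA hx hy₀ h₀y
  have ec : h * h₀⁻¹ * (h₀ * y * h₀⁻¹) * (h * h₀⁻¹)⁻¹ = h * y * h⁻¹ := by group
  constructor
  · intro hh
    have hy₁ : h * y * h⁻¹ ∉ center G := fun hh => hy (conj_mem_center_iff'.1 hh)
    have e1 : Cz (h * y * h⁻¹) = Cz x := Cz_eq hCA hx hy₁ hh
    rw [mem_normalizer_iff]
    intro a
    have := conj_mem_Cz_conj (x := h₀ * y * h₀⁻¹) (a := a) (n := h * h₀⁻¹)
    rw [ec, e1, e0] at this
    exact this.symm
  · intro hh
    have := (mem_normalizer_iff.1 hh (h₀ * y * h₀⁻¹)).1 h₀y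
    rwa [ec] at this

variable [Finite G]

theorem card_diff (x : G) :
    Nat.card {a : G // a ∉ center G ∧ a ∈ Cz x} = Nat.card (Cz x) - Nat.card (center G) := by
  have h1 : {a : G | a ∉ center G ∧ a ∈ Cz x} = (Cz x : Set G) \ (center G : Set G) := by
    ext a
    simp [and_comm]
  have h2 := Set.ncard_sdiff (s := (center G : Set G)) (t := (Cz x : Set G))
    (fun z hz => center_le_Cz x hz)
  rw [← h1] at h2
  rw [← Nat.card_coe_set_eq, ← Nat.card_coe_set_eq, ← Nat.card_coe_set_eq] at h2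
  exact h2

/-- size of the class of `x` -/
theorem card_class (hCA : CA G) {x : G} (hx : x ∉ center G) :
    Nat.card {y : G // y ∉ center G ∧ ∃ h : G, h * y * h⁻¹ ∈ Cz x} *
      Nat.card (normalizer (Cz x : Set G)) =
    Nat.card G * (Nat.card (Cz x) - Nat.card (center G)) := by
  classical
  have := Fintype.ofFinite G
  have e1 : {p : G × G // p.2 ∉ center G ∧ p.1 * p.2 * p.1⁻¹ ∈ Cz x} ≃
      Σ h : G, {y : G // y ∉ center G ∧ h * y * h⁻¹ ∈ Cz x} :=
    Equiv.subtypeProdEquivSigmaSubtype (fun h y => y ∉ center G ∧ h * y * h⁻¹ ∈ Cz x)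
  have e2 : {p : G × G // p.2 ∉ center G ∧ p.1 * p.2 * p.1⁻¹ ∈ Cz x} ≃
      Σ y : {y : G // y ∉ center G ∧ ∃ h : G, h * y * h⁻¹ ∈ Cz x},
        {h : G // h * y.1 * h⁻¹ ∈ Cz x} :=
    { toFun := fun p => ⟨⟨p.1.2, p.2.1, p.1.1, p.2.2⟩, ⟨p.1.1, p.2.2⟩⟩
      invFun := fun s => ⟨(s.2.1, s.1.1), s.1.2.1, s.2.2⟩
      left_inv := fun p => rfl
      right_inv := fun s => rfl }
  have c1 := Nat.card_congr e1
  have c2 := Nat.card_congr e2
  rw [Nat.card_sigma] at c1 c2
  have f1 : ∀ h : G, Nat.card {y : G // y ∉ center G ∧ h * y * h⁻¹ ∈ Cz x} =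
      Nat.card (Cz x) - Nat.card (center G) := by
    intro h
    rw [← card_diff x]
    apply Nat.card_congr
    refine Equiv.subtypeEquiv (MulAut.conj h).toEquiv ?_
    intro y
    simp only [MulEquiv.toEquiv_eq_coe, MulEquiv.coe_toEquiv, MulAut.conj_apply]
    rw [conj_mem_center_iff']
  have f2 : ∀ y : {y : G // y ∉ center G ∧ ∃ h : G, h * y * h⁻¹ ∈ Cz x},
      Nat.card {h : G // h * y.1 * h⁻¹ ∈ Cz x} = Nat.card (normalizer (Cz x : Set G)) := by
    rintro ⟨y, hy, h₀, hh₀⟩
    apply Nat.card_congr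
    refine Equiv.subtypeEquiv (Equiv.mulRight h₀⁻¹) ?_
    intro h
    exact conj_mem_iff hCA hx hy hh₀ h
  simp only [f1] at c1
  simp only [f2] at c2
  rw [c1] at c2
  simp only [Finset.sum_const, Finset.card_univ, smul_eq_mul] at c2
  rw [← Nat.card_eq_fintype_card, ← Nat.card_eq_fintype_card] at c2
  exact c2.symm

omit [Finite G] in
theorem mem_Cz_comm {x y : G} : y ∈ Cz x ↔ x ∈ Cz y := by
  rw [mem_Cz, mem_Cz, eq_comm]

/-- the equivalence relation on non-central elements: `C(y)` is conjugate to `C(x)` -/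
def clsSetoid (hCA : CA G) : Setoid {x : G // x ∉ center G} where
  r x y := ∃ h : G, h * y.1 * h⁻¹ ∈ Cz x.1
  iseqv :=
    { refl := fun x => ⟨1, by simp [mem_Cz]⟩
      symm := by
        rintro x y ⟨h, hh⟩
        refine ⟨h⁻¹, ?_⟩
        rw [← conj_mem_Cz_conj (n := h)]
        have e : h * (h⁻¹ * x.1 * h⁻¹⁻¹) * h⁻¹ = x.1 := by group
        rw [e]
        exact mem_Cz_comm.1 hh
      trans := by
        rintro x y w ⟨h, hh⟩ ⟨k, hk⟩
        refine ⟨h * k, ?_⟩
        have hy₀ : h * y.1 * h⁻¹ ∉ center G := fun hc => y.2 (conj_mem_center_iff'.1 hc)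
        have e0 : Cz (h * y.1 * h⁻¹) = Cz x.1 := Cz_eq hCA x.2 hy₀ hh
        have e : h * k * w.1 * (h * k)⁻¹ = h * (k * w.1 * k⁻¹) * h⁻¹ := by group
        rw [e, ← e0, conj_mem_Cz_conj]
        exact hk }

theorem count_main (hCA : CA G)
    (hN : ∀ x : G, x ∉ center G → Nat.card (normalizer (Cz x : Set G)) ≤ 2 * Nat.card (Cz x)) :
    (center G).index = 1 ∨ (center G).index = 12 ∨ (center G).index = 24 ∨
      (center G).index = 60 ∨ ∃ x : G, x ∉ center G ∧ Nat.card G ≤ 2 * Nat.card (Cz x) := by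
  classical
  have := Fintype.ofFinite G
  let s := clsSetoid hCA
  have : Fintype (Quotient s) := Fintype.ofFinite _
  let rep : Quotient s → G := fun q => (Quotient.out q).1
  have hrep : ∀ q, rep q ∉ center G := fun q => (Quotient.out q).2
  have hz : 0 < Nat.card (center G) := Nat.card_pos
  have hn : Nat.card (center G) * (center G).index = Nat.card G := card_mul_index _
  have hg : 1 ≤ (center G).index := Nat.one_le_iff_ne_zero.2 (FiniteIndex.index_ne_zero)
  have ha : ∀ q, ∃ a : ℕ, Nat.card (Cz (rep q)) = Nat.card (center G) * a :=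
    fun q => card_dvd_of_le (center_le_Cz _)
  choose a ha using ha
  have ha2 : ∀ q, 2 ≤ a q := by
    intro q
    have h0 : 0 < Nat.card (Cz (rep q)) := Nat.card_pos
    have h1 : a q ≠ 0 := by
      intro h; rw [ha q, h] at h0; simp at h0
    have h2 : a q ≠ 1 := by
      intro h
      have h3 := ha q
      rw [h, mul_one] at h3
      have h4 : center G = Cz (rep q) := eq_of_le_of_card_ge (center_le_Cz _) h3.le
      apply hrep q
      rw [h4]
      simp [mem_Cz]
    omega
  have he : ∀ q, ∃ e : ℕ, Nat.card (normalizer (Cz (rep q) : Set G)) = Nat.card (Cz (rep q)) * e :=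
    fun q => card_dvd_of_le le_normalizer
  choose e he using he
  have he2 : ∀ q, e q = 1 ∨ e q = 2 := by
    intro q
    have h0 : 0 < Nat.card (normalizer (Cz (rep q) : Set G)) := Nat.card_pos
    have h00 : 0 < Nat.card (Cz (rep q)) := Nat.card_pos
    have h1 := hN (rep q) (hrep q)
    rw [he q] at h0 h1
    have h2 : e q ≠ 0 := by
      intro h; rw [h] at h0; simp at h0
    have h3 : e q ≤ 2 := by
      rw [mul_comm 2] at h1
      exact Nat.le_of_mul_le_mul_left h1 h00
    omega
  have hu : ∀ q, ∃ u : ℕ, Nat.card G = Nat.card (normalizer (Cz (rep q) : Set G)) * u :=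
    fun q => card_subgroup_dvd_card _
  choose u hu using hu
  have hgq : ∀ q, (center G).index = e q * (a q * u q) := by
    intro q
    have h1 := hu q
    rw [he q, ha q, ← hn] at h1
    have h2 : Nat.card (center G) * (center G).index =
        Nat.card (center G) * (e q * (a q * u q)) := by rw [h1]; ring
    exact Nat.eq_of_mul_eq_mul_left hz h2
  have hc : ∀ q, Nat.card {y : {x : G // x ∉ center G} // (Quotient.mk s y) = q} =
      Nat.card (center G) * (u q * (a q - 1)) := by
    intro q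
    have h1 : Nat.card {y : {x : G // x ∉ center G} // (Quotient.mk s y) = q} =
        Nat.card {y : G // y ∉ center G ∧ ∃ h : G, h * y * h⁻¹ ∈ Cz (rep q)} := by
      apply Nat.card_congr
      refine (Equiv.subtypeSubtypeEquivSubtypeInter (fun x : G => x ∉ center G)
        (fun y => ∃ h : G, h * y * h⁻¹ ∈ Cz (rep q))).symm.trans ?_ |>.symm
      refine Equiv.subtypeEquivRight ?_
      intro y
      constructor
      · intro hy
        have : Quotient.mk s (Quotient.out q) = Quotient.mk s y := Quotient.sound hy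
        rw [← this, Quotient.out_eq]
      · intro hy
        have : Quotient.mk s (Quotient.out q) = Quotient.mk s y := by
          rw [Quotient.out_eq, hy]
        exact Quotient.exact this
    have h2 := card_class hCA (hrep q)
    rw [← h1, hu q, ha q] at h2
    have hpos : 0 < Nat.card (normalizer (Cz (rep q) : Set G)) := Nat.card_pos
    have h3 : Nat.card (center G) * a q - Nat.card (center G) =
        Nat.card (center G) * (a q - 1) := by
      rw [Nat.mul_sub, mul_one]
    rw [h3] at h2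
    have h4 : Nat.card (normalizer (Cz (rep q) : Set G)) *
        Nat.card {y : {x : G // x ∉ center G} // (Quotient.mk s y) = q} =
        Nat.card (normalizer (Cz (rep q) : Set G)) *
          (Nat.card (center G) * (u q * (a q - 1))) := by
      rw [mul_comm, h2]; ring
    exact Nat.eq_of_mul_eq_mul_left hpos h4
  have hX : Nat.card {x : G // x ∉ center G} = ∑ q, Nat.card (center G) * (u q * (a q - 1)) := by
    rw [← Nat.card_congr (Equiv.sigmaFiberEquiv (Quotient.mk s)), Nat.card_sigma]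
    exact Finset.sum_congr rfl (fun q _ => hc q)
  have hX2 : Nat.card {x : G // x ∉ center G} + Nat.card (center G) = Nat.card G := by
    have := Nat.card_congr (Equiv.sumCompl (fun x : G => x ∈ center G))
    rw [Nat.card_sum] at this
    rw [← this, add_comm]
  have hsum : (center G).index = 1 + ∑ q, u q * (a q - 1) := by
    rw [hX, ← Finset.mul_sum, ← hn] at hX2
    have h2 : Nat.card (center G) * (center G).index =
        Nat.card (center G) * (1 + ∑ q, u q * (a q - 1)) := by rw [← hX2]; ring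
    exact Nat.eq_of_mul_eq_mul_left hz h2
  rcases arith_main (center G).index hg e a u he2 ha2 hgq hsum with h | h | h | h | ⟨q, hq⟩
  · exact Or.inl h
  · exact Or.inr (Or.inl h)
  · exact Or.inr (Or.inr (Or.inl h))
  · exact Or.inr (Or.inr (Or.inr (Or.inl h)))
  · refine Or.inr (Or.inr (Or.inr (Or.inr ⟨rep q, hrep q, ?_⟩)))
    rw [hu q, he q, mul_assoc, mul_comm 2]
    exact Nat.mul_le_mul_left _ hq

end Cfsg.Agent.Lib.Helper19.Deg2
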