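import Cfsg.Agent.Lib.Helper19.FTB3
import Cfsg.Agent.Lib.Helper21.PSolvBlock
import Cfsg.Agent.Lib.Helper82.Codegree

set_option autoImplicit false
open Cfsg
open scoped ComplexConjugate
open Cfsg.Agent.Lib.Helper20 Cfsg.Agent.Lib.Helper82

namespace Cfsg.Agent.Lib.Helper19

universe u

section groupth

variable {G : Type*} [Group G] [Finite G] (p : ℕ) [hp : Fact p.Prime]

/-- `NS` goes up from a normal subgroup containing a Sylow subgroup. -/
theorem NS.of_normal_of_sylow_le {M : Subgroup G} (hMn : M.Normal) (P : Sylow p G)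
    (hPM : (P : Subgroup G) ≤ M) (hM : NS p M) : NS p G := by
  have hmem : ∀ x : G, PEl p x → x ∈ M := by
    intro x hx
    obtain ⟨g, hg⟩ := hx.exists_conj_mem P
    have := hMn.conj_mem _ (hPM hg) g⁻¹
    have e : g⁻¹ * (g * x * g⁻¹) * g⁻¹⁻¹ = x := by group
    rwa [e] at this
  intro x y hx hy
  have := hM ⟨x, hmem x hx⟩ ⟨y, hmem y hy⟩ (PEl.of_map M.subtype M.subtype_injective hx)
    (PEl.of_map M.subtype M.subtype_injective hy)
  exact this.map M.subtype

/-- A `p`-soluble group with abelian Sylow `p`-subgroups all of whose proper subgroups are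
`p`-closed is `p`-closed or `p`-nilpotent. -/
theorem ns_or_pNilpotent (hsolv : IsPSolvable p G) (P : Sylow p G)
    (hab : ∀ a ∈ P, ∀ b ∈ P, a * b = b * a)
    (IH : ∀ H : Subgroup G, H ≠ ⊤ → NS p H) :
    NS p G ∨ ∃ K : Subgroup G, K.Normal ∧ ¬ p ∣ Nat.card K ∧ ∃ j : ℕ, K.index = p ^ j := by
  by_cases htriv : (⊥ : Subgroup G) = ⊤
  · right
    refine ⟨⊥, inferInstance, ?_, 0, ?_⟩
    · rw [Subgroup.card_bot]
      exact hp.out.one_lt.ne' ∘ Nat.dvd_one.1
    · rw [htriv]; simp
  obtain ⟨M, hMn, -, hMtop, hidx⟩ :=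
    Helper21.exists_normal_index_of_isPSolvable hsolv ⊥ htriv
  have hM := IH M hMtop
  rcases hidx with ⟨m, hm⟩ | hcop
  swap
  · left
    obtain ⟨P', hP'⟩ := Helper80.exists_sylow_le_of_not_dvd_index p M
      (fun h => by
        have := Nat.Coprime.eq_one_of_dvd hcop.symm h
        exact hp.out.one_lt.ne' this)
    exact NS.of_normal_of_sylow_le p hMn P' hP' hM
  let T : Subgroup G := hM.sub.map M.subtype
  have hmemT : ∀ x : G, x ∈ M → PEl p x → x ∈ T := fun x hx hxp =>
    ⟨⟨x, hx⟩, PEl.of_map _ M.subtype_injective hxp, rfl⟩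
  have hT : IsPGroup p T := hM.sub_isPGroup.map _
  have hTM : T ≤ M := Subgroup.map_subtype_le _
  have hTn : T.Normal := by
    constructor
    rintro _ ⟨⟨x, hx⟩, hxp, rfl⟩ g
    exact hmemT _ (hMn.conj_mem x hx g) ((PEl.map M.subtype hxp).conj g)
  have hTP : T ≤ P := normal_le_sylow p T hTn hT P
  have hPc : (P : Subgroup G) ≤ Subgroup.centralizer (T : Set G) := by
    intro a ha
    rw [Subgroup.mem_centralizer_iff]
    intro t ht
    exact hab t (hTP ht) a ha
  by_cases hcent : Subgroup.centralizer (T : Set G) = ⊤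
  swap
  · left
    exact NS.of_normal_of_sylow_le p inferInstance P hPc (IH _ hcent)
  right
  have hTZ : ∀ t ∈ T, ∀ g : G, t * g = g * t := by
    intro t ht g
    have : g ∈ Subgroup.centralizer (T : Set G) := by rw [hcent]; trivial
    exact ((Subgroup.mem_centralizer_iff.1 this) t ht)
  have hcop : (T.relIndex M).Coprime p := by
    obtain ⟨S⟩ : Nonempty (Sylow p M) := inferInstance
    have hS : (S : Subgroup M) ≤ hM.sub := fun x hx => PEl.of_mem S.2 hx
    have h1 : T.relIndex M = hM.sub.index := by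
      rw [Subgroup.relIndex]
      congr 1
      ext x
      rw [Subgroup.mem_subgroupOf]
      constructor
      · rintro ⟨y, hy, hyx⟩
        have : y = x := Subtype.ext hyx
        rwa [← this]
      · intro hx
        exact ⟨x, hx, rfl⟩
    rw [h1, Nat.coprime_comm, Nat.Prime.coprime_iff_not_dvd hp.out]
    intro hd
    exact S.not_dvd_index (hd.trans (Subgroup.index_dvd_of_le hS))
  obtain ⟨A, hAn, hAc, hMA⟩ := Helper80.exists_normal_complement_of_central M T hTM hT
    (fun z hz d _ => hTZ z hz d) hcop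
  refine ⟨A, hAn, ?_, ?_⟩
  · rw [← Nat.Prime.coprime_iff_not_dvd hp.out]
    exact hAc.symm
  · have h1 : A.relIndex (T ⊔ A) * (T ⊔ A).index = A.index :=
      Subgroup.relIndex_mul_index le_sup_right
    have h2 : (T ⊔ A).index ∣ p ^ m := by
      rw [← hm]; exact Subgroup.index_dvd_of_le hMA
    obtain ⟨t, ht⟩ := IsPGroup.iff_card.1 hT
    have h3 : A.relIndex (T ⊔ A) ∣ p ^ t := by
      rw [Subgroup.relIndex_sup_right, ← ht]
      exact Subgroup.index_dvd_card _
    obtain ⟨i, -, hi⟩ := (Nat.dvd_prime_pow hp.out).1 h2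
    obtain ⟨j, -, hj⟩ := (Nat.dvd_prime_pow hp.out).1 h3
    exact ⟨j + i, by rw [← h1, hi, hj, pow_add]⟩

/-- in a `p`-nilpotent group a Sylow `p`-subgroup normalizes some Sylow `q`-subgroup -/
theorem exists_sylow_normalized (K : Subgroup G) [hKn : K.Normal] (hK : ¬ p ∣ Nat.card K)
    (hidx : ∃ j : ℕ, K.index = p ^ j) (P : Sylow p G) (q : ℕ) [hq : Fact q.Prime] (hqp : q ≠ p) :
    ∃ Q : Sylow q G, (P : Subgroup G) ≤ Subgroup.normalizer (Q : Set G) := by
  obtain ⟨QK⟩ : Nonempty (Sylow q K) := inferInstance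
  have hQ₀ : IsPGroup q ((QK : Subgroup K).map K.subtype) := QK.2.map _
  have hidx0 : ¬ q ∣ ((QK : Subgroup K).map K.subtype).index := by
    rw [Subgroup.index_map_subtype]
    apply Nat.Prime.not_dvd_mul hq.out QK.not_dvd_index
    obtain ⟨j, hj⟩ := hidx
    rw [hj]
    intro h
    exact hqp ((Nat.prime_dvd_prime_iff_eq hq.out hp.out).1 (hq.out.dvd_of_dvd_pow h))
  let Q' : Sylow q G := hQ₀.toSylow hidx0
  have hfr : Subgroup.normalizer (Q' : Set G) ⊔ K = ⊤ := Sylow.normalizer_sup_eq_top QK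
  have hcard : Nat.card (Sylow q G) = (Subgroup.normalizer (Q' : Set G)).index :=
    Sylow.card_eq_index_normalizer Q'
  have hdvd : (Subgroup.normalizer (Q' : Set G)).index ∣ Nat.card K := by
    rw [← Subgroup.relIndex_top_right, ← hfr, Helper80.relIndex_sup_of_normal]
    exact Subgroup.index_dvd_card _
  have hnd : ¬ p ∣ Nat.card (Sylow q G) := by
    rw [hcard]
    exact fun h => hK (h.trans hdvd)
  obtain ⟨Q, hQ⟩ := P.2.nonempty_fixed_point_of_prime_not_dvd_card (Sylow q G) hnd
  refine ⟨Q, ?_⟩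
  intro x hx
  rw [← Sylow.smul_eq_iff_mem_normalizer]
  exact hQ ⟨x, hx⟩

/-- The dichotomy: either `P` is central, or `|G| = p ^ a * q ^ b`. -/
theorem central_or_card (K : Subgroup G) [hKn : K.Normal] (hK : ¬ p ∣ Nat.card K)
    (hidx : ∃ j : ℕ, K.index = p ^ j) (P : Sylow p G) (hab : ∀ a ∈ P, ∀ b ∈ P, a * b = b * a)
    (IH : ∀ H : Subgroup G, H ≠ ⊤ → NS p H) :
    NS p G ∨ ∃ q : ℕ, q.Prime ∧ ∃ a b : ℕ, Nat.card G = q ^ b * p ^ a := by
  by_cases hall : ∀ q : ℕ, q.Prime → ¬ q ∣ (Subgroup.centralizer (P : Set G)).index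
  · left
    have h1 : (Subgroup.centralizer (P : Set G)).index = 1 := by
      by_contra hne
      obtain ⟨q, hq, hqd⟩ := Nat.exists_prime_and_dvd hne
      exact hall q hq hqd
    have htop : Subgroup.centralizer (P : Set G) = ⊤ := Subgroup.index_eq_one.1 h1
    apply NS.of_sylow_normal P
    constructor
    intro x hx g
    have : g ∈ Subgroup.centralizer (P : Set G) := by rw [htop]; trivial
    rw [← (Subgroup.mem_centralizer_iff.1 this) x hx, mul_inv_cancel_right]
    exact hx
  · push Not at hall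
    obtain ⟨q, hq, hqd⟩ := hall
    haveI : Fact q.Prime := ⟨hq⟩
    have hqp : q ≠ p := by
      rintro rfl
      have hle : (P : Subgroup G) ≤ Subgroup.centralizer (P : Set G) := by
        intro a ha
        rw [Subgroup.mem_centralizer_iff]
        intro b hb
        exact hab b hb a ha
      exact P.not_dvd_index (hqd.trans (Subgroup.index_dvd_of_le hle))
    obtain ⟨Q, hQ⟩ := exists_sylow_normalized p K hK hidx P q hqp
    by_cases htop : (P : Subgroup G) ⊔ Q = ⊤
    · right
      have hQn : (Q : Subgroup G).Normal := by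
        rw [← Subgroup.normalizer_eq_top_iff, eq_top_iff, ← htop]
        exact sup_le hQ Subgroup.le_normalizer
      obtain ⟨a, ha⟩ := IsPGroup.iff_card.1 P.2
      obtain ⟨b, hb⟩ := IsPGroup.iff_card.1 Q.2
      have h3 : (Q : Subgroup G).index ∣ p ^ a := by
        rw [← Subgroup.relIndex_top_right, ← htop, Subgroup.relIndex_sup_right, ← ha]
        exact Subgroup.index_dvd_card _
      obtain ⟨i, -, hi⟩ := (Nat.dvd_prime_pow hp.out).1 h3
      exact ⟨q, hq, i, b, by rw [← Subgroup.card_mul_index (Q : Subgroup G), hb, hi]⟩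
    · exfalso
      have hH := IH _ htop
      have hle : (Q : Subgroup G) ≤ Subgroup.centralizer (P : Set G) := by
        intro y hy
        rw [Subgroup.mem_centralizer_iff]
        intro x hx
        have hxH : x ∈ (P : Subgroup G) ⊔ Q := (le_sup_left : (P : Subgroup G) ≤ _) hx
        have hyH : y ∈ (P : Subgroup G) ⊔ Q := (le_sup_right : (Q : Subgroup G) ≤ _) hy
        have hxp : PEl p x := PEl.of_mem P.2 hx
        have h1 : PEl p (x * (y * x⁻¹ * y⁻¹)) := by
          have := hH ⟨x, hxH⟩ ⟨y * x⁻¹ * y⁻¹, mul_mem (mul_mem hyH (inv_mem hxH)) (inv_mem hyH)⟩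
            (PEl.of_map _ (Subgroup.subtype_injective _) hxp)
            (PEl.of_map _ (Subgroup.subtype_injective _) (hxp.inv.conj y))
          exact this.map (Subgroup.subtype _)
        have h2 : x * (y * x⁻¹ * y⁻¹) ∈ Q := by
          have h3 : x * y * x⁻¹ ∈ Q := (Subgroup.mem_normalizer_iff.1 (hQ hx) y).1 hy
          have e : x * (y * x⁻¹ * y⁻¹) = x * y * x⁻¹ * y⁻¹ := by group
          rw [e]
          exact mul_mem h3 (inv_mem hy)
        obtain ⟨k, hk⟩ := PEl.of_mem Q.2 h2
        have h4 : x * (y * x⁻¹ * y⁻¹) = 1 := h1.eq_one_of_pow hk (by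
          intro h
          exact hqp ((Nat.prime_dvd_prime_iff_eq hp.out hq).1 (hp.out.dvd_of_dvd_pow h)).symm)
        have h5 : x * (y * x⁻¹ * y⁻¹) * y * x = 1 * y * x := by rw [h4]
        simpa [mul_assoc] using h5
      exact Q.not_dvd_index (hqd.trans (Subgroup.index_dvd_of_le hle))

end groupth

section chars

variable {G : Type u} [Group G] [Finite G] (p : ℕ) [hp : Fact p.Prime]

omit hp in
/-- an element in the kernel of all irreducible characters of degree `< χ 1` is trivial, if `χ` is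
faithful and reducible -/
theorem eq_one_of_forall_constituent_lt {χ : G → ℂ} (hχ : IsCharacter G χ)
    (hfaith : ∀ g : G, χ g = χ 1 → g = 1) {n : ℕ} (hn : χ 1 = n) (hirr : ¬ IsIrrCharacter G χ)
    (c : G) (h : ∀ (ψ : G → ℂ) (d : ℕ), IsIrrCharacter G ψ → ψ 1 = d → d < n → ψ c = ψ 1) :
    c = 1 := by
  classical
  have := Fintype.ofFinite G
  have := Cfsg.Agent.Lib.Helper20.finite_irrCharacter (G := G)
  have := Fintype.ofFinite (IrrCharacter G)
  obtain ⟨m, hm1, hm⟩ := Helper4.char_eq_sum_nat_irr hχ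
  apply hfaith
  rw [hm, Finset.sum_apply, Finset.sum_apply]
  apply Finset.sum_congr rfl
  intro ψ _
  simp only [Pi.smul_apply, smul_eq_mul]
  by_cases h0 : m ψ = 0
  · rw [h0]; simp
  · obtain ⟨d, hd⟩ := isCharacter_apply_one (isIrr_isChar ψ.2)
    have hne : classInner χ (ψ : G → ℂ) ≠ 0 := by
      rw [hm1]; exact_mod_cast h0
    obtain ⟨η, hη, he⟩ := exists_add_of_inner_ne_zero hχ ψ.2 hne
    obtain ⟨e, he1⟩ := isCharacter_apply_one hη
    have hsum : n = d + e := by
      have := congrFun he 1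
      rw [Pi.add_apply, hn, hd, he1] at this
      exact_mod_cast this
    have he0 : e ≠ 0 := by
      rintro rfl
      have : η = 0 := isChar_eq_zero_of_one_eq_zero hη (by rw [he1]; simp)
      rw [this, add_zero] at he
      exact hirr (he ▸ ψ.2)
    rw [h ψ d ψ.2 hd (by omega)]

theorem ito_step {χ : G → ℂ} (hχ : IsCharacter G χ)
    (hfaith : ∀ g : G, χ g = χ 1 → g = 1) {n : ℕ} (hn : χ 1 = n) (hnp : n + 1 ≤ p)
    (hsolv : IsPSolvable p G)
    (IH : ∀ H : Subgroup G, H ≠ ⊤ → NS p H) (hNS : ¬ NS p G) :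
    n + 1 = p ∧ (∃ k : ℕ, n = 2 ^ k) ∧ IsIrrCharacter G χ := by
  classical
  have := Fintype.ofFinite G
  obtain ⟨P⟩ : Nonempty (Sylow p G) := inferInstance
  have hab : ∀ a ∈ P, ∀ b ∈ P, a * b = b * a := by
    intro a ha b hb
    have := Helper4.comm_of_isPGroup hp.out P.2 (isCharacter_restrict hχ (P : Subgroup G))
      (Helper4.restrict_faithful hfaith (P : Subgroup G)) hn (by omega) ⟨a, ha⟩ ⟨b, hb⟩
    exact congrArg Subtype.val this
  rcases ns_or_pNilpotent p hsolv P hab IH with h | ⟨K, hKn, hK, hidx⟩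
  · exact absurd h hNS
  have h1 : n + 1 = p := by
    by_contra hne
    exact hNS (NS.of_central (fun x hx =>
      pEl_central_of_pNilpotent p K hK hidx hχ hfaith hn (by omega) x hx))
  have h3 : IsIrrCharacter G χ := by
    by_contra hirr
    apply hNS
    apply NS.of_central
    intro x hx
    rw [Subgroup.mem_center_iff]
    intro g
    have h4 : x * g * x⁻¹ * g⁻¹ = 1 := by
      apply eq_one_of_forall_constituent_lt hχ hfaith hn hirr
      intro ψ d hψ hd hdn
      exact comm_ker_of_pNilpotent p K hK hidx hψ d hd (by omega) x hx g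
    have h5 : x * g * x⁻¹ * g⁻¹ * g * x = 1 * g * x := by rw [h4]
    simpa using h5.symm
  refine ⟨h1, ?_, h3⟩
  rcases central_or_card p K hK hidx P hab IH with h | ⟨q, hq, a, b, hcard⟩
  · exact absurd h hNS
  have hdeg : charDegree χ = n := by
    unfold charDegree
    rw [hn]; simp
  have hdvd : n ∣ Nat.card G := hdeg ▸ isIrr_charDegree_dvd_card h3
  have hpos : 0 < n := Nat.pos_of_dvd_of_pos hdvd Nat.card_pos
  have hcop : Nat.Coprime n (p ^ a) := by
    apply Nat.Coprime.pow_right
    rw [Nat.coprime_comm, Nat.Prime.coprime_iff_not_dvd hp.out]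
    intro h
    have := Nat.le_of_dvd hpos h
    omega
  rw [hcard] at hdvd
  have hdq : n ∣ q ^ b := hcop.dvd_of_dvd_mul_right hdvd
  obtain ⟨c, -, hc⟩ := (Nat.dvd_prime_pow hq).1 hdq
  rcases hp.out.eq_two_or_odd' with h2 | hodd
  · exact ⟨0, by omega⟩
  · have heven : 2 ∣ n := by
      obtain ⟨r, hr⟩ := hodd
      exact ⟨r, by omega⟩
    rw [hc] at heven
    have : q = 2 := ((Nat.prime_dvd_prime_iff_eq Nat.prime_two hq).1
      (Nat.prime_two.dvd_of_dvd_pow heven)).symm
    exact ⟨c, by rw [hc, this]⟩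

end chars

/-- **Itô**: `p`-soluble groups with a faithful character of degree at most `p - 1`. -/
theorem ito_of_faithful (p : ℕ) [hp : Fact p.Prime] (n : ℕ) (hnp : n + 1 ≤ p) :
    ∀ (N : ℕ) (G : Type u) [Group G] [Finite G],
    Nat.card G = N → ∀ χ : G → ℂ, IsCharacter G χ → (∀ g : G, χ g = χ 1 → g = 1) → χ 1 = n →
    IsPSolvable p G → ¬ NS p G →
    n + 1 = p ∧ (∃ k : ℕ, n = 2 ^ k) ∧ IsIrrCharacter G χ := by
  intro N
  induction N using Nat.strong_induction_on with
  | _ N ih =>
    intro G _ _ hN χ hχ hfaith hn hsolv hNS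
    by_cases hall : ∀ H : Subgroup G, H ≠ ⊤ → NS p H
    · exact ito_step p hχ hfaith hn hnp hsolv hall hNS
    · push Not at hall
      obtain ⟨H, hH, hHNS⟩ := hall
      have hlt : Nat.card H < N := by
        rw [← hN]
        by_contra hcon
        exact hH (Subgroup.eq_top_of_le_card H (by omega))
      obtain ⟨h1, h2, h3⟩ := ih _ hlt H rfl _ (isCharacter_restrict hχ H)
        (Helper4.restrict_faithful hfaith H) hn (Helper73.isPSolvable_subgroup hsolv H) hHNS
      classical
      have := Fintype.ofFinite G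
      exact ⟨h1, h2, isIrr_of_comp_isIrr H.subtype hχ h3⟩

end Cfsg.Agent.Lib.Helper19
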