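import Cfsg.Agent.Lib.Helper19.Deg2B
import Cfsg.Agent.Lib.Helper19.Ito
import Cfsg.Agent.Lib.Helper19.IndChar
import Cfsg.Agent.Lib.Helper82.Linear
import Cfsg.Agent.Lib.Helper82.LinCount

set_option autoImplicit false
open Cfsg
open scoped ComplexConjugate
open Cfsg.Agent.Lib.Helper20 Cfsg.Agent.Lib.Helper82

namespace Cfsg.Agent.Lib.Helper19.Deg2

open Subgroup

variable {G : Type*} [Group G] [Fintype G]

theorem mem_center_of_normSq {χ : G → ℂ} (hχ : IsCharacter G χ)
    (hfaith : ∀ g : G, χ g = χ 1 → g = 1) {x : G} (h : χ x * conj (χ x) = χ 1 ^ 2) :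
    x ∈ center G := by
  rw [mem_center_iff]
  intro g
  have h1 := hfaith _ (apply_comm_of_normSq hχ x h g)
  have h5 : x * g * x⁻¹ * g⁻¹ * g * x = 1 * g * x := by rw [h1]
  simpa using h5.symm

/-- a faithful character of degree 2 on a group: reducible implies abelian -/
theorem comm_of_reducible {C : Type*} [Group C] [Finite C] {ψ : C → ℂ} (hψ : IsCharacter C ψ)
    (hfaith : ∀ g : C, ψ g = ψ 1 → g = 1) (h2 : ψ 1 = 2) (hirr : ¬ IsIrrCharacter C ψ)
    (a b : C) : a * b = b * a := by
  have h1 : a * b * a⁻¹ * b⁻¹ = 1 := by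
    apply eq_one_of_forall_constituent_lt hψ hfaith (n := 2) (by rw [h2]; norm_num) hirr
    intro ξ d hξ hd hd2
    have hd0 : d ≠ 0 := by
      rintro rfl
      exact isIrr_one_ne_zero hξ (by rw [hd]; simp)
    obtain rfl : d = 1 := by omega
    obtain ⟨f, rfl⟩ := exists_hom_of_linear ξ ⟨isIrr_isChar hξ, by simpa using hd⟩
    simp only [homFun_apply, map_mul, map_inv, map_one]
    rw [mul_comm (f a) (f b), mul_inv_cancel_right, mul_inv_cancel]
  have h5 : a * b * a⁻¹ * b⁻¹ * b * a = 1 * b * a := by rw [h1]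
  simpa using h5

theorem ca_of_faithful {χ : G → ℂ} (hχ : IsCharacter G χ)
    (hfaith : ∀ g : G, χ g = χ 1 → g = 1) (h2 : χ 1 = 2) : CA G := by
  classical
  intro x hx a ha b hb
  have hψ : IsCharacter (Cz x) (fun c : Cz x => χ c) := isCharacter_restrict hχ _
  have hψf := Helper4.restrict_faithful hfaith (Cz x)
  by_cases hirr : IsIrrCharacter (Cz x) (fun c : Cz x => χ c)
  · exfalso
    apply hx
    have hxC : x ∈ Cz x := by simp [mem_Cz]
    have hxc : (⟨x, hxC⟩ : Cz x) ∈ center (Cz x) := by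
      rw [mem_center_iff]
      intro c
      exact Subtype.ext (mem_Cz.1 c.2)
    have := isIrr_central_mul_conj hirr hxc
    exact mem_center_of_normSq hχ hfaith this
  · have := comm_of_reducible hψ hψf h2 hirr ⟨a, ha⟩ ⟨b, hb⟩
    exact congrArg Subtype.val this

/-- decomposition of a degree-2 character on an abelian subgroup -/
theorem exists_decomp {χ : G → ℂ} (hχ : IsCharacter G χ) (h2 : χ 1 = 2) (A : Subgroup G)
    (hA : ∀ a ∈ A, ∀ b ∈ A, a * b = b * a) :
    ∃ lam mu : A →* ℂˣ, ∀ a : A, χ a = (lam a : ℂ) + (mu a : ℂ) := by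
  classical
  have hψ : IsCharacter A (fun c : A => χ c) := isCharacter_restrict hχ _
  have h1 : (fun c : A => χ c) 1 ≠ 0 := by
    change χ 1 ≠ 0
    rw [h2]; norm_num
  obtain ⟨ξ, hξ⟩ := exists_irr_constituent hψ h1
  obtain ⟨η, hη, he⟩ := exists_add_of_inner_ne_zero hψ ξ.2 hξ
  have hξ1 : (ξ : A → ℂ) 1 = 1 :=
    isIrr_one_eq_one_of_comm (fun a b => Subtype.ext (hA a a.2 b b.2)) ξ.2
  have hη1 : η 1 = 1 := by
    have := congrFun he 1
    rw [Pi.add_apply, hξ1] at this
    change χ 1 = _ at this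
    rw [h2] at this
    linear_combination -this
  obtain ⟨f, hf⟩ := exists_hom_of_linear (ξ : A → ℂ) ⟨isIrr_isChar ξ.2, hξ1⟩
  obtain ⟨f', hf'⟩ := exists_hom_of_linear η ⟨hη, hη1⟩
  refine ⟨f, f', fun a => ?_⟩
  have := congrFun he a
  rw [Pi.add_apply, hf, hf'] at this
  exact this

theorem isIrr_homFun {A : Type*} [Group A] [Finite A] (f : A →* ℂˣ) :
    IsIrrCharacter A (homFun f) :=
  isChar_linear_isIrr (isCharacter_homFun f).1 (isCharacter_homFun f).2

/-- if `f₁ + f₂ = g₁ + g₂` for linear characters then `f₁ ∈ {g₁, g₂}` -/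
theorem hom_dichotomy {A : Type*} [Group A] [Fintype A] (f₁ f₂ g₁ g₂ : A →* ℂˣ)
    (h : ∀ a : A, (f₁ a : ℂ) + (f₂ a : ℂ) = (g₁ a : ℂ) + (g₂ a : ℂ)) : f₁ = g₁ ∨ f₁ = g₂ := by
  by_contra hcon
  push Not at hcon
  have hfun : homFun f₁ + homFun f₂ = homFun g₁ + homFun g₂ := by
    funext a
    exact h a
  have h1 : classInner (homFun f₁ + homFun f₂) (homFun f₁) =
      classInner (homFun g₁ + homFun g₂) (homFun f₁) := by rw [hfun]
  rw [classInner_add_left, classInner_add_left, classInner_irr_self (isIrr_homFun f₁),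
    classInner_irr_ne (isIrr_homFun g₁) (isIrr_homFun f₁)
      (fun e => hcon.1 (homFun_injective e).symm),
    classInner_irr_ne (isIrr_homFun g₂) (isIrr_homFun f₁)
      (fun e => hcon.2 (homFun_injective e).symm)] at h1
  obtain ⟨k, hk⟩ := isCharacter_classInner_nat (isCharacter_homFun f₂).1 (isIrr_homFun f₁)
  rw [hk] at h1
  have : ((1 + k : ℕ) : ℂ) = 0 := by push_cast; rw [h1]; ring
  exact absurd (Nat.cast_eq_zero.1 this) (by omega)

theorem normalizer_card_le {χ : G → ℂ} (hχ : IsCharacter G χ)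
    (hfaith : ∀ g : G, χ g = χ 1 → g = 1) (h2 : χ 1 = 2) (A : Subgroup G)
    (hself : centralizer (A : Set G) ≤ A) (lam mu : A →* ℂˣ)
    (hdec : ∀ a : A, χ a = (lam a : ℂ) + (mu a : ℂ)) (hne : lam ≠ mu) :
    Nat.card (normalizer (A : Set G)) ≤ 2 * Nat.card A := by
  classical
  have hcl := isClassFunction_of_isCharacter hχ
  let σ := A.normalizerMonoidHom
  have hσ : ∀ (t : normalizer (A : Set G)) (a : A), ((σ t a : A) : G) = t * a * (t : G)⁻¹ :=
    fun t a => rfl
  let tw : normalizer (A : Set G) → (A →* ℂˣ) → (A →* ℂˣ) :=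
    fun t f => f.comp (σ t).toMonoidHom
  have htw : ∀ t f a, tw t f a = f (σ t a) := fun t f a => rfl
  have E1 : ∀ t a, ((tw t lam a : ℂˣ) : ℂ) + ((tw t mu a : ℂˣ) : ℂ) = (lam a : ℂ) + (mu a : ℂ) := by
    intro t a
    rw [htw, htw, ← hdec, ← hdec, hσ, hcl]
  have D : ∀ t, tw t lam = lam ∨ tw t lam = mu := fun t => hom_dichotomy _ _ _ _ (E1 t)
  -- the other character
  have D1 : ∀ t, tw t lam = lam → tw t mu = mu := by
    intro t ht
    ext a
    have := E1 t a
    rw [ht] at this
    exact add_left_cancel this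
  have D2 : ∀ t, tw t lam = mu → tw t mu = lam := by
    intro t ht
    ext a
    have := E1 t a
    rw [ht, add_comm] at this
    exact add_right_cancel this
  -- the stabilizer of `lam` is `A`
  have T : ∀ t : normalizer (A : Set G), tw t lam = lam → (t : G) ∈ A := by
    intro t ht
    apply hself
    rw [mem_centralizer_iff]
    intro a ha
    have hmu := D1 t ht
    have h3 : χ ((σ t ⟨a, ha⟩ * (⟨a, ha⟩ : A)⁻¹ : A) : G) = χ 1 := by
      rw [hdec, map_mul, map_mul, ← htw, ← htw, ht, hmu, map_inv, map_inv, mul_inv_cancel,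
        mul_inv_cancel, h2]
      norm_num
    have h4 := hfaith _ h3
    rw [Subgroup.coe_mul, hσ, Subgroup.coe_inv] at h4
    change (t : G) * a * (t : G)⁻¹ * a⁻¹ = 1 at h4
    have h5 : (t : G) * a * (t : G)⁻¹ * a⁻¹ * a * t = 1 * a * t := by rw [h4]
    simpa using h5.symm
  have key : ∀ s t : normalizer (A : Set G), (s : G) ∉ A → (t : G) ∉ A → (s : G)⁻¹ * t ∈ A := by
    intro s t hs ht
    have hs1 : tw s lam = mu := (D s).resolve_left (fun h => hs (T s h))
    have ht1 : tw t lam = mu := (D t).resolve_left (fun h => ht (T t h))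
    have hs2 := D2 s hs1
    have ht2 := D2 t ht1
    have hinv : tw s⁻¹ lam = mu := by
      ext a
      have h6 : tw s mu (σ s⁻¹ a) = lam (σ s⁻¹ a) := by rw [hs2]
      rw [htw] at h6
      have h7 : σ s (σ s⁻¹ a) = a := by
        rw [← MulAut.mul_apply, ← map_mul, mul_inv_cancel, map_one, MulAut.one_apply]
      rw [h7] at h6
      rw [htw, ← h6]
    have : tw (s⁻¹ * t) lam = lam := by
      ext a
      rw [htw, map_mul, MulAut.mul_apply, ← htw, hinv, ← htw, ht2]
    exact T (s⁻¹ * t) this
  by_cases hex : ∃ s : normalizer (A : Set G), (s : G) ∉ A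
  · obtain ⟨s, hs⟩ := hex
    have hsub : (normalizer (A : Set G) : Set G) ⊆ (A : Set G) ∪ (fun a => (s : G) * a) '' (A : Set G) := by
      intro t ht
      by_cases htA : t ∈ A
      · exact Or.inl htA
      · right
        exact ⟨(s : G)⁻¹ * t, key s ⟨t, ht⟩ hs htA, by simp⟩
    have h1 := Set.ncard_le_ncard hsub (Set.toFinite _)
    have h2 := Set.ncard_union_le (A : Set G) ((fun a => (s : G) * a) '' (A : Set G))
    have h3 := Set.ncard_image_le (f := fun a => (s : G) * a) (Set.toFinite (A : Set G))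
    rw [← Nat.card_coe_set_eq] at h1
    have h4 : Nat.card A = (A : Set G).ncard := Nat.card_coe_set_eq _
    have h5 : Nat.card (normalizer (A : Set G)) =
      Nat.card ((normalizer (A : Set G) : Subgroup G) : Set G) := rfl
    omega
  · push Not at hex
    have hle : normalizer (A : Set G) ≤ A := fun t ht => hex ⟨t, ht⟩
    have := card_le_of_le hle
    omega

/-- **Primitive linear groups of degree 2.** -/
theorem index_center_of_primitive {χ : G → ℂ} (hχ : IsIrrCharacter G χ)
    (hfaith : ∀ g : G, χ g = χ 1 → g = 1) (h2 : χ 1 = 2)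
    (hprim : ∀ H : Subgroup G, H ≠ ⊤ → ∀ θ : H → ℂ, IsCharacter H θ → χ ≠ indFun H θ) :
    (center G).index = 12 ∨ (center G).index = 24 ∨ (center G).index = 60 := by
  classical
  have hχc := isIrr_isChar hχ
  have hCA := ca_of_faithful hχc hfaith h2
  -- no abelian subgroup of index at most 2
  have hnoab : ∀ A : Subgroup G, (∀ a ∈ A, ∀ b ∈ A, a * b = b * a) →
      ¬ Nat.card G ≤ 2 * Nat.card A := by
    intro A hA hcard
    obtain ⟨lam, mu, hdec⟩ := exists_decomp hχc h2 A hA
    have hidx : A.index ≤ 2 := by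
      have h1 := A.card_mul_index
      rw [← h1, mul_comm 2] at hcard
      exact Nat.le_of_mul_le_mul_left hcard Nat.card_pos
    have hAtop : A ≠ ⊤ := by
      rintro rfl
      have := isIrr_one_eq_one_of_comm (fun a b => hA a trivial b trivial) hχ
      rw [h2] at this
      norm_num at this
    have hidx2 : A.index = 2 := by
      have h0 : A.index ≠ 0 := FiniteIndex.index_ne_zero
      have h1 : A.index ≠ 1 := fun h => hAtop (index_eq_one.1 h)
      omega
    have hind : IsCharacter G (indFun A (homFun lam)) :=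
      isCharacter_indFun A _ (isCharacter_homFun lam).1
    have hrec : classInner (indFun A (homFun lam)) χ ≠ 0 := by
      rw [frobenius_reciprocity A _ χ (isClassFunction_of_isCharacter hχc)]
      have hres : (fun h : A => χ h) = homFun lam + homFun mu := by
        funext a; exact hdec a
      rw [hres, classInner_add_right, classInner_irr_self (isIrr_homFun lam)]
      obtain ⟨k, hk⟩ := isCharacter_classInner_nat (isCharacter_homFun lam).1 (isIrr_homFun mu)
      rw [hk]
      intro h
      have : ((1 + k : ℕ) : ℂ) = 0 := by push_cast; exact h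
      exact absurd (Nat.cast_eq_zero.1 this) (by omega)
    obtain ⟨η, hη, he⟩ := exists_add_of_inner_ne_zero hind hχ hrec
    have hη1 : η 1 = 0 := by
      have := congrFun he 1
      rw [Pi.add_apply, indFun_one, hidx2, h2, (isCharacter_homFun lam).2] at this
      push_cast at this
      linear_combination -this
    have hη0 := isChar_eq_zero_of_one_eq_zero hη hη1
    rw [hη0, add_zero] at he
    exact hprim A hAtop _ (isCharacter_homFun lam).1 he.symm
  have hN : ∀ x : G, x ∉ center G →
      Nat.card (normalizer (Cz x : Set G)) ≤ 2 * Nat.card (Cz x) := by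
    intro x hx
    obtain ⟨lam, mu, hdec⟩ := exists_decomp hχc h2 (Cz x) (hCA x hx)
    have hxC : x ∈ Cz x := by simp [mem_Cz]
    apply normalizer_card_le hχc hfaith h2 (Cz x) _ lam mu hdec
    · rintro rfl
      apply hx
      apply mem_center_of_normSq hχc hfaith
      have := hdec ⟨x, hxC⟩
      change χ x = _ at this
      rw [this, h2, map_add]
      have hn : (lam ⟨x, hxC⟩ : ℂ) * conj (lam ⟨x, hxC⟩ : ℂ) = 1 := by
        have h3 := isIrr_central_mul_conj (isIrr_homFun lam) (z := ⟨x, hxC⟩) (by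
          rw [mem_center_iff]
          intro c
          exact Subtype.ext (mem_Cz.1 c.2))
        simpa using h3
      linear_combination 4 * hn
    · intro c hc
      exact mem_Cz.2 ((mem_centralizer_iff.1 hc x hxC).symm)
  rcases count_main hCA hN with h | h | h | h | ⟨x, hx, hcard⟩
  · exfalso
    have htop : center G = ⊤ := index_eq_one.1 h
    apply hnoab ⊤
    · intro a _ b _
      have : a ∈ center G := by rw [htop]; trivial
      exact (mem_center_iff.1 this b).symm
    · rw [card_top]; omega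
  · exact Or.inl h
  · exact Or.inr (Or.inl h)
  · exact Or.inr (Or.inr h)
  · exact absurd hcard (hnoab _ (hCA x hx))

end Cfsg.Agent.Lib.Helper19.Deg2
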