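import Cfsg.Agent.Lib.Helper19.FTB1
import Cfsg.Agent.Lib.Helper74.MaxSolvable
import Cfsg.Agent.Lib.Helper80.PSolv

set_option autoImplicit false

namespace Cfsg.Agent.Lib.Helper19

open Subgroup

universe u

/-- `n` is divisible by a prime power congruent to `-1, 0, 1` modulo `p`. -/
def Good (p n : ℕ) : Prop :=
  ∃ q : ℕ, IsPrimePow q ∧ q ∣ n ∧
    ((q : ℤ) ≡ -1 [ZMOD p] ∨ (q : ℤ) ≡ 0 [ZMOD p] ∨ (q : ℤ) ≡ 1 [ZMOD p])

theorem Good.of_dvd {p m n : ℕ} (h : Good p m) (hmn : m ∣ n) : Good p n := by
  obtain ⟨q, h1, h2, h3⟩ := h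
  exact ⟨q, h1, h2.trans hmn, h3⟩

theorem good_of_dvd_self {p n : ℕ} (hp : p.Prime) (h : p ∣ n) : Good p n :=
  ⟨p, hp.isPrimePow, h, Or.inr (Or.inl (Int.modEq_zero_iff_dvd.2 dvd_rfl))⟩

theorem le_normalizer_of_conj_mem {G : Type*} [Group G] {H K : Subgroup G}
    (h : ∀ k ∈ K, ∀ x ∈ H, k * x * k⁻¹ ∈ H) : K ≤ normalizer (H : Set G) := by
  intro k hk
  rw [mem_normalizer_iff]
  intro x
  constructor
  · exact h k hk x
  · intro hx
    have := h k⁻¹ (inv_mem hk) _ hx
    have e : k⁻¹ * (k * x * k⁻¹) * k⁻¹⁻¹ = x := by group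
    rwa [e] at this

/-- a `p`-element which is also an `r`-element is trivial -/
theorem PEl.eq_one_of_pEl {K : Type*} [Group K] {p r : ℕ} [hp : Fact p.Prime] (hr : r.Prime)
    (hrp : r ≠ p) {x : K} (h : PEl p x) (h' : PEl r x) : x = 1 := by
  obtain ⟨k, hk⟩ := h'
  exact h.eq_one_of_pow hk (fun hd =>
    hrp ((Nat.prime_dvd_prime_iff_eq hp.out hr).1 (hp.out.dvd_of_dvd_pow hd)).symm)

section
variable {G : Type u} [Group G] [Finite G] (p : ℕ) [hp : Fact p.Prime]

theorem good_index_corefree [Group.IsSolvable G] (P : Sylow p G)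
    (hnc : ∀ M : Subgroup G, M.Normal → (P : Subgroup G) ≤ M → M = ⊤)
    (T : Subgroup G) (hT : T ≠ ⊤) (hcore : ∀ M : Subgroup G, M.Normal → M ≤ T → M = ⊥)
    (IH : ∀ T' : Subgroup G, T' ≠ ⊤ → T'.index < T.index → Good p T'.index) :
    Good p T.index := by
  have hnt : Nontrivial G := by
    by_contra hn
    rw [not_nontrivial_iff_subsingleton] at hn
    exact hT (Subsingleton.elim _ _)
  obtain ⟨r, N, hr, hNn, hNne, hNp, hNab, -⟩ := Helper74.exists_normal_pGroup_of_isSolvable G
  have : Fact r.Prime := ⟨hr⟩
  by_cases htop : T ⊔ N = ⊤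
  · have hinfn : (N ⊓ T).Normal := by
      rw [← normalizer_eq_top_iff, eq_top_iff, ← htop]
      apply sup_le
      · apply le_normalizer_of_conj_mem
        intro t ht y hy
        exact ⟨hNn.conj_mem y hy.1 t, T.mul_mem (T.mul_mem ht hy.2) (T.inv_mem ht)⟩
      · apply le_normalizer_of_conj_mem
        intro n hn y hy
        rw [hNab n hn y hy.1, mul_inv_cancel_right]
        exact hy
    have hinf : N ⊓ T = ⊥ := hcore _ hinfn inf_le_right
    have hidx : T.index = Nat.card N := by
      rw [← relIndex_top_right, ← htop, Helper80.relIndex_sup_of_normal, ← inf_relIndex_right,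
        inf_comm, hinf, relIndex_bot_left]
    obtain ⟨k, hk⟩ := IsPGroup.iff_card.1 hNp
    have hk0 : k ≠ 0 := by
      rintro rfl
      rw [pow_zero] at hk
      exact hNne (card_eq_one.1 hk)
    by_cases hrp : r = p
    · subst hrp
      rw [hidx, hk]
      exact good_of_dvd_self hr (dvd_pow_self _ hk0)
    · let PH : Sylow p (P ⊔ N : Subgroup G) := P.subtype le_sup_left
      have h1 : Nat.card (Sylow p (P ⊔ N : Subgroup G)) ∣ r ^ k := by
        have h2 := PH.card_dvd_index
        have h3 : (PH : Subgroup (P ⊔ N : Subgroup G)).index =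
            (P : Subgroup G).relIndex (P ⊔ N) := rfl
        rw [h3, Helper80.relIndex_sup_of_normal] at h2
        rw [← hk]
        exact h2.trans (index_dvd_card _)
      obtain ⟨j, hjk, hj⟩ := (Nat.dvd_prime_pow hr).1 h1
      have hmod := card_sylow_modEq_one p (P ⊔ N : Subgroup G)
      by_cases hj0 : j = 0
      · exfalso
        rw [hj0, pow_zero] at hj
        have hPHn : (PH : Subgroup (P ⊔ N : Subgroup G)).Normal := by
          rw [← normalizer_eq_top_iff, ← index_eq_one]
          exact (Sylow.card_eq_index_normalizer PH).symm.trans hj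
        have hH : NS p (P ⊔ N : Subgroup G) := NS.of_sylow_normal PH hPHn
        have hcen : (P : Subgroup G) ≤ centralizer (N : Set G) := by
          intro x hx
          rw [mem_centralizer_iff]
          intro y hy
          have hxH : x ∈ (P : Subgroup G) ⊔ N := (le_sup_left : (P : Subgroup G) ≤ _) hx
          have hyH : y ∈ (P : Subgroup G) ⊔ N := (le_sup_right : N ≤ _) hy
          have hxp : PEl p x := PEl.of_mem P.2 hx
          have h1 : PEl p (x * (y * x⁻¹ * y⁻¹)) := by
            have := hH ⟨x, hxH⟩ ⟨y * x⁻¹ * y⁻¹, mul_mem (mul_mem hyH (inv_mem hxH)) (inv_mem hyH)⟩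
              (PEl.of_map _ (Subgroup.subtype_injective _) hxp)
              (PEl.of_map _ (Subgroup.subtype_injective _) (hxp.inv.conj y))
            exact this.map (Subgroup.subtype _)
          have h2 : x * (y * x⁻¹ * y⁻¹) ∈ N := by
            have e : x * (y * x⁻¹ * y⁻¹) = x * y * x⁻¹ * y⁻¹ := by group
            rw [e]
            exact mul_mem (hNn.conj_mem y hy x) (inv_mem hy)
          have h4 : x * (y * x⁻¹ * y⁻¹) = 1 := h1.eq_one_of_pEl hr hrp (PEl.of_mem hNp h2)
          have h5 : x * (y * x⁻¹ * y⁻¹) * y * x = 1 * y * x := by rw [h4]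
          simpa [mul_assoc] using h5.symm
        have hctop : centralizer (N : Set G) = ⊤ := hnc _ inferInstance hcen
        have hTn : T.Normal := by
          rw [← normalizer_eq_top_iff, eq_top_iff, ← htop]
          apply sup_le le_normalizer
          apply le_normalizer_of_conj_mem
          intro n hn y hy
          have : y ∈ centralizer (N : Set G) := by rw [hctop]; trivial
          rw [(mem_centralizer_iff.1 this) n hn, mul_inv_cancel_right]
          exact hy
        have hTbot : T = ⊥ := hcore T hTn le_rfl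
        rw [hTbot, bot_sup_eq] at htop
        have hPbot : (P : Subgroup G) ≤ ⊥ := by
          intro x hx
          rw [mem_bot]
          exact (PEl.of_mem P.2 hx).eq_one_of_pEl hr hrp
            (PEl.of_mem hNp (by rw [htop]; trivial))
        have := hnc ⊥ inferInstance hPbot
        exact hT (hTbot.trans this)
      · refine ⟨r ^ j, hr.isPrimePow.pow hj0, ?_, Or.inr (Or.inr ?_)⟩
        · rw [hidx, hk]; exact pow_dvd_pow _ hjk
        · rw [hj] at hmod
          exact_mod_cast (Int.natCast_modEq_iff.2 hmod)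
  · have hlt : (T ⊔ N).index < T.index := by
      have h1 : T.relIndex (T ⊔ N) * (T ⊔ N).index = T.index := relIndex_mul_index le_sup_left
      have h2 : T.relIndex (T ⊔ N) ≠ 1 := by
        intro h
        rw [relIndex_eq_one] at h
        exact hNne (hcore N hNn (le_sup_right.trans h))
      have h3 : T.relIndex (T ⊔ N) ≠ 0 := by
        intro h; rw [h, zero_mul] at h1
        exact FiniteIndex.index_ne_zero h1.symm
      have h4 : 0 < (T ⊔ N).index := Nat.pos_of_ne_zero FiniteIndex.index_ne_zero
      have h5 : 2 ≤ T.relIndex (T ⊔ N) := by omega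
      nlinarith
    exact (IH _ htop hlt).of_dvd (index_dvd_of_le le_sup_left)

end

/-- **Index lemma.** In a finite solvable group generated by its `p`-elements the index of a proper
subgroup is divisible by a prime power congruent to `0` or `1` modulo `p`. -/
theorem good_index (p : ℕ) [hp : Fact p.Prime] : ∀ (m : ℕ) (G : Type u) [Group G] [Finite G]
    [Group.IsSolvable G] (P : Sylow p G),
    (∀ M : Subgroup G, M.Normal → (P : Subgroup G) ≤ M → M = ⊤) →
    ∀ T : Subgroup G, T ≠ ⊤ → T.index = m → Good p m := by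
  intro m
  induction m using Nat.strong_induction_on with
  | _ m ih =>
    intro G _ _ _ P hnc T hT hm
    let K := T.normalCore
    have hKT : K ≤ T := normalCore_le T
    let π := QuotientGroup.mk' K
    have hπ : Function.Surjective π := QuotientGroup.mk'_surjective K
    have hker : π.ker = K := QuotientGroup.ker_mk' K
    have hidx : (T.map π).index = T.index := index_map_eq T hπ (by rw [hker]; exact hKT)
    have hT' : T.map π ≠ ⊤ := by
      intro h
      rw [← index_eq_one, hidx, index_eq_one] at h
      exact hT h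
    let P' : Sylow p (G ⧸ K) := P.mapSurjective hπ
    have hP' : (P' : Subgroup (G ⧸ K)) = (P : Subgroup G).map π := rfl
    have hnc' : ∀ M : Subgroup (G ⧸ K), M.Normal → (P' : Subgroup (G ⧸ K)) ≤ M → M = ⊤ := by
      intro M hM hPM
      have h1 : M.comap π = ⊤ := by
        apply hnc _ (hM.comap π)
        rw [← map_le_iff_le_comap]
        exact hPM
      rw [← map_comap_eq_self_of_surjective hπ M, h1, ← MonoidHom.range_eq_map,
        MonoidHom.range_eq_top.2 hπ]
    have hcore' : ∀ M : Subgroup (G ⧸ K), M.Normal → M ≤ T.map π → M = ⊥ := by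
      intro M hM hMT
      have h1 : M.comap π ≤ T := by
        have h2 : M.comap π ≤ (T.map π).comap π := comap_mono hMT
        rw [comap_map_eq, hker, sup_eq_left.2 hKT] at h2
        exact h2
      have : (M.comap π).Normal := hM.comap π
      have h3 : M.comap π ≤ K := (normal_le_normalCore).2 h1
      rw [← map_comap_eq_self_of_surjective hπ M, eq_bot_iff]
      calc (M.comap π).map π ≤ K.map π := map_mono h3
        _ = ⊥ := (map_eq_bot_iff K).2 hker.ge
    rw [← hm, ← hidx]
    apply good_index_corefree p P' hnc' (T.map π) hT' hcore'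
    intro T' hT'top hlt
    exact ih T'.index (by rw [← hm, ← hidx]; exact hlt) (G ⧸ K) P' hnc' T' hT'top rfl

end Cfsg.Agent.Lib.Helper19
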