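import Cfsg.Agent.Lib.Helper19.Dix1

set_option autoImplicit false

namespace Cfsg.Agent.Lib.Helper19

open Subgroup

universe u

theorem PEl.pow_of_card_le {K : Type*} [Group K] [Finite K] {p : ℕ} [hp : Fact p.Prime] {x : K}
    (h : PEl p x) {m : ℕ} (hm : Nat.card K ≤ m) : x ^ p ^ m = 1 := by
  obtain ⟨k, hk⟩ := h
  obtain ⟨j, -, hj⟩ := (Nat.dvd_prime_pow hp.out).1 (orderOf_dvd_of_pow_eq_one hk)
  have h1 : orderOf x ≤ Nat.card K := orderOf_le_card
  have h2 : j < p ^ j := Nat.lt_pow_self hp.out.one_lt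
  have h3 : j ≤ m := by omega
  apply orderOf_dvd_iff_pow_eq_one.1
  rw [hj]
  exact pow_dvd_pow _ h3

theorem NS.sub_map_normal {G : Type*} [Group G] {p : ℕ} {M : Subgroup G} (hMn : M.Normal)
    (hM : NS p M) : (hM.sub.map M.subtype).Normal := by
  constructor
  rintro _ ⟨⟨x, hx⟩, hxp, rfl⟩ g
  exact ⟨⟨g * x * g⁻¹, hMn.conj_mem x hx g⟩,
    PEl.of_map _ M.subtype_injective ((PEl.map M.subtype hxp).conj g), rfl⟩

/-- a finite solvable group all of whose normal subgroups of prime power order are central is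
abelian -/
theorem center_eq_top_of_normal_pgroups_central {G : Type*} [Group G] [Finite G]
    [Group.IsSolvable G]
    (h : ∀ (r : ℕ) (R : Subgroup G), r.Prime → R.Normal → IsPGroup r R → R ≤ center G) :
    center G = ⊤ := by
  by_contra hZ
  have hnt : Nontrivial (G ⧸ center G) := by
    by_contra hn
    rw [not_nontrivial_iff_subsingleton] at hn
    apply hZ
    rw [eq_top_iff]
    intro g _
    rw [← QuotientGroup.eq_one_iff]
    exact Subsingleton.elim _ _
  obtain ⟨r, B, hr, hBn, hBne, hBp, -, -⟩ :=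
    Helper74.exists_normal_pGroup_of_isSolvable (G ⧸ center G)
  have : Fact r.Prime := ⟨hr⟩
  let π := QuotientGroup.mk' (center G)
  have hπ : Function.Surjective π := QuotientGroup.mk'_surjective _
  let N := B.comap π
  have hNn : N.Normal := hBn.comap π
  have hZN : center G ≤ N := by
    intro z hz
    change π z ∈ B
    have : π z = 1 := (QuotientGroup.eq_one_iff z).2 hz
    rw [this]; exact one_mem _
  obtain ⟨Q⟩ : Nonempty (Sylow r N) := inferInstance
  let Q' : Subgroup G := (Q : Subgroup N).map N.subtype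
  have hQ'N : Q' ≤ N := map_subtype_le _
  have hmemQ : ∀ x : N, (x : G) ∈ Q' → x ∈ Q := by
    rintro x ⟨y, hy, hyx⟩
    have : y = x := Subtype.ext hyx
    rwa [← this]
  -- `N = Q' Z`
  have hsup : Q' ⊔ center G = N := by
    apply le_antisymm (sup_le hQ'N hZN)
    rw [← relIndex_eq_one]
    have h1 : (Q' ⊔ center G).relIndex N ∣ Q'.relIndex N := relIndex_dvd_of_le_left N le_sup_left
    have h2 : (Q' ⊔ center G).relIndex N ∣ (center G).relIndex N :=
      relIndex_dvd_of_le_left N le_sup_right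
    have h3 : Q'.relIndex N = (Q : Subgroup N).index := by
      rw [relIndex]
      congr 1
      ext x
      rw [mem_subgroupOf]
      exact ⟨hmemQ x, fun hx => ⟨x, hx, rfl⟩⟩
    have h4 : IsPGroup r (N ⧸ (center G).subgroupOf N) := by
      intro g
      obtain ⟨y, rfl⟩ := QuotientGroup.mk_surjective g
      obtain ⟨k, hk⟩ := hBp ⟨π y, y.2⟩
      refine ⟨k, ?_⟩
      rw [← QuotientGroup.mk_pow, QuotientGroup.eq_one_iff, mem_subgroupOf]
      have h5 : π ((y : G) ^ r ^ k) = 1 := by
        rw [map_pow]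
        exact congrArg Subtype.val hk
      exact (QuotientGroup.eq_one_iff _).1 h5
    obtain ⟨k, hk⟩ := IsPGroup.iff_card.1 h4
    have h5 : (center G).relIndex N = r ^ k := hk
    rw [h5] at h2
    rw [h3] at h1
    obtain ⟨j, -, hj⟩ := (Nat.dvd_prime_pow hr).1 h2
    rw [hj] at h1 ⊢
    by_contra hne
    have hj0 : j ≠ 0 := by
      rintro rfl
      exact hne (pow_zero _)
    exact Q.not_dvd_index ((dvd_pow_self r hj0).trans h1)
  have hQn : (Q : Subgroup N).Normal := by
    have hle : N ≤ normalizer (Q' : Set G) := by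
      rw [← hsup]
      apply sup_le le_normalizer
      apply le_normalizer_of_conj_mem
      intro z hz x hx
      rw [← (mem_center_iff.1 hz x), mul_inv_cancel_right]
      exact hx
    constructor
    intro q hq n
    apply hmemQ
    exact (mem_normalizer_iff.1 (hle n.2) q).1 ⟨q, hq, rfl⟩
  have hNS : NS r N := NS.of_sylow_normal Q hQn
  have hT := h r _ hr (hNS.sub_map_normal hNn) (hNS.sub_isPGroup.map _)
  have hQZ : Q' ≤ center G := by
    refine le_trans ?_ hT
    rintro _ ⟨q, hq, rfl⟩
    exact ⟨q, PEl.of_mem Q.2 hq, rfl⟩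
  have hNZ : N ≤ center G := by
    rw [← hsup]; exact sup_le hQZ le_rfl
  apply hBne
  rw [eq_bot_iff]
  intro b hb
  obtain ⟨y, rfl⟩ := hπ b
  rw [mem_bot]
  exact (QuotientGroup.eq_one_iff y).2 (hNZ hb)

end Cfsg.Agent.Lib.Helper19
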