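import Cfsg.Agent.Lib.Helper19.Dix2
import Cfsg.Agent.Lib.Helper19.Deg2C
import Cfsg.Agent.Lib.Helper5.DegHyp
import Cfsg.Agent.Lib.Helper11.AxB

set_option autoImplicit false
open Cfsg
open scoped ComplexConjugate
open Cfsg.Agent.Lib.Helper20 Cfsg.Agent.Lib.Helper82

namespace Cfsg.Agent.Lib.Helper19

open Subgroup

universe u

/-- an element in the kernel of all irreducible constituents of a faithful character is trivial -/
theorem eq_one_of_forall_constituent' {G : Type*} [Group G] [Fintype G] {χ : G → ℂ}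
    (hχ : IsCharacter G χ) (hfaith : ∀ g : G, χ g = χ 1 → g = 1) (c : G)
    (h : ∀ ψ : IrrCharacter G, classInner χ (ψ : G → ℂ) ≠ 0 → (ψ : G → ℂ) c = (ψ : G → ℂ) 1) :
    c = 1 := by
  classical
  have := Cfsg.Agent.Lib.Helper20.finite_irrCharacter (G := G)
  have := Fintype.ofFinite (IrrCharacter G)
  obtain ⟨m, hm1, hm⟩ := Helper4.char_eq_sum_nat_irr hχ
  apply hfaith
  rw [hm, Finset.sum_apply, Finset.sum_apply]
  apply Finset.sum_congr rfl
  intro ψ _
  simp only [Pi.smul_apply, smul_eq_mul]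
  by_cases h0 : m ψ = 0
  · rw [h0]; simp
  · rw [h ψ (by rw [hm1]; exact_mod_cast h0)]

/-- arithmetic: `r ^ a = m * r ^ b + S`, `p ∣ S`, `m ≡ ±1` -/
theorem good_of_pow_congr {p r a b m S : ℕ} (hp : p.Prime) (hr : r.Prime) (hrp : r ≠ p)
    (hab : b < a) (h : r ^ a = m * r ^ b + S) (hS : p ∣ S)
    (hm : (m : ℤ) ≡ 1 [ZMOD p] ∨ (m : ℤ) ≡ -1 [ZMOD p]) : Good p (r ^ a) := by
  obtain ⟨c, rfl⟩ : ∃ c, a = b + c := ⟨a - b, by omega⟩
  have hc : c ≠ 0 := by omega
  have hpi : Prime (p : ℤ) := Nat.prime_iff_prime_int.1 hp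
  have hnd : ¬ (p : ℤ) ∣ (r : ℤ) ^ b := by
    intro hd
    have := hpi.dvd_of_dvd_pow hd
    rw [Int.natCast_dvd_natCast] at this
    exact hrp ((Nat.prime_dvd_prime_iff_eq hp hr).1 this).symm
  have hz : ((r : ℤ) ^ b) * (r : ℤ) ^ c = m * (r : ℤ) ^ b + S := by
    have := congrArg (fun t : ℕ => (t : ℤ)) h
    push_cast at this
    rw [← this, pow_add]
  have hSz : (p : ℤ) ∣ (S : ℤ) := Int.natCast_dvd_natCast.2 hS
  refine ⟨r ^ c, hr.isPrimePow.pow hc, ⟨r ^ b, by rw [pow_add, mul_comm]⟩, ?_⟩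
  rcases hm with hm | hm
  · right; right
    have h1 : (p : ℤ) ∣ (m : ℤ) - 1 := (Int.modEq_iff_dvd.1 hm.symm)
    have h2 : (p : ℤ) ∣ (r : ℤ) ^ b * ((r : ℤ) ^ c - 1) := by
      have e : (r : ℤ) ^ b * ((r : ℤ) ^ c - 1) = ((m : ℤ) - 1) * (r : ℤ) ^ b + S := by
        linear_combination hz
      rw [e]
      exact dvd_add (Dvd.dvd.mul_right h1 _) hSz
    have h3 := (hpi.dvd_or_dvd h2).resolve_left hnd
    push_cast
    exact (Int.modEq_iff_dvd.2 h3).symm
  · left
    have h1 : (p : ℤ) ∣ (m : ℤ) - (-1) := (Int.modEq_iff_dvd.1 hm.symm)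
    have h2 : (p : ℤ) ∣ (r : ℤ) ^ b * ((r : ℤ) ^ c - (-1)) := by
      have e : (r : ℤ) ^ b * ((r : ℤ) ^ c - (-1)) = ((m : ℤ) - (-1)) * (r : ℤ) ^ b + S := by
        linear_combination hz
      rw [e]
      exact dvd_add (Dvd.dvd.mul_right h1 _) hSz
    have h3 := (hpi.dvd_or_dvd h2).resolve_left hnd
    push_cast
    exact (Int.modEq_iff_dvd.2 h3).symm

/-- **Glauberman degree congruence**: a `p`-group `S` acting on an `r`-group `K`, `θ` an invariant
irreducible character: either `θ 1` is divisible by a power of `r` congruent to `±1` modulo `p`,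
or `θ` restricts irreducibly to the fixed points. -/
theorem good_or_isIrr_restrict_fixed {Γ : Type*} [Group Γ] [Fintype Γ] (p : ℕ) [hp : Fact p.Prime]
    (r : ℕ) (hr : r.Prime) (hrp : r ≠ p)
    (K S : Subgroup Γ) [Fintype K] (hK : IsPGroup r K)
    (hnorm : ∀ s ∈ S, ∀ g ∈ K, s * g * s⁻¹ ∈ K) (hS : IsPGroup p S) (θ : IrrCharacter K)
    (hinv : ∀ s ∈ S, ∀ g g' : K, (g' : Γ) = s * g * s⁻¹ → (θ : K → ℂ) g' = (θ : K → ℂ) g)
    (C : Subgroup Γ) [Fintype C]
    (hC : C = K ⊓ Subgroup.centralizer (S : Set Γ)) (hCK : C ≤ K) :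
    Good p (charDegree (θ : K → ℂ)) ∨
      IsIrrCharacter C (fun c : C => (θ : K → ℂ) ⟨c, hCK c.2⟩) := by
  classical
  have : Fact r.Prime := ⟨hr⟩
  haveI : Finite (IrrCharacter C) := Cfsg.Agent.Lib.Helper20.finite_irrCharacter
  haveI : Fintype (IrrCharacter C) := Fintype.ofFinite _
  have hcop : (Nat.card K).Coprime (Nat.card S) := by
    obtain ⟨k, hk⟩ := IsPGroup.iff_card.1 hS
    obtain ⟨l, hl⟩ := IsPGroup.iff_card.1 hK
    rw [hk, hl]
    exact Nat.Coprime.pow _ _ ((Nat.coprime_primes hr hp.out).2 hrp)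
  obtain ⟨h1, h2, -, -⟩ := Cfsg.Agent.S4444.result K S hnorm hcop p hp.out hS C hC hCK
  set φ : C → ℂ := fun c : C => (θ : K → ℂ) ⟨c, hCK c.2⟩ with hφ
  have hφc : IsCharacter C φ :=
    isCharacter_comp_hom (isIrr_isChar θ.2) (Subgroup.inclusion hCK)
  obtain ⟨m, hm, hsum⟩ := Cfsg.Agent.Lib.Helper4.char_eq_sum_nat_irr hφc
  set d := charDegree (θ : K → ℂ) with hd
  have hφ1 : φ 1 = d := by
    rw [hd, ← isChar_one_eq (isIrr_isChar θ.2)]; rfl
  have hdsum : d = ∑ γ : IrrCharacter C, m γ * charDegree (γ : C → ℂ) := by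
    have := congrFun hsum 1
    rw [hφ1] at this
    simp only [Finset.sum_apply, Pi.smul_apply, smul_eq_mul] at this
    have h3 : (d : ℂ) = ((∑ γ : IrrCharacter C, m γ * charDegree (γ : C → ℂ) : ℕ) : ℂ) := by
      rw [this]; push_cast
      apply Finset.sum_congr rfl; intro γ _
      rw [isChar_one_eq (isIrr_isChar γ.2)]
    exact_mod_cast h3
  obtain ⟨β, ⟨mβ, hmβ, hpm⟩, huniq⟩ := h1 θ hinv
  have hmm : mβ = m β := by
    have : (mβ : ℂ) = m β := by rw [← hmβ]; exact hm β
    exact_mod_cast this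
  have hdvd : ∀ γ : IrrCharacter C, γ ≠ β → p ∣ m γ := by
    intro γ hγ
    by_contra hnd
    exact hγ (huniq γ ⟨m γ, hm γ, hnd⟩)
  have h5 := h2 θ hinv β mβ hmβ hpm
  rw [hmm] at h5 hpm
  set Sm := ∑ γ ∈ Finset.univ.erase β, m γ * charDegree (γ : C → ℂ) with hSm
  have hsplit : d = m β * charDegree (β : C → ℂ) + Sm := by
    rw [hdsum, hSm]
    exact (Finset.add_sum_erase Finset.univ (fun γ : IrrCharacter C => m γ * charDegree (γ : C → ℂ))
      (Finset.mem_univ β)).symm
  have hSdvd : p ∣ Sm := by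
    apply Finset.dvd_sum
    intro γ hγ
    exact Dvd.dvd.mul_right (hdvd γ (Finset.ne_of_mem_erase hγ)) _
  -- degrees are powers of `r`
  obtain ⟨l, hl⟩ := IsPGroup.iff_card.1 hK
  have hCp : IsPGroup r C := hK.to_le hCK
  obtain ⟨l', hl'⟩ := IsPGroup.iff_card.1 hCp
  obtain ⟨a, -, ha⟩ := (Nat.dvd_prime_pow hr).1 (hl ▸ isIrr_charDegree_dvd_card θ.2)
  obtain ⟨b, -, hb⟩ := (Nat.dvd_prime_pow hr).1 (hl' ▸ isIrr_charDegree_dvd_card β.2)
  rw [← hd] at ha
  rw [hb, ha] at hsplit
  have hm0 : m β ≠ 0 := by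
    intro h0; rw [h0] at hpm; exact hpm (dvd_zero _)
  have hba : b ≤ a := by
    by_contra hlt
    have h6 : r ^ a < r ^ b := Nat.pow_lt_pow_right hr.one_lt (by omega)
    have h7 : r ^ b ≤ m β * r ^ b := Nat.le_mul_of_pos_left _ (Nat.pos_of_ne_zero hm0)
    omega
  rcases Nat.lt_or_ge b a with hlt | hge
  · left
    rw [ha]
    exact good_of_pow_congr hp.out hr hrp hlt hsplit hSdvd h5
  · right
    obtain rfl : a = b := by omega
    have hpos : 0 < r ^ a := pow_pos hr.pos _
    have hone : m β = 1 := by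
      by_contra hne
      have h6 : 2 ≤ m β := by omega
      have h7 : 2 * r ^ a ≤ m β * r ^ a := Nat.mul_le_mul_right _ h6
      omega
    have hS0 : Sm = 0 := by
      rw [hone] at hsplit; omega
    have hzero : ∀ γ : IrrCharacter C, γ ≠ β → m γ = 0 := by
      intro γ hγ
      have h6 := (Finset.sum_eq_zero_iff.1 hS0) γ (Finset.mem_erase.2 ⟨hγ, Finset.mem_univ γ⟩)
      rcases Nat.mul_eq_zero.1 h6 with h7 | h7
      · exact h7
      · exact absurd h7 (isIrr_charDegree_pos γ.2).ne'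
    have : φ = (β : C → ℂ) := by
      rw [hsum, Finset.sum_eq_single β]
      · rw [hone]; simp
      · intro γ _ hγ; rw [hzero γ hγ]; simp
      · intro h; exact absurd (Finset.mem_univ β) h
    rw [this]
    exact β.2

/-- if `χ_R = e θ` and `θ` restricts irreducibly to `C_R(S)` then `S` centralizes `R` -/
theorem le_centralizer_of_isIrr_restrict {G : Type*} [Group G] [Fintype G] (p r : ℕ)
    [hp : Fact p.Prime] (hr : r.Prime) (hrp : r ≠ p) {χ : G → ℂ} (hχ : IsCharacter G χ)
    (hfaith : ∀ g : G, χ g = χ 1 → g = 1) (R : Subgroup G) (hRn : R.Normal) (hR : IsPGroup r R)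
    (θ : R → ℂ) (hθ : IsIrrCharacter R θ) (e : ℕ) (hres : ∀ y : R, χ y = e * θ y)
    (S : Subgroup G) (hS : IsPGroup p S) (C : Subgroup G)
    (hC : C = R ⊓ centralizer (S : Set G)) (hCR : C ≤ R)
    (hirr : IsIrrCharacter C (fun c : C => θ ⟨c, hCR c.2⟩)) : S ≤ centralizer (R : Set G) := by
  classical
  have : Fact r.Prime := ⟨hr⟩
  have hcop : (Nat.card S).Coprime r := by
    obtain ⟨k, hk⟩ := IsPGroup.iff_card.1 hS
    rw [hk]
    exact Nat.Coprime.pow_left _ ((Nat.coprime_primes hp.out hr).2 (Ne.symm hrp))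
  have hSC : S ≤ centralizer (C : Set G) := by
    intro s hs
    rw [mem_centralizer_iff]
    intro c hc
    rw [SetLike.mem_coe, hC] at hc
    exact ((mem_centralizer_iff.1 hc.2) s hs).symm
  have hSN : S ≤ normalizer (R : Set G) := by
    rw [normalizer_eq_top_iff.2 hRn]; exact le_top
  apply Helper11.thompson_AxB C S (hR.to_le hCR) hcop hSC R hR (hCR.trans le_normalizer) hSN
  intro s _
  rw [mem_centralizer_iff]
  rintro c' ⟨hc'R, hc'C⟩
  have hcen : c' ∈ center G := by
    let D : Subgroup R := centralizer ({⟨c', hc'R⟩} : Set R)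
    let f : C →* D :=
      { toFun := fun c => ⟨⟨c, hCR c.2⟩, by
          rw [mem_centralizer_singleton_iff]
          apply Subtype.ext
          exact ((mem_centralizer_iff.1 hc'C) c c.2)⟩
        map_one' := rfl
        map_mul' := fun _ _ => rfl }
    have hD : IsIrrCharacter D (fun y : D => θ y) :=
      isIrr_of_comp_isIrr f (isCharacter_restrict (isIrr_isChar hθ) D) hirr
    have hmem : (⟨c', hc'R⟩ : R) ∈ D := by
      rw [mem_centralizer_singleton_iff]
    have hz : (⟨⟨c', hc'R⟩, hmem⟩ : D) ∈ center D := by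
      rw [mem_center_iff]
      rintro ⟨y, hy⟩
      apply Subtype.ext
      rw [mem_centralizer_singleton_iff] at hy
      exact hy
    have h5 := isIrr_central_mul_conj hD hz
    change θ ⟨c', hc'R⟩ * conj (θ ⟨c', hc'R⟩) = θ 1 ^ 2 at h5
    apply Deg2.mem_center_of_normSq hχ hfaith
    have e1 := hres ⟨c', hc'R⟩
    have e2 := hres 1
    change χ c' = _ at e1
    change χ 1 = _ at e2
    rw [e1, e2, map_mul, Complex.conj_natCast]
    linear_combination (e : ℂ) ^ 2 * h5
  exact (mem_center_iff.1 hcen s).symm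

section step
variable {G : Type u} [Group G] [Finite G] [Group.IsSolvable G] (p : ℕ) [hp : Fact p.Prime]

theorem dix_step {χ : G → ℂ} (hχ : IsIrrCharacter G χ) (hfaith : ∀ g : G, χ g = χ 1 → g = 1)
    {n : ℕ} (hn : χ 1 = n) (P : Sylow p G)
    (hnc : ∀ M : Subgroup G, M.Normal → (P : Subgroup G) ≤ M → M = ⊤) (hNS : ¬ NS p G) :
    Good p n := by
  classical
  have := Fintype.ofFinite G
  by_contra hbad
  have hχc := isIrr_isChar hχ
  have hdeg : charDegree χ = n := by
    unfold charDegree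
    rw [hn]; simp
  have hn0 : n ≠ 0 := by
    rintro rfl
    exact isIrr_one_ne_zero hχ (by rw [hn]; simp)
  have hhom : ∀ (R : Subgroup G) (hRn : R.Normal), ∃ (θ : R → ℂ) (e : ℕ), IsIrrCharacter R θ ∧
      (∀ y : R, χ y = e * θ y) ∧ (∀ g : G, Helper5.cjF hRn θ g = θ) := by
    intro R hRn
    have : Fintype R := Fintype.ofFinite _
    have hψ : IsCharacter R (fun y : R => χ y) := isCharacter_restrict hχc R
    obtain ⟨θ, hθ⟩ := exists_irr_constituent hψ (by
      change χ 1 ≠ 0
      rw [hn]; exact_mod_cast hn0)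
    have hin : Helper5.inertia hRn (θ : R → ℂ) = ⊤ := by
      by_contra hne
      have h1 := Helper5.index_inertia_dvd hRn θ.2 hχ hθ
      exact hbad ((good_index p _ G P hnc _ hne rfl).of_dvd (hdeg ▸ h1))
    have hinv : ∀ g : G, Helper5.cjF hRn (θ : R → ℂ) g = θ := fun g =>
      (Helper5.mem_inertia hRn _ g).1 (by rw [hin]; trivial)
    have hcl := Helper5.clifford_invariant hRn hχ θ.2 hθ hinv
    obtain ⟨e, he⟩ := isCharacter_classInner_nat hψ θ.2
    refine ⟨θ, e, θ.2, ?_, hinv⟩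
    intro y
    have := congrFun hcl y
    rw [he] at this
    exact this
  have hcentral : ∀ (r : ℕ) (R : Subgroup G), r.Prime → R.Normal → IsPGroup r R →
      R ≤ center G := by
    intro r R hr hRn hR
    have : Fintype R := Fintype.ofFinite _
    have : Fact r.Prime := ⟨hr⟩
    obtain ⟨θ, e, hθ, hres, hinv⟩ := hhom R hRn
    have hθ1 := isChar_one_eq (isIrr_isChar hθ)
    have hdn : charDegree θ ∣ n := by
      have e2 := hres 1
      change χ 1 = _ at e2
      rw [hn, hθ1] at e2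
      exact ⟨e, by rw [mul_comm]; exact_mod_cast e2⟩
    by_cases hrp : r = p
    · subst hrp
      obtain ⟨l, hl⟩ := IsPGroup.iff_card.1 hR
      obtain ⟨j, -, hj⟩ := (Nat.dvd_prime_pow hr).1 (hl ▸ isIrr_charDegree_dvd_card hθ)
      have hj0 : j = 0 := by
        by_contra hne
        exact hbad (good_of_dvd_self hr (((dvd_pow_self r hne).trans (dvd_of_eq hj.symm)).trans hdn))
      rw [hj0, pow_zero] at hj
      rw [hj] at hθ1
      intro y hy
      apply Deg2.mem_center_of_normSq hχc hfaith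
      have e1 := hres ⟨y, hy⟩
      have e2 := hres 1
      change χ y = _ at e1
      change χ 1 = _ at e2
      have h6 := Helper5.norm_linear_eq_one (isIrr_isChar hθ) (by rw [hθ1]; simp) ⟨y, hy⟩
      have h7 : θ ⟨y, hy⟩ * conj (θ ⟨y, hy⟩) = 1 := by
        rw [Complex.mul_conj, Complex.normSq_eq_norm_sq, h6]; simp
      rw [e1, e2, hθ1, map_mul, Complex.conj_natCast]
      push_cast
      linear_combination (e : ℂ) ^ 2 * h7
    · have hnorm : ∀ s ∈ (P : Subgroup G), ∀ g ∈ R, s * g * s⁻¹ ∈ R :=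
        fun s _ g hg => hRn.conj_mem g hg s
      have hinv' : ∀ s ∈ (P : Subgroup G), ∀ g g' : R, (g' : G) = s * g * s⁻¹ → θ g' = θ g := by
        intro s _ g g' hgg
        have h8 := congrFun (hinv s) g
        rw [Helper5.cjF_apply] at h8
        rw [← h8]
        congr 1
        exact Subtype.ext hgg
      rcases good_or_isIrr_restrict_fixed p r hr hrp R P hR hnorm P.2 ⟨θ, hθ⟩ hinv'
        (R ⊓ centralizer ((P : Subgroup G) : Set G)) rfl inf_le_left with hg | hirr
      · exact absurd (hg.of_dvd hdn) hbad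
      · have hPc := le_centralizer_of_isIrr_restrict p r hr hrp hχc hfaith R hRn hR θ hθ e hres P
          P.2 _ rfl inf_le_left hirr
        have htop := hnc (centralizer (R : Set G)) inferInstance hPc
        intro y hy
        rw [mem_center_iff]
        intro g
        have : g ∈ centralizer (R : Set G) := by rw [htop]; trivial
        exact ((mem_centralizer_iff.1 this) y hy).symm
  have hZ := center_eq_top_of_normal_pgroups_central hcentral
  exact hNS (NS.of_central (fun x _ => by rw [hZ]; trivial))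

end step

/-- **Dixon / Winter**: a solvable irreducible linear group of degree `n` with a non-normal Sylow
`p`-subgroup: `n` is divisible by a prime power congruent to `-1, 0, 1` modulo `p`. -/
theorem dixon (p : ℕ) [hp : Fact p.Prime] : ∀ (N : ℕ) (G : Type u) [Group G] [Finite G]
    [Group.IsSolvable G], Nat.card G = N → ∀ (χ : G → ℂ) (n : ℕ), IsIrrCharacter G χ →
    (∀ g : G, χ g = χ 1 → g = 1) → χ 1 = n → ¬ NS p G → Good p n := by
  intro N
  induction N using Nat.strong_induction_on with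
  | _ N ih =>
    intro G _ _ _ hN χ n hχ hfaith hn hNS
    classical
    have := Fintype.ofFinite G
    obtain ⟨P⟩ : Nonempty (Sylow p G) := inferInstance
    by_cases hnc : ∀ M : Subgroup G, M.Normal → (P : Subgroup G) ≤ M → M = ⊤
    · exact dix_step p hχ hfaith hn P hnc hNS
    push Not at hnc
    obtain ⟨M, hMn, hPM, hMtop⟩ := hnc
    have : Fintype M := Fintype.ofFinite _
    have hχc := isIrr_isChar hχ
    have hψ : IsCharacter M (fun y : M => χ y) := isCharacter_restrict hχc M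
    have hψf := Helper4.restrict_faithful hfaith M
    have hMNS : ¬ NS p M := fun h => hNS (NS.of_normal_of_sylow_le p hMn P hPM h)
    have hex : ∃ θ : IrrCharacter M, classInner (fun y : M => χ y) (θ : M → ℂ) ≠ 0 ∧
        ¬ NS p (M ⧸ charKer (θ : M → ℂ) (isIrr_isChar θ.2)) := by
      by_contra hcon
      push Not at hcon
      apply hMNS
      intro x y hx hy
      refine ⟨Nat.card M, ?_⟩
      apply eq_one_of_forall_constituent' hψ hψf
      intro θ hθ
      have h1 := hcon θ hθ _ _ (hx.map (QuotientGroup.mk' (charKer (θ : M → ℂ) (isIrr_isChar θ.2))))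
        (hy.map (QuotientGroup.mk' _))
      have h2 := h1.pow_of_card_le (m := Nat.card M)
        (Nat.card_le_card_of_surjective _ (QuotientGroup.mk'_surjective _))
      rw [← map_mul, ← map_pow] at h2
      exact (QuotientGroup.eq_one_iff _).1 h2
    obtain ⟨θ, hθ, hθNS⟩ := hex
    obtain ⟨θ', hθ', hdef⟩ := isIrr_deflate θ.2 (charKer (θ : M → ℂ) (isIrr_isChar θ.2))
      (fun x hx => hx)
    obtain ⟨d, hd⟩ := isCharacter_apply_one (isIrr_isChar θ.2)
    have hdn : d ∣ n := (Cfsg.Agent.S0887.result M χ hχ θ θ.2 hθ n d hn hd).1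
    have hlt : Nat.card (M ⧸ charKer (θ : M → ℂ) (isIrr_isChar θ.2)) < N := by
      have h1 : Nat.card (M ⧸ charKer (θ : M → ℂ) (isIrr_isChar θ.2)) ≤ Nat.card M :=
        Nat.card_le_card_of_surjective _ (QuotientGroup.mk'_surjective _)
      have h2 : Nat.card M < N := by
        rw [← hN]
        by_contra hcon
        exact hMtop (Subgroup.eq_top_of_le_card M (by omega))
      omega
    refine (ih _ hlt (M ⧸ charKer (θ : M → ℂ) (isIrr_isChar θ.2)) rfl θ' d hθ' ?_ ?_ hθNS).of_dvd hdn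
    · intro g hg
      obtain ⟨y, rfl⟩ := QuotientGroup.mk_surjective g
      have h1 : θ' ((1 : M) : M ⧸ _) = (θ : M → ℂ) 1 := hdef 1
      rw [hdef y] at hg
      have h2 : θ' 1 = (θ : M → ℂ) 1 := h1
      rw [h2] at hg
      exact (QuotientGroup.eq_one_iff y).2 hg
    · have h1 : θ' ((1 : M) : M ⧸ _) = (θ : M → ℂ) 1 := hdef 1
      exact h1.trans hd

end Cfsg.Agent.Lib.Helper19
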