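import Mathlib
import Cfsg.Prelude.Def_Characters
import Cfsg.Agent.Lib.Helper20.CharComplete
import Cfsg.Agent.Lib.Helper19.NormalKer

set_option autoImplicit false

namespace Cfsg.Agent.Lib.Helper19

open Cfsg Cfsg.Agent.Lib.Helper20
open scoped ComplexConjugate

section

variable {K : Type*} [Group K]

/-- averaging over the left cosets of a subgroup -/
noncomputable def avgN (H : Subgroup K) [Fintype H] (ξ : K → ℂ) : K → ℂ :=
  fun g => (Nat.card H : ℂ)⁻¹ * ∑ h : H, ξ ((h : K) * g)

theorem avgN_sum_smul (H : Subgroup K) [Fintype H] {ι : Type*} (s : Finset ι) (c : ι → ℂ)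
    (f : ι → K → ℂ) : avgN H (∑ i ∈ s, c i • f i) = ∑ i ∈ s, c i • avgN H (f i) := by
  funext g
  simp only [avgN, Finset.sum_apply, Pi.smul_apply, smul_eq_mul]
  rw [Finset.sum_comm, Finset.mul_sum]
  apply Finset.sum_congr rfl
  intro i _
  rw [← Finset.mul_sum]
  ring

theorem avgN_irr [Finite K] (H : Subgroup K) [hH : H.Normal] [Fintype H] {β : K → ℂ}
    (hβ : IsIrrCharacter K β) [Decidable (∀ n ∈ H, β n = β 1)] :
    avgN H β = (if (∀ n ∈ H, β n = β 1) then (1 : ℂ) else 0) • β := by
  funext g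
  simp only [avgN, Pi.smul_apply, smul_eq_mul]
  split_ifs with h
  · have h1 : ∀ x : H, β ((x : K) * g) = β g := fun x =>
      char_mul_of_ker (isCharacter_of_isIrrCharacter hβ) (h x x.2) g
    rw [Finset.sum_congr rfl (fun x _ => h1 x), Finset.sum_const, Finset.card_univ, nsmul_eq_mul,
      ← Nat.card_eq_fintype_card, ← mul_assoc, inv_mul_cancel₀ (by exact_mod_cast Nat.card_pos.ne')]
  · rcases irr_ker_or_sum_zero H hβ with h2 | h2
    · exact absurd h2 h
    · rw [h2 g]; simp

theorem classInner_sum_smul_irr [Fintype K] [Fintype (IrrCharacter K)] (a b : IrrCharacter K → ℂ) :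
    classInner (∑ β : IrrCharacter K, a β • (β : K → ℂ)) (∑ β : IrrCharacter K, b β • (β : K → ℂ))
      = ∑ β : IrrCharacter K, a β * conj (b β) := by
  classical
  rw [classInner_sum_left]
  apply Finset.sum_congr rfl
  intro β _
  rw [classInner_smul_left, classInner_sum_right, Finset.sum_eq_single β]
  · rw [classInner_smul_right, classInner_irr_self β.2, mul_one]
  · intro γ _ hne
    rw [classInner_smul_right, classInner_irr_ne β.2 γ.2 (fun h => hne (Subtype.ext h).symm),
      mul_zero]
  · intro h; exact absurd (Finset.mem_univ _) h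

/-- the part of a character not containing the normal subgroup `H` in its kernel has norm at
least one. -/
theorem avgN_gap [Fintype K] (H : Subgroup K) [hH : H.Normal] [Fintype H] {ξ : K → ℂ}
    (hξ : IsCharacter K ξ) (hker : ∃ h ∈ H, ξ h ≠ ξ 1) :
    ∃ r : ℕ, 1 ≤ r ∧ classInner ξ ξ = classInner (avgN H ξ) (avgN H ξ) + r := by
  classical
  haveI : Finite (IrrCharacter K) := finite_irrCharacter
  haveI : Fintype (IrrCharacter K) := Fintype.ofFinite _
  have hm : ∀ β : IrrCharacter K, ∃ n : ℕ, classInner ξ (β : K → ℂ) = n :=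
    fun β => isCharacter_classInner_nat hξ β.2
  choose m hm using hm
  have hexp : ξ = ∑ β : IrrCharacter K, (m β : ℂ) • (β : K → ℂ) := by
    conv_lhs => rw [eq_sum_classInner_smul (isClassFunction_of_isCharacter hξ)]
    simp_rw [hm]
  have hα : avgN H ξ = ∑ β : IrrCharacter K,
      ((m β : ℂ) * (if (∀ n ∈ H, (β : K → ℂ) n = (β : K → ℂ) 1) then (1 : ℂ) else 0)) •
        (β : K → ℂ) := by
    conv_lhs => rw [hexp]
    rw [avgN_sum_smul]
    apply Finset.sum_congr rfl
    intro β _
    rw [avgN_irr H β.2, smul_smul]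
  refine ⟨∑ β : IrrCharacter K,
    (if (∀ n ∈ H, (β : K → ℂ) n = (β : K → ℂ) 1) then 0 else m β ^ 2), ?_, ?_⟩
  · by_contra hlt
    have h0 : ∑ β : IrrCharacter K,
        (if (∀ n ∈ H, (β : K → ℂ) n = (β : K → ℂ) 1) then 0 else m β ^ 2) = 0 := by omega
    rw [Finset.sum_eq_zero_iff] at h0
    obtain ⟨h, hh, hne⟩ := hker
    apply hne
    rw [hexp]
    simp only [Finset.sum_apply, Pi.smul_apply, smul_eq_mul]
    apply Finset.sum_congr rfl
    intro β _
    have h1 := h0 β (Finset.mem_univ _)
    by_cases hk : ∀ n ∈ H, (β : K → ℂ) n = (β : K → ℂ) 1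
    · rw [hk h hh]
    · rw [if_neg hk] at h1
      have : m β = 0 := by simpa using h1
      rw [this]; simp
  · conv_lhs => rw [hexp]
    rw [hα, classInner_sum_smul_irr, classInner_sum_smul_irr]
    push_cast
    rw [← Finset.sum_add_distrib]
    apply Finset.sum_congr rfl
    intro β _
    split_ifs <;> simp [sq]

end

end Cfsg.Agent.Lib.Helper19
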