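import Mathlib
import Cfsg.Prelude.Def_Characters
import Cfsg.Agent.Lib.Helper19.FT1
import Cfsg.Agent.Lib.Helper82.Central
import Cfsg.Agent.Lib.Helper32.GenChar

set_option autoImplicit false

namespace Cfsg.Agent.Lib.Helper19

open Cfsg Cfsg.Agent.Lib.Helper20
open scoped ComplexConjugate

section

variable {G : Type*} [Group G] [Fintype G] (H : Subgroup G)

/-- two elements conjugating `H` to the same subgroup differ by an element of the normalizer -/
theorem inv_mul_mem_normalizer_of_map_eq {a b : G}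
    (h : H.map (MulAut.conj a).toMonoidHom = H.map (MulAut.conj b).toMonoidHom) :
    b⁻¹ * a ∈ Subgroup.normalizer (H : Set G) := by
  rw [Subgroup.mem_normalizer_iff]
  intro x
  constructor
  · intro hx
    have h1 : a * x * a⁻¹ ∈ H.map (MulAut.conj a).toMonoidHom := ⟨x, hx, by simp⟩
    rw [h] at h1
    obtain ⟨y, hy, e⟩ := h1
    have e' : b * y * b⁻¹ = a * x * a⁻¹ := by simpa using e
    have : b⁻¹ * a * x * (b⁻¹ * a)⁻¹ = y := by
      calc b⁻¹ * a * x * (b⁻¹ * a)⁻¹ = b⁻¹ * (a * x * a⁻¹) * b := by group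
        _ = b⁻¹ * (b * y * b⁻¹) * b := by rw [e']
        _ = y := by group
    rw [this]; exact hy
  · intro hx
    have h1 : b * (b⁻¹ * a * x * (b⁻¹ * a)⁻¹) * b⁻¹ ∈ H.map (MulAut.conj b).toMonoidHom :=
      ⟨_, hx, by simp⟩
    rw [← h] at h1
    obtain ⟨y, hy, e⟩ := h1
    have e' : a * y * a⁻¹ = b * (b⁻¹ * a * x * (b⁻¹ * a)⁻¹) * b⁻¹ := by simpa using e
    have : y = x := by
      have e2 : a * y * a⁻¹ = a * x * a⁻¹ := by rw [e']; group
      exact mul_left_cancel (mul_right_cancel e2)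
    rw [← this]; exact hy

open Classical in
/-- the counting step (K2) -/
theorem ft_count
    (hone : ∀ g : G, g ∉ Subgroup.center G → ∀ a b : G,
      Subgroup.centralizer ({g} : Set G) ⊓ H.map (MulAut.conj a).toMonoidHom ≠ ⊥ →
      Subgroup.centralizer ({g} : Set G) ⊓ H.map (MulAut.conj b).toMonoidHom ≠ ⊥ →
      H.map (MulAut.conj a).toMonoidHom = H.map (MulAut.conj b).toMonoidHom)
    (F : G → ℝ) (hF0 : ∀ g, 0 ≤ F g) (hFc : ∀ g a, F (a⁻¹ * g * a) = F g) (S : Finset G)
    (hS : ∀ g ∈ S, g ∉ Subgroup.center G ∧ ∃ h ∈ H, h ≠ 1 ∧ h * g = g * h) :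
    (Nat.card G : ℝ) * ∑ g ∈ S, F g ≤ (Nat.card (Subgroup.normalizer (H : Set G)) : ℝ) *
      ∑ u ∈ Finset.univ.filter (fun u : G => u ∉ Subgroup.center G), F u := by
  have h1 : (Nat.card G : ℝ) * ∑ g ∈ S, F g
      = ∑ u : G, F u * ((Finset.univ.filter (fun a : G => a⁻¹ * u * a ∈ S)).card : ℝ) := by
    have e1 : (Nat.card G : ℝ) * ∑ g ∈ S, F g
        = ∑ _a : G, ∑ g : G, (if g ∈ S then F g else 0) := by
      rw [Finset.sum_const, Finset.card_univ, nsmul_eq_mul, Nat.card_eq_fintype_card]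
      congr 1
      rw [Finset.sum_ite_mem, Finset.univ_inter]
    rw [e1]
    have e2 : ∀ a : G, ∑ g : G, (if g ∈ S then F g else 0)
        = ∑ u : G, (if a⁻¹ * u * a ∈ S then F u else 0) := by
      intro a
      rw [← Equiv.sum_comp (MulAut.conj a⁻¹).toEquiv]
      apply Finset.sum_congr rfl
      intro u _
      have : (MulAut.conj a⁻¹).toEquiv u = a⁻¹ * u * a := by simp
      rw [this, hFc]
    rw [Finset.sum_congr rfl (fun a _ => e2 a), Finset.sum_comm]
    apply Finset.sum_congr rfl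
    intro u _
    rw [← Finset.sum_filter, Finset.sum_const, nsmul_eq_mul, mul_comm]
  rw [h1, Finset.mul_sum, Finset.sum_filter]
  apply Finset.sum_le_sum
  intro u _
  have hmem : ∀ a : G, a⁻¹ * u * a ∈ S → u ∉ Subgroup.center G ∧
      Subgroup.centralizer ({u} : Set G) ⊓ H.map (MulAut.conj a).toMonoidHom ≠ ⊥ := by
    intro a ha
    obtain ⟨hc, h, hh, hne, hcomm⟩ := hS _ ha
    constructor
    · intro hu
      apply hc
      have := (inferInstance : (Subgroup.center G).Normal).conj_mem u hu a⁻¹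
      simpa using this
    · intro hbot
      have h2 : a * h * a⁻¹ ∈ Subgroup.centralizer ({u} : Set G) ⊓
          H.map (MulAut.conj a).toMonoidHom := by
        refine Subgroup.mem_inf.2 ⟨?_, ⟨h, hh, by simp⟩⟩
        rw [Subgroup.mem_centralizer_iff]
        intro y hy
        rw [Set.mem_singleton_iff.1 hy]
        calc u * (a * h * a⁻¹) = a * ((a⁻¹ * u * a) * h) * a⁻¹ := by group
          _ = a * (h * (a⁻¹ * u * a)) * a⁻¹ := by rw [hcomm]
          _ = a * h * a⁻¹ * u := by group
      rw [hbot, Subgroup.mem_bot] at h2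
      apply hne
      have : a * h * a⁻¹ = a * 1 * a⁻¹ := by rw [h2]; group
      exact mul_left_cancel (mul_right_cancel this)
  by_cases hu : u ∉ Subgroup.center G
  · rw [if_pos hu, mul_comm]
    apply mul_le_mul_of_nonneg_right _ (hF0 u)
    rcases (Finset.univ.filter (fun a : G => a⁻¹ * u * a ∈ S)).eq_empty_or_nonempty with he | ⟨b, hb⟩
    · rw [he]; simp
    · have hb' := (Finset.mem_filter.1 hb).2
      have hcard : Nat.card (Subgroup.normalizer (H : Set G))
          = (Finset.univ.filter (fun x : G => x ∈ Subgroup.normalizer (H : Set G))).card := by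
        rw [Nat.card_eq_fintype_card, Fintype.card_subtype]
      rw [hcard]
      norm_cast
      apply Finset.card_le_card_of_injOn (fun a => b⁻¹ * a)
      · intro a ha
        have ha' := (Finset.mem_filter.1 ha).2
        simp only [Finset.coe_filter, Finset.mem_univ, true_and, Set.mem_ofPred_eq]
        exact inv_mul_mem_normalizer_of_map_eq H
          (hone u hu a b (hmem a ha').2 (hmem b hb').2)
      · intro a _ a' _ h
        exact mul_left_cancel h
  · rw [if_neg hu]
    have : Finset.univ.filter (fun a : G => a⁻¹ * u * a ∈ S) = ∅ := by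
      rw [Finset.filter_eq_empty_iff]
      intro a _ ha
      exact hu (hmem a ha).1
    rw [this]; simp

/-- (K4) -/
theorem avgN_eq_of_free [Fintype H] {χ : G → ℂ} (hχ : IsClassFunction G χ) {g : G}
    (hg : g ∈ Subgroup.normalizer (H : Set G)) (hfree : ∀ h ∈ H, h * g = g * h → h = 1) :
    avgN H χ g = χ g := by
  have hmem : ∀ k : H, (k : G) * (g * (k : G)⁻¹ * g⁻¹) ∈ H := fun k =>
    H.mul_mem k.2 ((Subgroup.mem_normalizer_iff.1 hg _).1 (H.inv_mem k.2))
  let T : H → H := fun k => ⟨(k : G) * (g * (k : G)⁻¹ * g⁻¹), hmem k⟩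
  have hinj : Function.Injective T := by
    intro k k' h
    have h1 : (k : G) * (g * (k : G)⁻¹ * g⁻¹) = (k' : G) * (g * (k' : G)⁻¹ * g⁻¹) :=
      congrArg Subtype.val h
    have h2 : ((k' : G)⁻¹ * k) * g = g * ((k' : G)⁻¹ * k) := by
      have h3 : (k : G) * g * (k : G)⁻¹ = (k' : G) * g * (k' : G)⁻¹ := by
        have := congrArg (· * g) h1
        simpa [mul_assoc] using this
      calc ((k' : G)⁻¹ * k) * g = (k' : G)⁻¹ * ((k : G) * g * (k : G)⁻¹) * k := by group
        _ = (k' : G)⁻¹ * ((k' : G) * g * (k' : G)⁻¹) * k := by rw [h3]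
        _ = g * ((k' : G)⁻¹ * k) := by group
    have h4 := hfree _ (H.mul_mem (H.inv_mem k'.2) k.2) h2
    apply Subtype.ext
    exact (inv_mul_eq_one.1 h4).symm
  have hsurj : Function.Surjective T := Finite.surjective_of_injective hinj
  have h1 : ∀ h : H, χ ((h : G) * g) = χ g := by
    intro h
    obtain ⟨k, hk⟩ := hsurj h
    have h2 : (h : G) = (k : G) * (g * (k : G)⁻¹ * g⁻¹) := (congrArg Subtype.val hk).symm
    have h3 : (h : G) * g = (k : G) * g * (k : G)⁻¹ := by rw [h2]; group
    rw [h3]; exact hχ g k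
  simp only [avgN]
  rw [Finset.sum_congr rfl (fun x _ => h1 x), Finset.sum_const, Finset.card_univ, nsmul_eq_mul,
    ← Nat.card_eq_fintype_card, ← mul_assoc, inv_mul_cancel₀ (by exact_mod_cast Nat.card_pos.ne'),
    one_mul]

/-- (K5) -/
theorem normSq_avgN_central_mul [Fintype H] {χ : G → ℂ} (hχ : IsIrrCharacter G χ) {z : G}
    (hz : z ∈ Subgroup.center G) (h₀ : H) :
    Complex.normSq (avgN H χ (z * h₀))
      = Complex.normSq (classInner (fun h : H => χ h) (fun _ => 1)) := by
  have h10 : χ 1 ≠ 0 := by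
    obtain ⟨n, hn, e⟩ := Cfsg.Agent.Lib.Helper32.irr_apply_one hχ
    rw [e]; exact_mod_cast hn.ne'
  have h1 : avgN H χ (z * h₀) * χ 1 = χ z * classInner (fun h : H => χ h) (fun _ => 1) := by
    simp only [avgN, classInner]
    have e1 : ∑ h : H, χ ((h : G) * (z * h₀)) = ∑ h : H, χ (z * (h : G)) := by
      rw [← Equiv.sum_comp (Equiv.mulRight h₀) (fun h : H => χ (z * (h : G)))]
      apply Finset.sum_congr rfl
      intro h _
      congr 1
      have := (Subgroup.mem_center_iff.1 hz) (h : G)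
      simp only [Equiv.coe_mulRight, Subgroup.coe_mul]
      rw [← mul_assoc, this, mul_assoc]
    have e2 : (∑ h : H, χ (z * (h : G))) * χ 1 = χ z * ∑ h : H, χ h * conj (1 : ℂ) := by
      rw [Finset.sum_mul, Finset.mul_sum]
      apply Finset.sum_congr rfl
      intro h _
      rw [Cfsg.Agent.Lib.Helper82.isIrr_central_mul hχ hz]
      simp
    rw [e1, mul_assoc, e2]
    ring
  have h2 := congrArg Complex.normSq h1
  rw [Complex.normSq_mul, Complex.normSq_mul] at h2
  have h3 : Complex.normSq (χ z) = Complex.normSq (χ 1) := by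
    have := Cfsg.Agent.Lib.Helper82.isIrr_central_mul_conj hχ hz
    rw [Complex.mul_conj] at this
    obtain ⟨n, hn, e⟩ := Cfsg.Agent.Lib.Helper32.irr_apply_one hχ
    rw [e] at this ⊢
    rw [Complex.normSq_natCast]
    have : ((Complex.normSq (χ z) : ℝ) : ℂ) = ((n * n : ℝ) : ℂ) := by
      rw [this]; push_cast; ring
    exact_mod_cast this
  rw [h3, mul_comm] at h2
  exact mul_left_cancel₀ (by rwa [Ne, Complex.normSq_eq_zero]) h2

end

end Cfsg.Agent.Lib.Helper19
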