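import Mathlib
import Cfsg.Prelude.Def_Characters
import Cfsg.Agent.Lib.Helper19.FT2

set_option autoImplicit false

namespace Cfsg.Agent.Lib.Helper19

open Cfsg Cfsg.Agent.Lib.Helper20
open scoped ComplexConjugate

section

variable {G : Type*} [Group G] [Fintype G]

theorem normSq_central {χ : G → ℂ} (hχ : IsIrrCharacter G χ) {z : G}
    (hz : z ∈ Subgroup.center G) : Complex.normSq (χ z) = Complex.normSq (χ 1) := by
  have := Cfsg.Agent.Lib.Helper82.isIrr_central_mul_conj hχ hz
  rw [Complex.mul_conj] at this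
  obtain ⟨n, hn, e⟩ := Cfsg.Agent.Lib.Helper32.irr_apply_one hχ
  rw [e] at this ⊢
  rw [Complex.normSq_natCast]
  have : ((Complex.normSq (χ z) : ℝ) : ℂ) = ((n * n : ℝ) : ℂ) := by
    rw [this]; push_cast; ring
  exact_mod_cast this

theorem sum_normSq_irr' {χ : G → ℂ} (hχ : IsIrrCharacter G χ) :
    ∑ g : G, Complex.normSq (χ g) = (Nat.card G : ℝ) := by
  have h := classInner_irr_self hχ
  unfold classInner at h
  have hG : (Nat.card G : ℂ) ≠ 0 := by exact_mod_cast Nat.card_pos.ne'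
  have h1 : ∑ g : G, χ g * conj (χ g) = (Nat.card G : ℂ) := by
    field_simp at h
    exact h
  simp_rw [Complex.mul_conj] at h1
  exact_mod_cast h1

theorem ft_arith {gG nN zZ hH n2 c2 X : ℝ} (hg : 0 < gG) (hn : 0 < nN) (hz : 0 < zZ)
    (hn2 : 0 < n2) (ha : nN ≤ (zZ * n2 + X) - zZ * hH * c2)
    (hb : gG * X ≤ nN * (gG - zZ * n2)) : hH * c2 < n2 := by
  by_contra hcon
  push Not at hcon
  have h1 : gG * nN ≤ gG * ((zZ * n2 + X) - zZ * hH * c2) := mul_le_mul_of_nonneg_left ha hg.le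
  have h2 : gG * zZ * n2 ≤ gG * zZ * (hH * c2) :=
    mul_le_mul_of_nonneg_left hcon (mul_pos hg hz).le
  have h3 : 0 < nN * zZ * n2 := mul_pos (mul_pos hn hz) hn2
  nlinarith

open Classical in
/-- **Feit–Thompson bound** (Isaacs 14.?): first inequality. -/
theorem ft_bound (H : Subgroup G) [Fintype H]
    (hab : ∀ a ∈ H, ∀ b ∈ H, a * b = b * a) (hZ : H ⊓ Subgroup.center G = ⊥)
    (hone : ∀ g : G, g ∉ Subgroup.center G → ∀ a b : G,
      Subgroup.centralizer ({g} : Set G) ⊓ H.map (MulAut.conj a).toMonoidHom ≠ ⊥ →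
      Subgroup.centralizer ({g} : Set G) ⊓ H.map (MulAut.conj b).toMonoidHom ≠ ⊥ →
      H.map (MulAut.conj a).toMonoidHom = H.map (MulAut.conj b).toMonoidHom)
    (χ : G → ℂ) (hχ : IsIrrCharacter G χ) (hker : ∃ h ∈ H, χ h ≠ χ 1) :
    (Nat.card H : ℝ) * Complex.normSq (classInner (fun h : H => χ h) (fun _ => 1))
      < Complex.normSq (χ 1) := by
  have hχc := isCharacter_of_isIrrCharacter hχ
  have hcl := isClassFunction_of_isCharacter hχc
  set Nn := Subgroup.normalizer (H : Set G) with hNn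
  set c2 := Complex.normSq (classInner (fun h : H => χ h) (fun _ => 1)) with hc2
  set n2 := Complex.normSq (χ 1) with hn2
  let F : G → ℝ := fun g => Complex.normSq (χ g)
  let A : G → ℝ := fun g => Complex.normSq (avgN H χ g)
  have hHN : H ≤ Nn := Subgroup.le_normalizer
  obtain ⟨h₁, hh₁, hne₁⟩ := hker
  have hh₁1 : h₁ ≠ 1 := by rintro rfl; exact hne₁ rfl
  -- K3
  have K3 : (Nat.card Nn : ℝ) ≤ ∑ x : Nn, (F x - A x) := by
    obtain ⟨r, hr, e⟩ := avgN_gap (K := Nn) (H.subgroupOf Nn) (ξ := fun x : Nn => χ x)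
      (isCharacter_restrict hχc Nn) ⟨⟨h₁, hHN hh₁⟩, Subgroup.mem_subgroupOf.2 hh₁, hne₁⟩
    have hav : ∀ x : Nn, avgN (H.subgroupOf Nn) (fun x : Nn => χ x) x = avgN H χ x := by
      intro x
      simp only [avgN]
      rw [Nat.card_congr (Subgroup.subgroupOfEquivOfLe hHN).toEquiv,
        ← Equiv.sum_comp (Subgroup.subgroupOfEquivOfLe hHN).toEquiv]
      rfl
    unfold classInner at e
    simp_rw [hav, Complex.mul_conj] at e
    have hN0 : (Nat.card Nn : ℂ) ≠ 0 := by exact_mod_cast Nat.card_pos.ne'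
    have e' : ∑ x : Nn, ((F x : ℝ) : ℂ) = ∑ x : Nn, ((A x : ℝ) : ℂ) + r * (Nat.card Nn : ℂ) := by
      field_simp at e
      rw [mul_comm (r : ℂ)]
      exact e
    have e'' : ∑ x : Nn, F x = ∑ x : Nn, A x + r * (Nat.card Nn : ℝ) := by exact_mod_cast e'
    rw [Finset.sum_sub_distrib, e'']
    have : (1 : ℝ) ≤ r := by exact_mod_cast hr
    have hpos : (0 : ℝ) ≤ (Nat.card Nn : ℝ) := Nat.cast_nonneg _
    nlinarith
  let NnF : Finset G := Finset.univ.filter (fun g => g ∈ Nn)
  let N0 : Finset G := Finset.univ.filter (fun g => g ∈ Nn ∧ ∃ h ∈ H, h ≠ 1 ∧ h * g = g * h)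
  have c1 : ∑ x : Nn, (F x - A x) = ∑ g ∈ NnF, (F g - A g) :=
    (Finset.sum_subtype (p := fun g => g ∈ Nn) NnF (by simp [NnF]) (fun g => F g - A g)).symm
  have c2' : ∑ g ∈ NnF, (F g - A g) = ∑ g ∈ N0, (F g - A g) := by
    symm
    apply Finset.sum_subset
    · intro g hg
      exact Finset.mem_filter.2 ⟨Finset.mem_univ _, (Finset.mem_filter.1 hg).2.1⟩
    · intro g hg hg0
      have hgN : g ∈ Nn := (Finset.mem_filter.1 hg).2
      have : avgN H χ g = χ g := avgN_eq_of_free H hcl hgN (by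
        intro h hh hc
        by_contra hne
        exact hg0 (Finset.mem_filter.2 ⟨Finset.mem_univ _, hgN, h, hh, hne, hc⟩))
      simp [F, A, this]
  let S : Finset G := N0.filter (fun g => g ∉ Subgroup.center G)
  have c3 : ∑ g ∈ N0, F g = ∑ g ∈ N0.filter (fun g => g ∈ Subgroup.center G), F g + ∑ g ∈ S, F g :=
    (Finset.sum_filter_add_sum_filter_not N0 _ _).symm
  have hZsum : ∑ g ∈ Finset.univ.filter (fun g : G => g ∈ Subgroup.center G), F g
      = (Nat.card (Subgroup.center G) : ℝ) * n2 := by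
    rw [Finset.sum_congr rfl (fun g hg => normSq_central hχ (Finset.mem_filter.1 hg).2),
      Finset.sum_const, nsmul_eq_mul, Nat.card_eq_fintype_card, Fintype.card_subtype]
  have c4 : ∑ g ∈ N0.filter (fun g => g ∈ Subgroup.center G), F g
      ≤ (Nat.card (Subgroup.center G) : ℝ) * n2 := by
    rw [← hZsum]
    apply Finset.sum_le_sum_of_subset_of_nonneg
    · intro g hg
      exact Finset.mem_filter.2 ⟨Finset.mem_univ _, (Finset.mem_filter.1 hg).2⟩
    · intro g _ _
      exact Complex.normSq_nonneg _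
  have c5 : ∑ u ∈ Finset.univ.filter (fun u : G => u ∉ Subgroup.center G), F u
      = (Nat.card G : ℝ) - (Nat.card (Subgroup.center G) : ℝ) * n2 := by
    have := Finset.sum_filter_add_sum_filter_not Finset.univ
      (fun g : G => g ∈ Subgroup.center G) F
    rw [hZsum, sum_normSq_irr' hχ] at this
    linarith
  have K2 := ft_count H hone F (fun g => Complex.normSq_nonneg _) (by
    intro g a
    have := hcl g a⁻¹
    simp only [inv_inv] at this
    simp only [F, this]) S (by
    intro g hg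
    obtain ⟨hg1, hg2⟩ := Finset.mem_filter.1 hg
    exact ⟨hg2, (Finset.mem_filter.1 hg1).2.2⟩)
  rw [c5] at K2
  -- K5
  have K5 : (Nat.card (Subgroup.center G) : ℝ) * (Nat.card H : ℝ) * c2 ≤ ∑ g ∈ N0, A g := by
    let f : Subgroup.center G × H → G := fun q => (q.1 : G) * (q.2 : G)
    have hf : Function.Injective f := by
      rintro ⟨z, h⟩ ⟨z', h'⟩ e
      have e' : (z : G) * h = (z' : G) * h' := e
      have h1 : (z' : G)⁻¹ * z = (h' : G) * (h : G)⁻¹ := by
        calc (z' : G)⁻¹ * z = (z' : G)⁻¹ * ((z : G) * h) * (h : G)⁻¹ := by group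
          _ = (z' : G)⁻¹ * ((z' : G) * h') * (h : G)⁻¹ := by rw [e']
          _ = _ := by group
      have h2 : (h' : G) * (h : G)⁻¹ ∈ H ⊓ Subgroup.center G := by
        refine Subgroup.mem_inf.2 ⟨H.mul_mem h'.2 (H.inv_mem h.2), ?_⟩
        rw [← h1]
        exact (Subgroup.center G).mul_mem ((Subgroup.center G).inv_mem z'.2) z.2
      rw [hZ, Subgroup.mem_bot] at h2
      have h3 : (h' : G) = h := mul_inv_eq_one.1 h2
      have h4 : (z : G) = z' := by
        rw [h2] at h1
        exact (inv_mul_eq_one.1 h1).symm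
      exact Prod.ext (Subtype.ext h4) (Subtype.ext h3.symm)
    have e1 : ∑ q : Subgroup.center G × H, A (f q)
        = (Nat.card (Subgroup.center G) : ℝ) * (Nat.card H : ℝ) * c2 := by
      rw [Finset.sum_congr rfl (fun q _ => normSq_avgN_central_mul H hχ q.1.2 q.2),
        Finset.sum_const, Finset.card_univ, Fintype.card_prod, nsmul_eq_mul,
        Nat.card_eq_fintype_card, Nat.card_eq_fintype_card]
      push_cast
      rfl
    rw [← e1, ← Finset.sum_image (f := A) (g := f) (s := Finset.univ) (fun x _ y _ h => hf h)]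
    apply Finset.sum_le_sum_of_subset_of_nonneg
    · intro g hg
      obtain ⟨⟨z, h⟩, _, rfl⟩ := Finset.mem_image.1 hg
      refine Finset.mem_filter.2 ⟨Finset.mem_univ _, ?_, h₁, hh₁, hh₁1, ?_⟩
      · refine Nn.mul_mem ?_ (hHN h.2)
        rw [hNn, Subgroup.mem_normalizer_iff]
        intro x
        have := (Subgroup.mem_center_iff.1 z.2) x
        rw [← this]
        simp
      · have hz := (Subgroup.mem_center_iff.1 z.2) h₁
        change h₁ * ((z : G) * h) = (z : G) * h * h₁
        rw [← mul_assoc, hz, mul_assoc, hab h₁ hh₁ h h.2, mul_assoc]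
    · intro g _ _
      exact Complex.normSq_nonneg _
  have hfin : (Nat.card Nn : ℝ) ≤ ((Nat.card (Subgroup.center G) : ℝ) * n2 + ∑ g ∈ S, F g)
      - (Nat.card (Subgroup.center G) : ℝ) * (Nat.card H : ℝ) * c2 := by
    have := K3
    rw [c1, c2', Finset.sum_sub_distrib, c3] at this
    linarith
  have hn2pos : 0 < n2 := by
    rw [hn2, Complex.normSq_pos]
    obtain ⟨n, hn, e⟩ := Cfsg.Agent.Lib.Helper32.irr_apply_one hχ
    rw [e]; exact_mod_cast hn.ne'
  exact ft_arith (by exact_mod_cast Nat.card_pos) (by exact_mod_cast Nat.card_pos)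
    (by exact_mod_cast Nat.card_pos) hn2pos hfin K2

end

end Cfsg.Agent.Lib.Helper19
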