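import Mathlib
import Cfsg.Prelude.Def_Characters
import Cfsg.Agent.Lib.Helper19.FT3
import Cfsg.Agent.Lib.Helper82.CharKer
import Cfsg.Agent.Lib.Helper82.LinCount
import Cfsg.Agent.Lib.Helper83.Basic

set_option autoImplicit false

namespace Cfsg.Agent.Lib.Helper19

open Cfsg Cfsg.Agent.Lib.Helper20
open scoped ComplexConjugate

section

variable {G : Type*} [Group G] [Fintype G]

/-- for an abelian group the norm of a character is at least its degree -/
theorem degree_le_norm_of_comm {A : Type*} [Group A] [Fintype A] (hA : ∀ a b : A, a * b = b * a)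
    {ξ : A → ℂ} (hξ : IsCharacter A ξ) :
    ∃ n k : ℕ, ξ 1 = n ∧ classInner ξ ξ = k ∧ n ≤ k := by
  classical
  haveI : Finite (IrrCharacter A) := finite_irrCharacter
  haveI : Fintype (IrrCharacter A) := Fintype.ofFinite _
  have hm : ∀ β : IrrCharacter A, ∃ n : ℕ, classInner ξ (β : A → ℂ) = n :=
    fun β => isCharacter_classInner_nat hξ β.2
  choose m hm using hm
  have hexp : ξ = ∑ β : IrrCharacter A, (m β : ℂ) • (β : A → ℂ) := by
    conv_lhs => rw [eq_sum_classInner_smul (isClassFunction_of_isCharacter hξ)]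
    simp_rw [hm]
  refine ⟨∑ β, m β, ∑ β, m β ^ 2, ?_, ?_, ?_⟩
  · rw [hexp]
    simp only [Finset.sum_apply, Pi.smul_apply, smul_eq_mul]
    push_cast
    apply Finset.sum_congr rfl
    intro β _
    rw [Cfsg.Agent.Lib.Helper82.isIrr_one_eq_one_of_comm hA β.2, mul_one]
  · conv_lhs => rw [hexp]
    rw [classInner_sum_smul_irr]
    push_cast
    apply Finset.sum_congr rfl
    intro β _
    simp [sq]
  · apply Finset.sum_le_sum
    intro β _
    exact Nat.le_self_pow two_ne_zero _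

/-- a nontrivial irreducible character does not contain in its kernel a subgroup whose normal
closure is the whole group -/
theorem exists_ne_of_ne_trivial (H : Subgroup G)
    (hnc : ∀ M : Subgroup G, M.Normal → H ≤ M → M = ⊤) {ψ : G → ℂ} (hψ : IsIrrCharacter G ψ)
    (hne : ψ ≠ fun _ => 1) : ∃ h ∈ H, ψ h ≠ ψ 1 := by
  by_contra hcon
  push Not at hcon
  have hψc := isCharacter_of_isIrrCharacter hψ
  have htop := hnc (Cfsg.Agent.Lib.Helper82.charKer ψ hψc) inferInstance (fun h hh => hcon h hh)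
  have hall : ∀ g : G, ψ g = ψ 1 := by
    intro g
    have : g ∈ Cfsg.Agent.Lib.Helper82.charKer ψ hψc := by rw [htop]; trivial
    exact this
  have h0 := classInner_irr_ne hψ Cfsg.Agent.Lib.Helper83.isIrr_trivial hne
  unfold classInner at h0
  simp_rw [hall] at h0
  rw [Finset.sum_const, Finset.card_univ, ← Nat.card_eq_fintype_card] at h0
  obtain ⟨n, hn, e⟩ := Cfsg.Agent.Lib.Helper32.irr_apply_one hψ
  have hG : (Nat.card G : ℂ) ≠ 0 := by exact_mod_cast Nat.card_pos.ne'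
  rw [e, nsmul_eq_mul, map_one, mul_one, ← mul_assoc, inv_mul_cancel₀ hG, one_mul] at h0
  have : n = 0 := by exact_mod_cast h0
  omega

open Classical in
/-- **Feit–Thompson bound**: second inequality. -/
theorem ft_bound2 (H : Subgroup G) [Fintype H]
    (hab : ∀ a ∈ H, ∀ b ∈ H, a * b = b * a) (hZ : H ⊓ Subgroup.center G = ⊥)
    (hone : ∀ g : G, g ∉ Subgroup.center G → ∀ a b : G,
      Subgroup.centralizer ({g} : Set G) ⊓ H.map (MulAut.conj a).toMonoidHom ≠ ⊥ →
      Subgroup.centralizer ({g} : Set G) ⊓ H.map (MulAut.conj b).toMonoidHom ≠ ⊥ →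
      H.map (MulAut.conj a).toMonoidHom = H.map (MulAut.conj b).toMonoidHom)
    (χ : G → ℂ) (hχ : IsIrrCharacter G χ) (n : ℕ) (hn : χ 1 = n) (hn1 : n ≠ 1)
    (hnc : ∀ M : Subgroup G, M.Normal → H ≤ M → M = ⊤) :
    (Nat.card H : ℝ) < (1 + (n : ℝ)) ^ 2 := by
  haveI : Finite (IrrCharacter G) := finite_irrCharacter
  haveI : Fintype (IrrCharacter G) := Fintype.ofFinite _
  have hχc := isCharacter_of_isIrrCharacter hχ
  have hPi : IsCharacter G (fun g => χ g * conj (χ g)) := isCharacter_mul hχc (isCharacter_conj hχc)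
  have hm : ∀ ψ : IrrCharacter G, ∃ k : ℕ,
      classInner (fun g => χ g * conj (χ g)) (ψ : G → ℂ) = k :=
    fun ψ => isCharacter_classInner_nat hPi ψ.2
  choose m hm using hm
  have hd : ∀ ψ : IrrCharacter G, ∃ k : ℕ, (ψ : G → ℂ) 1 = k :=
    fun ψ => isCharacter_apply_one (isCharacter_of_isIrrCharacter ψ.2)
  choose d hd using hd
  have hc : ∀ ψ : IrrCharacter G, ∃ k : ℕ,
      classInner (fun h : H => (ψ : G → ℂ) h) (fun _ => 1) = k :=
    fun ψ => isCharacter_classInner_nat' (isCharacter_restrict (isCharacter_of_isIrrCharacter ψ.2) H)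
      isCharacter_one
  choose c hc using hc
  have hexp : (fun g => χ g * conj (χ g)) = ∑ ψ : IrrCharacter G, (m ψ : ℂ) • (ψ : G → ℂ) := by
    conv_lhs => rw [eq_sum_classInner_smul (isClassFunction_of_isCharacter hPi)]
    simp_rw [hm]
  -- E1
  have E1 : n ^ 2 = ∑ ψ : IrrCharacter G, m ψ * d ψ := by
    have := congrFun hexp 1
    simp only [Finset.sum_apply, Pi.smul_apply, smul_eq_mul, hd, hn, Complex.conj_natCast] at this
    have h2 : ((n ^ 2 : ℕ) : ℂ) = ((∑ ψ : IrrCharacter G, m ψ * d ψ : ℕ) : ℂ) := by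
      push_cast; rw [← this]; ring
    exact_mod_cast h2
  -- E2
  obtain ⟨n', K, hn', hK, hnK⟩ := degree_le_norm_of_comm (A := H)
    (fun a b => Subtype.ext (hab a a.2 b b.2)) (isCharacter_restrict hχc H)
  have hn'n : n' = n := by
    have : (n' : ℂ) = n := by rw [← hn', ← hn]; rfl
    exact_mod_cast this
  have E2 : K = ∑ ψ : IrrCharacter G, m ψ * c ψ := by
    have h1 : classInner (fun h : H => χ h * conj (χ h)) (fun _ => 1) = K := by
      rw [← hK]
      unfold classInner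
      simp
    have h2 : (fun h : H => χ h * conj (χ h))
        = ∑ ψ : IrrCharacter G, (m ψ : ℂ) • (fun h : H => (ψ : G → ℂ) h) := by
      funext h
      have := congrFun hexp (h : G)
      simp only [Finset.sum_apply, Pi.smul_apply, smul_eq_mul] at this ⊢
      exact this
    rw [h2, classInner_sum_left] at h1
    simp_rw [classInner_smul_left, hc] at h1
    exact_mod_cast h1.symm
  -- trivial character
  let ψ₀ : IrrCharacter G := ⟨fun _ => 1, Cfsg.Agent.Lib.Helper83.isIrr_trivial⟩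
  have hm0 : m ψ₀ = 1 := by
    have h1 := hm ψ₀
    have h2 : classInner (fun g => χ g * conj (χ g)) (ψ₀ : G → ℂ) = classInner χ χ := by
      unfold classInner
      simp [ψ₀]
    rw [h2, classInner_irr_self hχ] at h1
    exact_mod_cast h1.symm
  have hd0 : d ψ₀ = 1 := by
    have h1 := hd ψ₀
    have : (1 : ℂ) = d ψ₀ := h1
    exact_mod_cast this.symm
  have hc0 : c ψ₀ = 1 := by
    have h1 := hc ψ₀
    have h2 : classInner (fun h : H => (ψ₀ : G → ℂ) h) (fun _ => 1) = 1 :=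
      classInner_irr_self (Cfsg.Agent.Lib.Helper83.isIrr_trivial (G := H))
    rw [h2] at h1
    exact_mod_cast h1.symm
  set s : ℝ := Real.sqrt (Nat.card H) with hs
  have hs0 : 0 ≤ s := Real.sqrt_nonneg _
  have hs2 : s ^ 2 = (Nat.card H : ℝ) := Real.sq_sqrt (Nat.cast_nonneg _)
  have E4 : ∀ ψ : IrrCharacter G, ψ ≠ ψ₀ → s * (c ψ : ℝ) < (d ψ : ℝ) := by
    intro ψ hψ
    have hne : (ψ : G → ℂ) ≠ fun _ => 1 := fun h => hψ (Subtype.ext h)
    have h1 := ft_bound H hab hZ hone ψ ψ.2 (exists_ne_of_ne_trivial H hnc ψ.2 hne)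
    rw [hc, hd, Complex.normSq_natCast, Complex.normSq_natCast, ← hs2] at h1
    apply lt_of_pow_lt_pow_left₀ 2 (Nat.cast_nonneg _)
    nlinarith
  have hn0 : 0 < n := by
    obtain ⟨k, hk, e⟩ := Cfsg.Agent.Lib.Helper32.irr_apply_one hχ
    have : (n : ℂ) = k := by rw [← hn, e]
    have : n = k := by exact_mod_cast this
    omega
  have hn2 : 2 ≤ n := by omega
  -- split off the trivial character
  have S1 : (n : ℝ) ^ 2 - 1 = ∑ ψ ∈ Finset.univ.erase ψ₀, (m ψ : ℝ) * (d ψ : ℝ) := by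
    have := Finset.add_sum_erase Finset.univ (fun ψ => m ψ * d ψ) (Finset.mem_univ ψ₀)
    rw [← E1, hm0, hd0] at this
    have h2 : ((1 * 1 + ∑ ψ ∈ Finset.univ.erase ψ₀, m ψ * d ψ : ℕ) : ℝ) = ((n ^ 2 : ℕ) : ℝ) := by
      rw [this]
    push_cast at h2
    linarith
  have S2 : (K : ℝ) - 1 = ∑ ψ ∈ Finset.univ.erase ψ₀, (m ψ : ℝ) * (c ψ : ℝ) := by
    have := Finset.add_sum_erase Finset.univ (fun ψ => m ψ * c ψ) (Finset.mem_univ ψ₀)
    rw [← E2, hm0, hc0] at this
    have h2 : ((1 * 1 + ∑ ψ ∈ Finset.univ.erase ψ₀, m ψ * c ψ : ℕ) : ℝ) = ((K : ℕ) : ℝ) := by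
      rw [this]
    push_cast at h2
    linarith
  have hnR : (2 : ℝ) ≤ n := by exact_mod_cast hn2
  have hex : ∃ ψ ∈ Finset.univ.erase ψ₀, 0 < m ψ := by
    by_contra hcon
    push Not at hcon
    have : ∑ ψ ∈ Finset.univ.erase ψ₀, (m ψ : ℝ) * (d ψ : ℝ) = 0 := by
      apply Finset.sum_eq_zero
      intro ψ hψ
      have := hcon ψ hψ
      have h0 : m ψ = 0 := by omega
      rw [h0]; simp
    rw [this] at S1
    nlinarith
  have S3 : s * ((K : ℝ) - 1) < (n : ℝ) ^ 2 - 1 := by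
    rw [S1, S2, Finset.mul_sum]
    apply Finset.sum_lt_sum
    · intro ψ hψ
      have h1 := E4 ψ (Finset.ne_of_mem_erase hψ)
      have h2 : (0 : ℝ) ≤ m ψ := Nat.cast_nonneg _
      nlinarith
    · obtain ⟨ψ, hψ, hpos⟩ := hex
      refine ⟨ψ, hψ, ?_⟩
      have h1 := E4 ψ (Finset.ne_of_mem_erase hψ)
      have h2 : (0 : ℝ) < m ψ := by exact_mod_cast hpos
      nlinarith
  have hKn : (n : ℝ) ≤ K := by
    rw [hn'n] at hnK; exact_mod_cast hnK
  have S4 : s * ((n : ℝ) - 1) < ((n : ℝ) - 1) * ((n : ℝ) + 1) := by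
    have : s * ((n : ℝ) - 1) ≤ s * ((K : ℝ) - 1) := by
      apply mul_le_mul_of_nonneg_left _ hs0
      linarith
    nlinarith
  have S5 : s < (n : ℝ) + 1 := by
    have hpos : (0 : ℝ) < (n : ℝ) - 1 := by linarith
    nlinarith
  rw [← hs2]
  nlinarith

end

end Cfsg.Agent.Lib.Helper19
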