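import Mathlib

set_option autoImplicit false

namespace Cfsg.Agent.Lib.Helper19

/-- `x` is a `p`-element. -/
def PEl (p : ℕ) {K : Type*} [Group K] (x : K) : Prop := ∃ k : ℕ, x ^ p ^ k = 1

/-- the `p`-elements are closed under multiplication (i.e. the Sylow `p`-subgroup is normal). -/
def NS (p : ℕ) (K : Type*) [Group K] : Prop := ∀ x y : K, PEl p x → PEl p y → PEl p (x * y)

section
variable {p : ℕ} {K L : Type*} [Group K] [Group L]

theorem PEl.map (f : K →* L) {x : K} (h : PEl p x) : PEl p (f x) := by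
  obtain ⟨k, hk⟩ := h
  exact ⟨k, by rw [← map_pow, hk, map_one]⟩

theorem PEl.of_map (f : K →* L) (hf : Function.Injective f) {x : K} (h : PEl p (f x)) :
    PEl p x := by
  obtain ⟨k, hk⟩ := h
  exact ⟨k, hf (by rw [map_pow, hk, map_one])⟩

theorem PEl.one : PEl p (1 : K) := ⟨0, by simp⟩

theorem PEl.inv {x : K} (h : PEl p x) : PEl p x⁻¹ := by
  obtain ⟨k, hk⟩ := h
  exact ⟨k, by rw [inv_pow, hk, inv_one]⟩

theorem PEl.conj {x : K} (h : PEl p x) (g : K) : PEl p (g * x * g⁻¹) := by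
  obtain ⟨k, hk⟩ := h
  exact ⟨k, by rw [conj_pow, hk]; group⟩

theorem PEl.pow {x : K} (h : PEl p x) (j : ℕ) : PEl p (x ^ j) := by
  obtain ⟨k, hk⟩ := h
  exact ⟨k, by rw [← pow_mul, mul_comm, pow_mul, hk, one_pow]⟩

theorem PEl.mul_of_commute {x y : K} (hx : PEl p x) (hy : PEl p y) (h : Commute x y) :
    PEl p (x * y) := by
  obtain ⟨k, hk⟩ := hx
  obtain ⟨l, hl⟩ := hy
  refine ⟨k + l, ?_⟩
  rw [h.mul_pow, pow_add, pow_mul, hk, one_pow, one_mul, mul_comm (p ^ k), pow_mul, hl, one_pow]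

theorem PEl.isPGroup_zpowers {x : K} (h : PEl p x) : IsPGroup p (Subgroup.zpowers x) := by
  obtain ⟨s, hs⟩ := h
  rintro ⟨y, hy⟩
  obtain ⟨j, rfl⟩ := Subgroup.mem_zpowers_iff.1 hy
  refine ⟨s, ?_⟩
  apply Subtype.ext
  rw [Subgroup.coe_pow, Subgroup.coe_one]
  change (x ^ j) ^ p ^ s = 1
  rw [← zpow_natCast, ← zpow_mul, mul_comm, zpow_mul, zpow_natCast, hs, one_zpow]

theorem PEl.of_mem {P : Subgroup K} (hP : IsPGroup p P) {x : K} (hx : x ∈ P) : PEl p x := by
  obtain ⟨k, hk⟩ := hP ⟨x, hx⟩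
  exact ⟨k, by simpa using congrArg Subtype.val hk⟩

/-- a `p`-element whose order is prime to `p` is trivial -/
theorem PEl.eq_one_of_pow [hp : Fact p.Prime] {x : K} (h : PEl p x) {m : ℕ} (hm : x ^ m = 1)
    (hpm : ¬ p ∣ m) : x = 1 := by
  obtain ⟨k, hk⟩ := h
  have h1 : orderOf x ∣ p ^ k := orderOf_dvd_of_pow_eq_one hk
  have h2 : orderOf x ∣ m := orderOf_dvd_of_pow_eq_one hm
  have h3 : Nat.Coprime (p ^ k) m := Nat.Coprime.pow_left _ ((Nat.Prime.coprime_iff_not_dvd hp.out).2 hpm)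
  have h4 : orderOf x = 1 := Nat.eq_one_of_dvd_coprimes h3 h1 h2
  exact orderOf_eq_one_iff.1 h4

theorem NS.of_injective (f : K →* L) (hf : Function.Injective f) (h : NS p L) : NS p K := by
  intro x y hx hy
  apply PEl.of_map f hf
  rw [map_mul]
  exact h _ _ (hx.map f) (hy.map f)

theorem NS.subgroup (h : NS p K) (H : Subgroup K) : NS p H :=
  NS.of_injective H.subtype H.subtype_injective h

/-- the subgroup of all `p`-elements -/
def NS.sub (h : NS p K) : Subgroup K where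
  carrier := {x | PEl p x}
  one_mem' := PEl.one
  mul_mem' := fun hx hy => h _ _ hx hy
  inv_mem' := fun hx => hx.inv

theorem NS.mem_sub (h : NS p K) {x : K} : x ∈ h.sub ↔ PEl p x := Iff.rfl

theorem NS.sub_normal (h : NS p K) : h.sub.Normal := ⟨fun _ hx g => hx.conj g⟩

theorem NS.sub_isPGroup (h : NS p K) : IsPGroup p h.sub := by
  rintro ⟨x, k, hk⟩
  exact ⟨k, Subtype.ext (by simpa using hk)⟩

/-- If `H ≤ K` has `NS`, a Sylow subgroup `Q` of `K` inside `H` contains all `p`-elements of `H`. -/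
theorem NS.mem_sylow {H : Subgroup K} (h : NS p H) (Q : Sylow p K) (hQ : (Q : Subgroup K) ≤ H)
    {x : K} (hx : x ∈ H) (hxp : PEl p x) : x ∈ Q := by
  let T : Subgroup K := h.sub.map H.subtype
  have hT : IsPGroup p T := h.sub_isPGroup.map _
  have hQT : (Q : Subgroup K) ≤ T := by
    intro q hq
    refine ⟨⟨q, hQ hq⟩, ?_, rfl⟩
    exact PEl.of_map H.subtype H.subtype_injective (PEl.of_mem Q.2 hq)
  have hTQ : T = Q := Q.is_maximal' hT hQT
  have : x ∈ T := ⟨⟨x, hx⟩, PEl.of_map H.subtype H.subtype_injective hxp, rfl⟩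
  rw [hTQ] at this
  exact this

theorem NS.sylow_normal (h : NS p K) (P : Sylow p K) : (P : Subgroup K).Normal := by
  have hle : (P : Subgroup K) ≤ h.sub := fun x hx => PEl.of_mem P.2 hx
  have : h.sub = P := P.is_maximal' h.sub_isPGroup hle
  rw [← this]
  exact h.sub_normal

theorem PEl.exists_mem_sylow [Fact p.Prime] [Finite K] {x : K} (h : PEl p x) :
    ∃ Q : Sylow p K, x ∈ Q := by
  obtain ⟨Q, hQ⟩ := h.isPGroup_zpowers.exists_le_sylow
  exact ⟨Q, hQ (Subgroup.mem_zpowers x)⟩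

theorem PEl.exists_conj_mem [Fact p.Prime] [Finite K] {x : K} (h : PEl p x) (P : Sylow p K) :
    ∃ g : K, g * x * g⁻¹ ∈ P := by
  obtain ⟨Q, hQ⟩ := h.exists_mem_sylow
  obtain ⟨g, hg⟩ := MulAction.exists_smul_eq K Q P
  refine ⟨g, ?_⟩
  have h1 : g * x * g⁻¹ ∈ ((g • Q : Sylow p K) : Subgroup K) := by
    rw [Sylow.coe_subgroup_smul]
    exact (Subgroup.mem_smul_pointwise_iff_exists _ _ _).2 ⟨x, hQ, by simp [MulAut.smul_def]⟩
  rw [hg] at h1
  exact h1

theorem NS.of_sylow_normal [Fact p.Prime] [Finite K] (P : Sylow p K)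
    (hP : (P : Subgroup K).Normal) : NS p K := by
  have key : ∀ x : K, PEl p x → x ∈ P := by
    intro x hx
    obtain ⟨g, hg⟩ := hx.exists_conj_mem P
    have := hP.conj_mem _ hg g⁻¹
    have e : g⁻¹ * (g * x * g⁻¹) * g⁻¹⁻¹ = x := by group
    rw [e] at this
    exact this
  intro x y hx hy
  exact PEl.of_mem P.2 (mul_mem (key x hx) (key y hy))

/-- If all `p`-elements are central then `NS`. -/
theorem NS.of_central (h : ∀ x : K, PEl p x → x ∈ Subgroup.center K) : NS p K := by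
  intro x y hx hy
  exact hx.mul_of_commute hy ((Subgroup.mem_center_iff.1 (h x hx) y).symm)

end

end Cfsg.Agent.Lib.Helper19
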