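import Cfsg.Agent.Lib.Helper19.FTB1
import Cfsg.Agent.S4444
import Cfsg.Agent.S0887
import Cfsg.Agent.S0138
import Cfsg.Agent.Lib.Helper4.Blich3
import Cfsg.Agent.Lib.Helper4.CharDecomp
import Cfsg.Agent.Lib.Helper82.Constituent
import Cfsg.Agent.Lib.Helper82.Central

set_option autoImplicit false
open Cfsg
open scoped ComplexConjugate
open Cfsg.Agent.Lib.Helper20 Cfsg.Agent.Lib.Helper82

namespace Cfsg.Agent.Lib.Helper19

/-- A character whose pull-back along a homomorphism is irreducible is irreducible. -/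
theorem isIrr_of_comp_isIrr {G H : Type*} [Group G] [Fintype G] [Group H] [Fintype H]
    (f : H →* G) {χ : G → ℂ} (hχ : IsCharacter G χ) (h : IsIrrCharacter H (χ ∘ f)) :
    IsIrrCharacter G χ := by
  have h1 : χ 1 ≠ 0 := by
    have := isIrr_one_ne_zero h
    simpa using this
  obtain ⟨ξ, hξ⟩ := exists_irr_constituent hχ h1
  obtain ⟨η, hη, he⟩ := exists_add_of_inner_ne_zero hχ ξ.2 hξ
  have hξc : IsCharacter H ((ξ : G → ℂ) ∘ f) := isCharacter_comp_hom (isIrr_isChar ξ.2) f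
  have hηc : IsCharacter H (η ∘ f) := isCharacter_comp_hom hη f
  have hξ1 : ((ξ : G → ℂ) ∘ f) 1 ≠ 0 := by
    simpa using isIrr_one_ne_zero ξ.2
  obtain ⟨γ, hγ⟩ := exists_irr_constituent hξc hξ1
  obtain ⟨a, ha⟩ := isCharacter_classInner_nat hξc γ.2
  obtain ⟨b, hb⟩ := isCharacter_classInner_nat hηc γ.2
  have hsum : classInner (χ ∘ f) (γ : H → ℂ) = (a + b : ℕ) := by
    have : χ ∘ f = (ξ : G → ℂ) ∘ f + η ∘ f := by rw [he]; rfl
    rw [this, classInner_add_left, ha, hb]; push_cast; ring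
  have ha0 : a ≠ 0 := by
    rintro rfl
    exact hγ (by rw [ha]; simp)
  have hγe : χ ∘ f = (γ : H → ℂ) := by
    by_contra hne
    rw [classInner_irr_ne h γ.2 hne] at hsum
    have : (a + b : ℕ) = 0 := by exact_mod_cast hsum.symm
    omega
  have hdeg1 := degree_le_of_constituent hξc γ.2 hγ
  have e1 : charDegree ((ξ : G → ℂ) ∘ f) = charDegree (ξ : G → ℂ) := by
    simp [charDegree]
  have e2 : charDegree (γ : H → ℂ) = charDegree χ := by
    rw [← hγe]; simp [charDegree]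
  rw [e1, e2] at hdeg1
  rw [eq_of_constituent_of_degree_le hχ ξ.2 hξ hdeg1]
  exact ξ.2

/-- restriction of an irreducible character of small degree to a normal subgroup of `p`-power
index is irreducible -/
theorem isIrr_restrict_of_lt {Γ : Type*} [Group Γ] [Fintype Γ] (p : ℕ) [hp : Fact p.Prime]
    (K : Subgroup Γ) [K.Normal] [Fintype K] (hidx : ∃ j : ℕ, K.index = p ^ j) {ψ : Γ → ℂ}
    (hψ : IsIrrCharacter Γ ψ) (d : ℕ) (hd : ψ 1 = d) (hdp : d < p) :
    IsIrrCharacter K (fun k : K => ψ k) := by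
  have hψc := isIrr_isChar hψ
  have hθc : IsCharacter K (fun k : K => ψ k) := isCharacter_restrict hψc K
  have hd0 : d ≠ 0 := by
    rintro rfl
    exact isIrr_one_ne_zero hψ (by rw [hd]; simp)
  have hθ1 : (fun k : K => ψ k) 1 ≠ 0 := by
    show ψ ((1 : K) : Γ) ≠ 0
    rw [Subgroup.coe_one]; exact isIrr_one_ne_zero hψ
  obtain ⟨ϑ, hϑ⟩ := exists_irr_constituent hθc hθ1
  obtain ⟨e, he⟩ := isCharacter_apply_one (isIrr_isChar ϑ.2)
  obtain ⟨h1, h2⟩ := Cfsg.Agent.S0887.result K ψ hψ ϑ ϑ.2 hϑ d e hd he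
  obtain ⟨j, hj⟩ := hidx
  rw [hj] at h2
  obtain ⟨i, _, hi⟩ := (Nat.dvd_prime_pow hp.out).1 h2
  have hle : d / e ≤ d := Nat.div_le_self _ _
  have hi0 : i = 0 := by
    by_contra hne
    have : p ≤ p ^ i := Nat.le_self_pow hne p
    omega
  rw [hi0, pow_zero] at hi
  have hde : d = e := by
    obtain ⟨c, rfl⟩ := h1
    have he0 : 0 < e := by
      rcases Nat.eq_zero_or_pos e with h | h
      · subst h; simp at hd0
      · exact h
    rw [Nat.mul_div_cancel_left _ he0] at hi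
    rw [hi, mul_one]
  have hdeg : charDegree (fun k : K => ψ k) ≤ charDegree (ϑ : K → ℂ) := by
    have e1 : ((charDegree (fun k : K => ψ k) : ℕ) : ℂ) = d := by
      rw [← isChar_one_eq hθc]
      show ψ ((1 : K) : Γ) = d
      rw [Subgroup.coe_one, hd]
    have e2 : ((charDegree (ϑ : K → ℂ) : ℕ) : ℂ) = e := by
      rw [← isChar_one_eq (isIrr_isChar ϑ.2), he]
    have e1' : charDegree (fun k : K => ψ k) = d := by exact_mod_cast e1
    have e2' : charDegree (ϑ : K → ℂ) = e := by exact_mod_cast e2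
    omega
  rw [eq_of_constituent_of_degree_le hθc ϑ.2 hϑ hdeg]
  exact ϑ.2

/-- Glauberman: an invariant irreducible character of degree `< p - 1` restricts irreducibly to
the fixed points of a `p`-group acting coprimely. -/
theorem isIrr_restrict_fixed {Γ : Type*} [Group Γ] [Fintype Γ] (p : ℕ) [hp : Fact p.Prime]
    (K S : Subgroup Γ) [Fintype K] (hnorm : ∀ s ∈ S, ∀ g ∈ K, s * g * s⁻¹ ∈ K)
    (hcop : (Nat.card K).Coprime (Nat.card S)) (hS : IsPGroup p S) (θ : IrrCharacter K)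
    (hinv : ∀ s ∈ S, ∀ g g' : K, (g' : Γ) = s * g * s⁻¹ → (θ : K → ℂ) g' = (θ : K → ℂ) g)
    (d : ℕ) (hd : (θ : K → ℂ) 1 = d) (hdp : d + 1 < p) (C : Subgroup Γ) [Fintype C]
    (hC : C = K ⊓ Subgroup.centralizer (S : Set Γ)) (hCK : C ≤ K) :
    IsIrrCharacter C (fun c : C => (θ : K → ℂ) ⟨c, hCK c.2⟩) := by
  classical
  haveI : Finite (IrrCharacter C) := Cfsg.Agent.Lib.Helper20.finite_irrCharacter
  haveI : Fintype (IrrCharacter C) := Fintype.ofFinite _
  obtain ⟨h1, h2, -, -⟩ := Cfsg.Agent.S4444.result K S hnorm hcop p hp.out hS C hC hCK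
  set φ : C → ℂ := fun c : C => (θ : K → ℂ) ⟨c, hCK c.2⟩ with hφ
  have hφc : IsCharacter C φ :=
    isCharacter_comp_hom (isIrr_isChar θ.2) (Subgroup.inclusion hCK)
  obtain ⟨m, hm, hsum⟩ := Cfsg.Agent.Lib.Helper4.char_eq_sum_nat_irr hφc
  have hφ1 : φ 1 = d := by rw [← hd]; rfl
  have hdsum : d = ∑ γ : IrrCharacter C, m γ * charDegree (γ : C → ℂ) := by
    have := congrFun hsum 1
    rw [hφ1] at this
    simp only [Finset.sum_apply, Pi.smul_apply, smul_eq_mul] at this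
    have h3 : (d : ℂ) = ((∑ γ : IrrCharacter C, m γ * charDegree (γ : C → ℂ) : ℕ) : ℂ) := by
      rw [this]; push_cast
      apply Finset.sum_congr rfl; intro γ _
      rw [isChar_one_eq (isIrr_isChar γ.2)]
    exact_mod_cast h3
  have hmle : ∀ γ : IrrCharacter C, m γ ≤ d := by
    intro γ
    have h3 : m γ * charDegree (γ : C → ℂ) ≤ d := by
      rw [hdsum]
      exact Finset.single_le_sum (f := fun γ : IrrCharacter C => m γ * charDegree (γ : C → ℂ))
        (fun _ _ => Nat.zero_le _) (Finset.mem_univ γ)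
    have h4 : 0 < charDegree (γ : C → ℂ) := isIrr_charDegree_pos γ.2
    nlinarith
  obtain ⟨β, ⟨mβ, hmβ, hpm⟩, huniq⟩ := h1 θ hinv
  have hmm : mβ = m β := by
    have : (mβ : ℂ) = m β := by rw [← hmβ]; exact hm β
    exact_mod_cast this
  have hzero : ∀ γ : IrrCharacter C, γ ≠ β → m γ = 0 := by
    intro γ hγ
    by_contra hne
    have hnd : ¬ p ∣ m γ := by
      intro hdvd
      have := Nat.le_of_dvd (Nat.pos_of_ne_zero hne) hdvd
      have := hmle γ
      omega
    exact hγ (huniq γ ⟨m γ, hm γ, hnd⟩)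
  have hone : m β = 1 := by
    have h5 := h2 θ hinv β mβ hmβ hpm
    rw [hmm] at h5 hpm
    have h6 := hmle β
    have h7 : m β ≠ 0 := by
      intro h0; rw [h0] at hpm; exact hpm (dvd_zero _)
    rcases h5 with h5 | h5
    · have h8 : (p : ℤ) ∣ (m β : ℤ) - 1 := (Int.modEq_iff_dvd.1 h5.symm)
      have h9 : ((m β : ℤ) - 1) = 0 := by
        apply Int.eq_zero_of_abs_lt_dvd h8
        rw [abs_lt]; constructor <;> omega
      omega
    · exfalso
      have h8 : (p : ℤ) ∣ (m β : ℤ) - (-1) := (Int.modEq_iff_dvd.1 h5.symm)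
      have h9 : ((m β : ℤ) - (-1)) = 0 := by
        apply Int.eq_zero_of_abs_lt_dvd h8
        rw [abs_lt]; constructor <;> omega
      omega
  have : φ = (β : C → ℂ) := by
    rw [hsum, Finset.sum_eq_single β]
    · rw [hone]; simp
    · intro γ _ hγ; rw [hzero γ hγ]; simp
    · intro h; exact absurd (Finset.mem_univ β) h
  rw [this]
  exact β.2

/-- if `|ψ(x)| = ψ(1)` then commutators with `x` lie in the kernel of `ψ` -/
theorem apply_comm_of_normSq {Γ : Type*} [Group Γ] [Finite Γ] {ψ : Γ → ℂ} (hψ : IsCharacter Γ ψ)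
    (x : Γ) (h : ψ x * conj (ψ x) = ψ 1 ^ 2) (g : Γ) : ψ (x * g * x⁻¹ * g⁻¹) = ψ 1 := by
  obtain ⟨n, ρ, rfl⟩ := hψ
  have h1 : ‖ρ.character x‖ = (Module.finrank ℂ (Fin n → ℂ) : ℝ) := by
    rw [Complex.mul_conj, Representation.char_one] at h
    have h2 : Complex.normSq (ρ.character x) = (Module.finrank ℂ (Fin n → ℂ) : ℝ) ^ 2 := by
      exact_mod_cast h
    rw [Complex.normSq_eq_norm_sq] at h2
    exact (pow_left_inj₀ (norm_nonneg _) (Nat.cast_nonneg _) two_ne_zero).1 h2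
  obtain ⟨ω, hω⟩ := (Cfsg.Agent.S0138.result ρ x).1 h1
  have h3 : ρ (x * g * x⁻¹ * g⁻¹) = ρ 1 := by
    have hc : ρ x * ρ g = ρ g * ρ x := by
      rw [hω]; ext v; simp
    have : ρ (x * g * x⁻¹ * g⁻¹) = ρ g * ρ x * ρ x⁻¹ * ρ g⁻¹ := by
      rw [map_mul, map_mul, map_mul, hc]
    rw [this, mul_assoc (ρ g), ← map_mul, mul_inv_cancel, map_one, mul_one, ← map_mul,
      mul_inv_cancel, map_one]
  simp only [Representation.character, h3]

theorem comm_ker_of_pNilpotent {Γ : Type*} [Group Γ] [Fintype Γ] (p : ℕ) [hp : Fact p.Prime]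
    (K : Subgroup Γ) [hKn : K.Normal] (hK : ¬ p ∣ Nat.card K) (hidx : ∃ j : ℕ, K.index = p ^ j)
    {ψ : Γ → ℂ} (hψ : IsIrrCharacter Γ ψ) (d : ℕ) (hd : ψ 1 = d) (hdp : d + 1 < p)
    (x : Γ) (hx : PEl p x) (g : Γ) : ψ (x * g * x⁻¹ * g⁻¹) = ψ 1 := by
  classical
  have hψc := isIrr_isChar hψ
  haveI : Fintype K := Fintype.ofFinite _
  have hθ := isIrr_restrict_of_lt p K hidx hψ d hd (by omega)
  set S := Subgroup.zpowers x with hSdef
  have hS : IsPGroup p S := hx.isPGroup_zpowers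
  have hnorm : ∀ s ∈ S, ∀ g ∈ K, s * g * s⁻¹ ∈ K := fun s _ g hg => hKn.conj_mem g hg s
  have hcop : (Nat.card K).Coprime (Nat.card S) := by
    obtain ⟨k, hk⟩ := IsPGroup.iff_card.1 hS
    rw [hk]
    exact Nat.Coprime.pow_right k ((Nat.Prime.coprime_iff_not_dvd hp.out).2 hK).symm
  set C := K ⊓ Subgroup.centralizer (S : Set Γ) with hC
  haveI : Fintype C := Fintype.ofFinite _
  have hCK : C ≤ K := inf_le_left
  have hinv : ∀ s ∈ S, ∀ g g' : K, (g' : Γ) = s * g * s⁻¹ →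
      (fun k : K => ψ k) g' = (fun k : K => ψ k) g := by
    intro s _ g g' hgg
    show ψ g' = ψ g
    rw [hgg]
    exact isClassFunction_of_isCharacter hψc g s
  have hβ := isIrr_restrict_fixed p K S hnorm hcop hS ⟨_, hθ⟩ hinv d
    (by show ψ ((1 : K) : Γ) = d; rw [Subgroup.coe_one, hd]) hdp C hC hCK
  set D := Subgroup.centralizer ({x} : Set Γ) with hD
  haveI : Fintype D := Fintype.ofFinite _
  have hCD : C ≤ D := by
    intro c hc
    have h1 := (Subgroup.mem_inf.1 hc).2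
    rw [Subgroup.mem_centralizer_iff] at h1
    rw [hD, Subgroup.mem_centralizer_singleton_iff]
    exact (h1 x (Subgroup.mem_zpowers x)).symm
  have hψD : IsIrrCharacter D (fun y : D => ψ y) :=
    isIrr_of_comp_isIrr (Subgroup.inclusion hCD) (isCharacter_restrict hψc D) hβ
  have hxD : x ∈ D := by
    rw [hD, Subgroup.mem_centralizer_singleton_iff]
  have hz : (⟨x, hxD⟩ : D) ∈ Subgroup.center D := by
    rw [Subgroup.mem_center_iff]
    rintro ⟨y, hy⟩
    apply Subtype.ext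
    rw [hD, Subgroup.mem_centralizer_singleton_iff] at hy
    exact hy
  have h5 := isIrr_central_mul_conj hψD hz
  exact apply_comm_of_normSq hψc x h5 g

/-- **`p`-nilpotent lemma**: a group with a normal `p`-complement and a faithful character of
degree `n < p - 1` has all its `p`-elements central. -/
theorem pEl_central_of_pNilpotent {Γ : Type*} [Group Γ] [Finite Γ] (p : ℕ) [hp : Fact p.Prime]
    (K : Subgroup Γ) [hKn : K.Normal] (hK : ¬ p ∣ Nat.card K) (hidx : ∃ j : ℕ, K.index = p ^ j)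
    {χ : Γ → ℂ} (hχ : IsCharacter Γ χ) (hfaith : ∀ g : Γ, χ g = χ 1 → g = 1) {n : ℕ}
    (hn : χ 1 = n) (hnp : n + 1 < p) (x : Γ) (hx : PEl p x) : x ∈ Subgroup.center Γ := by
  haveI : Fintype Γ := Fintype.ofFinite _
  rw [Subgroup.mem_center_iff]
  intro g
  have h1 : x * g * x⁻¹ * g⁻¹ = 1 := by
    apply Cfsg.Agent.Lib.Helper4.eq_one_of_forall_constituent hχ hfaith hn
    intro ψ d hψ hd _ hdn
    exact comm_ker_of_pNilpotent p K hK hidx hψ d hd (by omega) x hx g
  have h2 : x * g = g * x := by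
    have := congrArg (fun t => t * g * x) h1
    simpa [mul_assoc] using this
  exact h2.symm

end Cfsg.Agent.Lib.Helper19
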