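import Cfsg.Agent.Lib.Helper19.FTB2
import Cfsg.Agent.Lib.Helper19.FT4

set_option autoImplicit false
open Cfsg
open scoped ComplexConjugate
open Cfsg.Agent.Lib.Helper20 Cfsg.Agent.Lib.Helper82

namespace Cfsg.Agent.Lib.Helper19

universe u

section groupth

variable {G : Type*} [Group G] [Finite G] (p : ℕ) [hp : Fact p.Prime]

theorem sylow_inf_center_eq_bot (P : Sylow p G) (hZ : (P : Subgroup G) ⊓ Subgroup.center G = ⊥)
    {x : G} (hx : PEl p x) (hxZ : x ∈ Subgroup.center G) : x = 1 := by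
  obtain ⟨g, hg⟩ := hx.exists_conj_mem P
  have e : g * x * g⁻¹ = x := by
    rw [(Subgroup.mem_center_iff.1 hxZ g), mul_inv_cancel_right]
  rw [e] at hg
  have : x ∈ (P : Subgroup G) ⊓ Subgroup.center G := ⟨hg, hxZ⟩
  rw [hZ] at this
  exact Subgroup.mem_bot.1 this

theorem sylow_eq_of_common (hab : ∀ Q : Sylow p G, ∀ a ∈ Q, ∀ b ∈ Q, a * b = b * a)
    (IH : ∀ H : Subgroup G, H ≠ ⊤ → NS p H) (Q Q₁ : Sylow p G) {x : G}
    (hxZ : x ∉ Subgroup.center G) (hxQ : x ∈ Q) (hxQ₁ : x ∈ Q₁) : Q = Q₁ := by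
  have hC := IH _ (Helper4.centralizer_ne_top hxZ)
  have h1 : (Q : Subgroup G) ≤ Subgroup.centralizer ({x} : Set G) :=
    Helper4.le_centralizer_of_abelian (hab Q) hxQ
  have h2 : (Q₁ : Subgroup G) ≤ Subgroup.centralizer ({x} : Set G) :=
    Helper4.le_centralizer_of_abelian (hab Q₁) hxQ₁
  have hle : (Q : Subgroup G) ≤ Q₁ := fun q hq => hC.mem_sylow Q₁ h2 (h1 hq) (PEl.of_mem Q.2 hq)
  exact Sylow.ext (Q.is_maximal' Q₁.2 hle).symm

theorem hone_of_IH (hab : ∀ Q : Sylow p G, ∀ a ∈ Q, ∀ b ∈ Q, a * b = b * a)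
    (IH : ∀ H : Subgroup G, H ≠ ⊤ → NS p H) (P : Sylow p G)
    (hZ : (P : Subgroup G) ⊓ Subgroup.center G = ⊥)
    (g : G) (hg : g ∉ Subgroup.center G) (Q₁ Q₂ : Sylow p G)
    (h1 : Subgroup.centralizer ({g} : Set G) ⊓ (Q₁ : Subgroup G) ≠ ⊥)
    (h2 : Subgroup.centralizer ({g} : Set G) ⊓ (Q₂ : Subgroup G) ≠ ⊥) : Q₁ = Q₂ := by
  obtain ⟨⟨x, hx⟩, hx1⟩ := Subgroup.ne_bot_iff_exists_ne_one.1 h1
  obtain ⟨⟨y, hy⟩, hy1⟩ := Subgroup.ne_bot_iff_exists_ne_one.1 h2
  have hx1' : x ≠ 1 := fun h => hx1 (Subtype.ext h)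
  have hy1' : y ≠ 1 := fun h => hy1 (Subtype.ext h)
  have hC := IH _ (Helper4.centralizer_ne_top hg)
  have hxp : PEl p x := PEl.of_mem Q₁.2 hx.2
  have hyp : PEl p y := PEl.of_mem Q₂.2 hy.2
  let T : Subgroup G := hC.sub.map (Subgroup.centralizer ({g} : Set G)).subtype
  have hT : IsPGroup p T := hC.sub_isPGroup.map _
  obtain ⟨Q, hQ⟩ := hT.exists_le_sylow
  have hxT : x ∈ T := ⟨⟨x, hx.1⟩, PEl.of_map _ (Subgroup.subtype_injective _) hxp, rfl⟩
  have hyT : y ∈ T := ⟨⟨y, hy.1⟩, PEl.of_map _ (Subgroup.subtype_injective _) hyp, rfl⟩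
  have hxZ : x ∉ Subgroup.center G := fun h => hx1' (sylow_inf_center_eq_bot p P hZ hxp h)
  have hyZ : y ∉ Subgroup.center G := fun h => hy1' (sylow_inf_center_eq_bot p P hZ hyp h)
  rw [← sylow_eq_of_common p hab IH Q Q₁ hxZ (hQ hxT) hx.2,
    ← sylow_eq_of_common p hab IH Q Q₂ hyZ (hQ hyT) hy.2]

theorem map_conj_eq_smul (P : Sylow p G) (a : G) :
    (P : Subgroup G).map (MulAut.conj a).toMonoidHom = ((a • P : Sylow p G) : Subgroup G) := by
  rw [Sylow.coe_subgroup_smul]
  rfl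

/-- a normal `p`-subgroup lies in every Sylow `p`-subgroup -/
theorem normal_le_sylow (T : Subgroup G) (hTn : T.Normal) (hT : IsPGroup p T) (P : Sylow p G) :
    T ≤ P := by
  obtain ⟨Q, hQ⟩ := hT.exists_le_sylow
  obtain ⟨g, hg⟩ := MulAction.exists_smul_eq G Q P
  intro x hx
  have h0 : g⁻¹ * x * g⁻¹⁻¹ ∈ T := hTn.conj_mem x hx g⁻¹
  have h1 : g * (g⁻¹ * x * g⁻¹⁻¹) * g⁻¹ ∈ ((g • Q : Sylow p G) : Subgroup G) := by
    rw [Sylow.coe_subgroup_smul]
    exact (Subgroup.mem_smul_pointwise_iff_exists _ _ _).2 ⟨_, hQ h0, by rw [MulAut.smul_def, MulAut.conj_apply]⟩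
  rw [hg] at h1
  have e : g * (g⁻¹ * x * g⁻¹⁻¹) * g⁻¹ = x := by group
  rwa [e] at h1

/-- the power `g ^ |G : P|` is a `p`-element -/
theorem pEl_pow_index (P : Sylow p G) (g : G) : PEl p (g ^ (P : Subgroup G).index) := by
  obtain ⟨a, ha⟩ := IsPGroup.iff_card.1 P.2
  refine ⟨a, ?_⟩
  rw [← ha, ← pow_mul, mul_comm, Subgroup.card_mul_index]
  exact pow_card_eq_one'

/-- existence of a proper normal subgroup with abelian quotient, if a Sylow subgroup is abelian and
meets the centre. -/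
theorem exists_normal_of_central (P : Sylow p G) (hab : ∀ a ∈ P, ∀ b ∈ P, a * b = b * a)
    (z : G) (hzP : z ∈ P) (hzZ : z ∈ Subgroup.center G) (hz1 : z ≠ 1) :
    ∃ M : Subgroup G, M.Normal ∧ M ≠ ⊤ ∧ ∀ g u : G, g * u * g⁻¹ * u⁻¹ ∈ M := by
  let V : G →* Abelianization (P : Subgroup G) :=
    MonoidHom.transfer (Abelianization.of : (P : Subgroup G) →* Abelianization (P : Subgroup G))
  have key : ∀ (k : ℕ) (g₀ : G), g₀⁻¹ * z ^ k * g₀ ∈ (P : Subgroup G) →
      g₀⁻¹ * z ^ k * g₀ = z ^ k := by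
    intro k g₀ _
    have : z ^ k ∈ Subgroup.center G := pow_mem hzZ k
    rw [mul_assoc, ← (Subgroup.mem_center_iff.1 this g₀), inv_mul_cancel_left]
  have hV : V z = Abelianization.of ⟨z ^ (P : Subgroup G).index,
      MonoidHom.transfer_eq_pow_aux z key⟩ := MonoidHom.transfer_eq_pow _ z key
  have hcomm : commutator (P : Subgroup G) = ⊥ := by
    rw [eq_bot_iff, commutator_def, Subgroup.commutator_le]
    intro a _ b _
    rw [Subgroup.mem_bot, commutatorElement_eq_one_iff_mul_comm]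
    exact Subtype.ext (hab a a.2 b b.2)
  have hVz : V z ≠ 1 := by
    intro h
    rw [hV] at h
    have h2 : (⟨z ^ (P : Subgroup G).index, MonoidHom.transfer_eq_pow_aux z key⟩ :
        (P : Subgroup G)) ∈ (Abelianization.of : (P : Subgroup G) →* _).ker := h
    rw [Abelianization.ker_of, hcomm, Subgroup.mem_bot] at h2
    have h3 : z ^ (P : Subgroup G).index = 1 := congrArg Subtype.val h2
    exact hz1 ((PEl.of_mem P.2 hzP).eq_one_of_pow h3 P.not_dvd_index)
  refine ⟨V.ker, inferInstance, ?_, ?_⟩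
  · intro h
    have : z ∈ V.ker := by rw [h]; trivial
    exact hVz this
  · intro g u
    rw [MonoidHom.mem_ker, map_mul, map_mul, map_mul, map_inv, map_inv, mul_comm (V g) (V u),
      mul_inv_cancel_right, mul_inv_cancel]

/-- Case B, group theoretic part: `N_G(P) ≤ C_G(P)`. -/
theorem normalizer_le_centralizer_of_central (IH : ∀ H : Subgroup G, H ≠ ⊤ → NS p H)
    (P : Sylow p G) (hab : ∀ a ∈ P, ∀ b ∈ P, a * b = b * a)
    (hnc : ∀ M : Subgroup G, M.Normal → (P : Subgroup G) ≤ M → M = ⊤)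
    (z : G) (hzP : z ∈ P) (hzZ : z ∈ Subgroup.center G) (hz1 : z ≠ 1) :
    Subgroup.normalizer (P : Set G) ≤ Subgroup.centralizer (P : Set G) := by
  obtain ⟨M, hMn, hMtop, hMc⟩ := exists_normal_of_central p P hab z hzP hzZ hz1
  have hM := IH M hMtop
  let T : Subgroup G := hM.sub.map M.subtype
  have hmemT : ∀ x : G, x ∈ M → PEl p x → x ∈ T := fun x hx hxp =>
    ⟨⟨x, hx⟩, PEl.of_map _ M.subtype_injective hxp, rfl⟩
  have hT : IsPGroup p T := hM.sub_isPGroup.map _
  have hTn : T.Normal := by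
    constructor
    rintro _ ⟨⟨x, hx⟩, hxp, rfl⟩ g
    exact hmemT _ (hMn.conj_mem x hx g) ((PEl.map M.subtype hxp).conj g)
  have hTP : T ≤ P := normal_le_sylow p T hTn hT P
  have hcent : Subgroup.centralizer (T : Set G) = ⊤ := by
    apply hnc _ inferInstance
    intro a ha
    rw [Subgroup.mem_centralizer_iff]
    intro t ht
    exact hab t (hTP ht) a ha
  have hTZ : ∀ t ∈ T, ∀ g : G, g * t = t * g := by
    intro t ht g
    have : g ∈ Subgroup.centralizer (T : Set G) := by rw [hcent]; trivial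
    exact ((Subgroup.mem_centralizer_iff.1 this) t ht).symm
  intro g hg
  rw [Subgroup.mem_centralizer_iff]
  intro u hu
  have hgu : g * u * g⁻¹ ∈ P := (Subgroup.mem_normalizer_iff.1 hg u).1 hu
  set c := g * u * g⁻¹ * u⁻¹ with hc
  have hcP : c ∈ P := mul_mem hgu (inv_mem hu)
  have hcT : c ∈ T := hmemT c (hMc g u) (PEl.of_mem P.2 hcP)
  have hpow : ∀ k : ℕ, g ^ k * u * (g ^ k)⁻¹ = c ^ k * u := by
    intro k
    induction k with
    | zero => simp
    | succ k ih =>
      have e1 : g ^ (k + 1) * u * (g ^ (k + 1))⁻¹ = g * (g ^ k * u * (g ^ k)⁻¹) * g⁻¹ := by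
        rw [pow_succ']; group
      have hck : c ^ k ∈ T := pow_mem hcT k
      rw [e1, ih, ← mul_assoc, hTZ _ hck g, pow_succ, hc]
      group
  have hidx := hpow (P : Subgroup G).index
  have hgi : g ^ (P : Subgroup G).index ∈ P := by
    have h1 : PEl p (g ^ (P : Subgroup G).index) := pEl_pow_index p P g
    have h2 := h1.isPGroup_zpowers.inf_normalizer_sylow P
    have h3 : g ^ (P : Subgroup G).index ∈
        Subgroup.zpowers (g ^ (P : Subgroup G).index) ⊓ Subgroup.normalizer (P : Set G) :=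
      ⟨Subgroup.mem_zpowers _, pow_mem hg _⟩
    rw [h2] at h3
    exact h3.2
  rw [hab _ hgi u hu, mul_inv_cancel_right] at hidx
  have hci : c ^ (P : Subgroup G).index = 1 := by
    have : c ^ (P : Subgroup G).index * u = 1 * u := by rw [← hidx, one_mul]
    exact mul_right_cancel this
  have hc1 : c = 1 := (PEl.of_mem P.2 hcP).eq_one_of_pow hci P.not_dvd_index
  rw [hc] at hc1
  have : g * u = u * g := by
    have h5 : g * u * g⁻¹ * u⁻¹ * u * g = 1 * u * g := by rw [hc1]
    simpa using h5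
  exact this.symm

end groupth

section chars

variable {G : Type u} [Group G] [Finite G] (p : ℕ) [hp : Fact p.Prime]

theorem ns_caseB {χ : G → ℂ} (hχ : IsCharacter G χ)
    (hfaith : ∀ g : G, χ g = χ 1 → g = 1) {n : ℕ} (hn : χ 1 = n) (hnp : n + 1 < p)
    (IH : ∀ H : Subgroup G, H ≠ ⊤ → NS p H) (P : Sylow p G)
    (hab : ∀ a ∈ P, ∀ b ∈ P, a * b = b * a)
    (hnc : ∀ M : Subgroup G, M.Normal → (P : Subgroup G) ≤ M → M = ⊤)
    (z : G) (hzP : z ∈ P) (hzZ : z ∈ Subgroup.center G) (hz1 : z ≠ 1) : NS p G := by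
  have hP := normalizer_le_centralizer_of_central p IH P hab hnc z hzP hzZ hz1
  have hcompl := MonoidHom.ker_transferSylow_isComplement' P hP
  have hK := MonoidHom.not_dvd_card_ker_transferSylow P hP
  have hidx : ∃ j : ℕ, (MonoidHom.transferSylow P hP).ker.index = p ^ j := by
    obtain ⟨a, ha⟩ := IsPGroup.iff_card.1 P.2
    exact ⟨a, by rw [hcompl.symm.index_eq_card, ha]⟩
  exact NS.of_central (fun x hx =>
    pEl_central_of_pNilpotent p _ hK hidx hχ hfaith hn hnp x hx)

theorem ns_caseA {χ : G → ℂ} (hχ : IsCharacter G χ)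
    (hfaith : ∀ g : G, χ g = χ 1 → g = 1) {n : ℕ} (hn : χ 1 = n) (hnp : n + 1 < p)
    (hcase : (n + 1) ^ 2 ≤ p ∨ (¬ p ^ 2 ∣ Nat.card G → NS p G))
    (IH : ∀ H : Subgroup G, H ≠ ⊤ → NS p H) (P : Sylow p G)
    (hab : ∀ Q : Sylow p G, ∀ a ∈ Q, ∀ b ∈ Q, a * b = b * a)
    (hnc : ∀ M : Subgroup G, M.Normal → (P : Subgroup G) ≤ M → M = ⊤)
    (hZ : (P : Subgroup G) ⊓ Subgroup.center G = ⊥) : NS p G := by
  classical
  haveI : Fintype G := Fintype.ofFinite G
  by_cases hex : ∃ (ψ : G → ℂ) (k : ℕ), IsIrrCharacter G ψ ∧ ψ 1 = k ∧ k ≠ 1 ∧ k ≤ n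
  · obtain ⟨ψ, k, hψ, hk, hk1, hkn⟩ := hex
    have hone : ∀ g : G, g ∉ Subgroup.center G → ∀ a b : G,
        Subgroup.centralizer ({g} : Set G) ⊓ (P : Subgroup G).map (MulAut.conj a).toMonoidHom ≠ ⊥ →
        Subgroup.centralizer ({g} : Set G) ⊓ (P : Subgroup G).map (MulAut.conj b).toMonoidHom ≠ ⊥ →
        (P : Subgroup G).map (MulAut.conj a).toMonoidHom =
          (P : Subgroup G).map (MulAut.conj b).toMonoidHom := by
      intro g hg a b h1 h2
      rw [map_conj_eq_smul] at h1 h2 ⊢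
      rw [map_conj_eq_smul]
      rw [hone_of_IH p hab IH P hZ g hg _ _ h1 h2]
    have hb := ft_bound2 (P : Subgroup G) (hab P) hZ hone ψ hψ k hk hk1 hnc
    have hb2 : Nat.card (P : Subgroup G) < (1 + n) ^ 2 := by
      have h1 : (Nat.card (P : Subgroup G) : ℝ) < ((1 + k) ^ 2 : ℕ) := by push_cast; exact hb
      have h2 : Nat.card (P : Subgroup G) < (1 + k) ^ 2 := by exact_mod_cast h1
      have h3 : (1 + k) ^ 2 ≤ (1 + n) ^ 2 := Nat.pow_le_pow_left (by omega) 2
      omega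
    have hcard := P.card_eq_multiplicity
    rcases hcase with h | h
    · have hlt : Nat.card (P : Subgroup G) < p := by
        have : (1 + n) ^ 2 = (n + 1) ^ 2 := by ring
        omega
      have h0 : (Nat.card G).factorization p = 0 := by
        by_contra hne
        have : p ^ 1 ≤ p ^ (Nat.card G).factorization p :=
          Nat.pow_le_pow_right hp.out.pos (Nat.one_le_iff_ne_zero.2 hne)
        rw [← hcard, pow_one] at this
        omega
      rw [h0, pow_zero] at hcard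
      have hbot : (P : Subgroup G) = ⊥ := Subgroup.card_eq_one.1 hcard
      exact NS.of_sylow_normal P (by rw [hbot]; infer_instance)
    · apply h
      intro hdvd
      have h2 : 2 ≤ (Nat.card G).factorization p :=
        (hp.out.pow_dvd_iff_le_factorization Nat.card_pos.ne').1 hdvd
      have h3 : p ^ 2 ≤ p ^ (Nat.card G).factorization p := Nat.pow_le_pow_right hp.out.pos h2
      rw [← hcard] at h3
      have h4 : (1 + n) ^ 2 ≤ p ^ 2 := Nat.pow_le_pow_left (by omega) 2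
      omega
  · push Not at hex
    have hcomm : ∀ x y : G, x * y = y * x := by
      intro x y
      have h1 : x * y * x⁻¹ * y⁻¹ = 1 := by
        apply Helper4.eq_one_of_forall_constituent hχ hfaith hn
        intro ψ d hψ hd hd0 hdn
        have hd1 : d = 1 := by
          by_contra hne
          exact absurd hdn (not_le.2 (hex ψ d hψ hd hne))
        subst hd1
        obtain ⟨f, rfl⟩ := exists_hom_of_linear ψ ⟨isIrr_isChar hψ, by simpa using hd⟩
        simp only [homFun_apply, map_mul, map_inv, map_one]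
        rw [mul_comm (f x) (f y), mul_inv_cancel_right, mul_inv_cancel]
      have h5 : x * y * x⁻¹ * y⁻¹ * y * x = 1 * y * x := by rw [h1]
      simpa using h5
    intro x y hx hy
    exact hx.mul_of_commute hy (hcomm x y)

theorem ns_step {χ : G → ℂ} (hχ : IsCharacter G χ)
    (hfaith : ∀ g : G, χ g = χ 1 → g = 1) {n : ℕ} (hn : χ 1 = n) (hnp : n + 1 < p)
    (hcase : (n + 1) ^ 2 ≤ p ∨ (¬ p ^ 2 ∣ Nat.card G → NS p G))
    (IH : ∀ H : Subgroup G, H ≠ ⊤ → NS p H) : NS p G := by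
  have hab : ∀ Q : Sylow p G, ∀ a ∈ Q, ∀ b ∈ Q, a * b = b * a := by
    intro Q a ha b hb
    have := Helper4.comm_of_isPGroup hp.out Q.2 (isCharacter_restrict hχ (Q : Subgroup G))
      (Helper4.restrict_faithful hfaith (Q : Subgroup G)) hn (by omega) ⟨a, ha⟩ ⟨b, hb⟩
    exact congrArg Subtype.val this
  obtain ⟨P⟩ : Nonempty (Sylow p G) := inferInstance
  by_cases hnc : ∀ M : Subgroup G, M.Normal → (P : Subgroup G) ≤ M → M = ⊤
  · by_cases hZ : (P : Subgroup G) ⊓ Subgroup.center G = ⊥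
    · exact ns_caseA p hχ hfaith hn hnp hcase IH P hab hnc hZ
    · obtain ⟨⟨z, hz⟩, hz1⟩ := Subgroup.ne_bot_iff_exists_ne_one.1 hZ
      exact ns_caseB p hχ hfaith hn hnp IH P (hab P) hnc z hz.1 hz.2
        (fun h => hz1 (Subtype.ext h))
  · push Not at hnc
    obtain ⟨M, hMn, hPM, hMtop⟩ := hnc
    have hM := IH M hMtop
    have hmem : ∀ x : G, PEl p x → x ∈ M := by
      intro x hx
      obtain ⟨g, hg⟩ := hx.exists_conj_mem P
      have := hMn.conj_mem _ (hPM hg) g⁻¹
      have e : g⁻¹ * (g * x * g⁻¹) * g⁻¹⁻¹ = x := by group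
      rwa [e] at this
    intro x y hx hy
    have := hM ⟨x, hmem x hx⟩ ⟨y, hmem y hy⟩ (PEl.of_map M.subtype M.subtype_injective hx)
      (PEl.of_map M.subtype M.subtype_injective hy)
    exact this.map M.subtype

end chars

/-- **Feit–Thompson / Blichfeldt**: normal Sylow subgroups for large primes. -/
theorem ns_of_faithful (p : ℕ) [hp : Fact p.Prime] (n : ℕ) :
    ∀ (N : ℕ) (G : Type u) [Group G] [Finite G],
    Nat.card G = N → ∀ χ : G → ℂ, IsCharacter G χ → (∀ g : G, χ g = χ 1 → g = 1) → χ 1 = n →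
    ((n + 1) ^ 2 ≤ p ∨ (n + 1 < p ∧ ∀ K : Subgroup G, ¬ p ^ 2 ∣ Nat.card K → NS p K)) →
    NS p G := by
  intro N
  induction N using Nat.strong_induction_on with
  | _ N ih =>
    intro G _ _ hN χ hχ hfaith hn hcase
    have hnp : n + 1 < p := by
      rcases hcase with h | h
      · have h2 := hp.out.two_le
        nlinarith
      · exact h.1
    apply ns_step p hχ hfaith hn hnp
    · rcases hcase with h | h
      · exact Or.inl h
      · right
        intro hd
        have h1 := h.2 ⊤ (by rwa [Subgroup.card_top])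
        exact NS.of_injective (Subgroup.topEquiv (G := G)).symm.toMonoidHom
          (Subgroup.topEquiv (G := G)).symm.injective h1
    · intro H hH
      have hlt : Nat.card H < N := by
        rw [← hN]
        by_contra hcon
        exact hH (Subgroup.eq_top_of_le_card H (by omega))
      apply ih _ hlt H rfl _ (isCharacter_restrict hχ H) (Helper4.restrict_faithful hfaith H) hn
      rcases hcase with h | h
      · exact Or.inl h
      · right
        refine ⟨h.1, ?_⟩
        intro K hK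
        have e := Subgroup.equivMapOfInjective K H.subtype H.subtype_injective
        have h1 := h.2 (K.map H.subtype) (by rwa [← Nat.card_congr e.toEquiv])
        exact NS.of_injective e.toMonoidHom e.injective h1

end Cfsg.Agent.Lib.Helper19
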