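import Cfsg.Agent.Lib.Helper78.Contrib2
import Cfsg.Agent.Lib.Helper19.FT1
import Cfsg.Agent.Lib.Helper79.GaloisChar

set_option autoImplicit false
open Cfsg
open scoped ComplexConjugate
open Cfsg.Agent.Lib.Helper20 Cfsg.Agent.Lib.Helper81 Cfsg.Agent.Lib.Helper78

namespace Cfsg.Agent.Lib.Helper19

variable {G : Type*} [Group G] [Fintype G] {p : ℕ}

/-- Parseval for the contribution integers `n_{χψ} = p^a m_{χψ}`. -/
theorem pow_mul_nC_self [Fintype (IrrCharacter G)] (hp : p.Prime) (χ : IrrCharacter G) :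
    ((p ^ (Nat.card G).factorization p : ℕ) : ℤ) * nC p χ χ
      = ∑ ψ : IrrCharacter G, nC p χ ψ ^ 2 := by
  classical
  set A : ℂ := ((p ^ (Nat.card G).factorization p : ℕ) : ℂ) with hA
  have hA0 : A ≠ 0 := by
    rw [hA]; exact_mod_cast (pow_pos hp.pos _).ne'
  have hAc : conj A = A := by rw [hA]; exact Complex.conj_natCast _
  have hm : ∀ ψ : IrrCharacter G, mC p (χ : G → ℂ) (ψ : G → ℂ) = (nC p χ ψ : ℂ) / A := by
    intro ψ
    rw [nC_spec hp, ← hA]; field_simp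
  have h1 : classInner (pRegularPart p (χ : G → ℂ)) (pRegularPart p (χ : G → ℂ))
      = mC p (χ : G → ℂ) (χ : G → ℂ) := by
    simp only [mC, classInner, pRegularPart_eq]
    congr 1
    apply Finset.sum_congr rfl; intro g _
    split_ifs <;> simp
  have h2 : classInner (pRegularPart p (χ : G → ℂ)) (pRegularPart p (χ : G → ℂ))
      = ∑ ψ : IrrCharacter G, mC p (χ : G → ℂ) (ψ : G → ℂ) * conj (mC p (χ : G → ℂ) (ψ : G → ℂ)) := by
    conv_lhs => rw [pRegularPart_eq_sum_mC χ]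
    exact classInner_sum_smul_irr _ _
  rw [h1] at h2
  have h3 : (A * (nC p χ χ : ℂ)) = ∑ ψ : IrrCharacter G, (nC p χ ψ : ℂ) ^ 2 := by
    rw [hm χ] at h2
    have h4 : ∀ ψ : IrrCharacter G, mC p (χ : G → ℂ) (ψ : G → ℂ) * conj (mC p (χ : G → ℂ) (ψ : G → ℂ))
        = (nC p χ ψ : ℂ) ^ 2 / A ^ 2 := by
      intro ψ
      rw [hm ψ, map_div₀, hAc, map_intCast]
      field_simp
    simp only [h4] at h2
    rw [← Finset.sum_div] at h2
    field_simp at h2
    linear_combination h2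
  rw [hA] at h3
  exact_mod_cast h3

theorem nC_eq_of_agree (hp : p.Prime) (χ ψ : IrrCharacter G)
    (h : ∀ g : G, IsPRegular p g → (ψ : G → ℂ) g = (χ : G → ℂ) g) : nC p χ ψ = nC p χ χ := by
  classical
  have h1 : mC p (χ : G → ℂ) (ψ : G → ℂ) = mC p (χ : G → ℂ) (χ : G → ℂ) := by
    simp only [mC, classInner, pRegularPart_eq]
    congr 1
    apply Finset.sum_congr rfl; intro g _
    split_ifs with hg
    · rw [h g hg]
    · simp
  have : (nC p χ ψ : ℂ) = (nC p χ χ : ℂ) := by rw [nC_spec hp, nC_spec hp, h1]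
  exact_mod_cast this

/-- If `S` is a set of irreducible characters agreeing with `χ` on `p`-regular elements then
`|S| · p^{ν(χ(1))} ≤ |S| · n_{χχ} ≤ p^a`. -/
theorem card_mul_nC_le [Fintype (IrrCharacter G)] (hp : p.Prime) (χ : IrrCharacter G)
    (S : Finset (IrrCharacter G))
    (hS : ∀ ψ ∈ S, ∀ g : G, IsPRegular p g → (ψ : G → ℂ) g = (χ : G → ℂ) g) :
    (S.card : ℤ) * nC p χ χ ≤ ((p ^ (Nat.card G).factorization p : ℕ) : ℤ) := by
  classical
  have h1 := pow_mul_nC_self hp χ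
  have hpos := nC_self_pos hp χ
  have h2 : ∑ ψ ∈ S, nC p χ ψ ^ 2 ≤ ∑ ψ : IrrCharacter G, nC p χ ψ ^ 2 :=
    Finset.sum_le_sum_of_subset_of_nonneg (Finset.subset_univ _) (fun _ _ _ => sq_nonneg _)
  have h3 : ∑ ψ ∈ S, nC p χ ψ ^ 2 = (S.card : ℤ) * nC p χ χ ^ 2 := by
    rw [Finset.sum_congr rfl (fun ψ hψ => by rw [nC_eq_of_agree hp χ ψ (hS ψ hψ)])]
    simp
  rw [h3, ← h1] at h2
  have h4 : ((S.card : ℤ) * nC p χ χ) * nC p χ χ
      ≤ ((p ^ (Nat.card G).factorization p : ℕ) : ℤ) * nC p χ χ := by nlinarith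
  exact le_of_mul_le_mul_right h4 hpos

theorem nC_eq_zero_of_card_mul_eq [Fintype (IrrCharacter G)] (hp : p.Prime) (χ : IrrCharacter G)
    (S : Finset (IrrCharacter G))
    (hS : ∀ ψ ∈ S, ∀ g : G, IsPRegular p g → (ψ : G → ℂ) g = (χ : G → ℂ) g)
    (heq : (S.card : ℤ) * nC p χ χ = ((p ^ (Nat.card G).factorization p : ℕ) : ℤ))
    (ψ : IrrCharacter G) (hψ : ψ ∉ S) : nC p χ ψ = 0 := by
  classical
  have h1 := pow_mul_nC_self hp χ
  have h3 : ∑ ψ ∈ S, nC p χ ψ ^ 2 = (S.card : ℤ) * nC p χ χ ^ 2 := by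
    rw [Finset.sum_congr rfl (fun ψ hψ => by rw [nC_eq_of_agree hp χ ψ (hS ψ hψ)])]
    simp
  rw [← Finset.sum_add_sum_compl S, h3, ← heq] at h1
  have h4 : ∑ ψ ∈ Sᶜ, nC p χ ψ ^ 2 = 0 := by nlinarith
  have h5 := (Finset.sum_eq_zero_iff_of_nonneg (fun _ _ => sq_nonneg _)).1 h4 ψ
    (Finset.mem_compl.2 hψ)
  exact pow_eq_zero_iff (two_ne_zero) |>.1 h5

end Cfsg.Agent.Lib.Helper19
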