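import Mathlib
import Cfsg.Prelude.Def_Characters
import Cfsg.Agent.Lib.Helper79.Eigen

set_option autoImplicit false

namespace Cfsg.Agent.Lib.Helper19

open Cfsg Polynomial

/-- a sum of `p`-power roots of unity with total multiplicity prime to `p` does not vanish -/
theorem sum_roots_ne_zero (p : ℕ) [hp : Fact p.Prime] (a : ℕ) (s : Finset ℂ) (m : ℂ → ℕ)
    (hs : ∀ μ ∈ s, μ ^ (p ^ a) = 1) (hm : ¬ p ∣ ∑ μ ∈ s, m μ) :
    ∑ μ ∈ s, (m μ : ℂ) * μ ≠ 0 := by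
  classical
  have hn : 0 < p ^ (a + 1) := pow_pos hp.out.pos _
  have hζ : IsPrimitiveRoot (Complex.exp (2 * Real.pi * Complex.I / ((p ^ (a + 1) : ℕ) : ℂ)))
      (p ^ (a + 1)) := Complex.isPrimitiveRoot_exp _ hn.ne'
  set ζ := Complex.exp (2 * Real.pi * Complex.I / ((p ^ (a + 1) : ℕ) : ℂ)) with hζdef
  have hex : ∀ μ ∈ s, ∃ k : ℕ, ζ ^ k = μ := by
    intro μ hμ
    haveI : NeZero (p ^ (a + 1)) := ⟨hn.ne'⟩
    have h1 : μ ^ (p ^ (a + 1)) = 1 := by rw [pow_succ, pow_mul, hs μ hμ, one_pow]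
    obtain ⟨i, -, hi⟩ := hζ.eq_pow_of_pow_eq_one h1
    exact ⟨i, hi⟩
  choose! k hk using hex
  intro h0
  let f : ℤ[X] := ∑ μ ∈ s, C (m μ : ℤ) * X ^ (k μ)
  have hf : aeval ζ f = 0 := by
    rw [← h0]
    simp only [f, map_sum, map_mul, aeval_C, map_pow, aeval_X]
    apply Finset.sum_congr rfl
    intro μ hμ
    rw [hk μ hμ]
    simp
  have hdvd : cyclotomic (p ^ (a + 1)) ℤ ∣ f := by
    rw [cyclotomic_eq_minpoly hζ hn]
    exact minpoly.isIntegrallyClosed_dvd (hζ.isIntegral hn) hf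
  have h1 := eval_dvd (x := (1 : ℤ)) hdvd
  rw [eval_one_cyclotomic_prime_pow] at h1
  have h2 : eval 1 f = ((∑ μ ∈ s, m μ : ℕ) : ℤ) := by
    simp only [f, eval_finsetSum, eval_mul, eval_C, eval_pow, eval_X, one_pow, mul_one]
    push_cast
    rfl
  rw [h2] at h1
  exact hm (by exact_mod_cast h1)

/-- a character of degree prime to `p` does not vanish on `p`-elements -/
theorem isCharacter_ne_zero_of_pElement {G : Type*} [Group G] (p : ℕ) [hp : Fact p.Prime]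
    {χ : G → ℂ} (hχ : IsCharacter G χ) (g : G) (a : ℕ) (hg : g ^ (p ^ a) = 1) (d : ℕ)
    (hd : χ 1 = d) (hpd : ¬ p ∣ d) : χ g ≠ 0 := by
  obtain ⟨s, m, h1, h2, h3⟩ := Cfsg.Agent.Lib.Helper79.IsCharacter.exists_weights χ hχ g (p ^ a)
    (pow_pos hp.out.pos _) hg
  have h4 := h3 1
  simp only [pow_one] at h4
  rw [h4]
  apply sum_roots_ne_zero p a s m h1
  have h5 : ∑ μ ∈ s, m μ = d := by
    rw [hd] at h2
    exact_mod_cast h2
  rw [h5]
  exact hpd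

end Cfsg.Agent.Lib.Helper19
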