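import Cfsg.Agent.Lib.Helper19.Deg2C
import Cfsg.Agent.Lib.Helper51.PrimePowerDeg
import Cfsg.Agent.Lib.Helper5.DegHyp
import Cfsg.Agent.Lib.Helper82.StructConst
import Cfsg.Agent.S4465

set_option autoImplicit false
open Cfsg
open scoped ComplexConjugate
open Cfsg.Agent.Lib.Helper20 Cfsg.Agent.Lib.Helper82

namespace Cfsg.Agent.Lib.Helper19

open Subgroup
open Cfsg.Agent.Lib.Helper51 (oneIrr vanish_of_coprime_simple)

universe u

section simple

variable {S : Type*} [Group S] [Finite S] [IsSimpleGroup S]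

/-- nonprincipal irreducible characters of a simple group are faithful -/
theorem faithful_of_simple (χ : IrrCharacter S) (hχ : χ ≠ oneIrr S) (g : S)
    (hg : (χ : S → ℂ) g = (χ : S → ℂ) 1) : g = 1 := by
  classical
  have := Fintype.ofFinite S
  have hc := isIrr_isChar χ.2
  rcases (charKer_normal (χ : S → ℂ) hc).eq_bot_or_eq_top with h | h
  · have : g ∈ charKer (χ : S → ℂ) hc := hg
    rw [h] at this
    exact mem_bot.1 this
  · exfalso
    have hconst : ∀ x : S, (χ : S → ℂ) x = (χ : S → ℂ) 1 := by
      intro x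
      have : x ∈ charKer (χ : S → ℂ) hc := by rw [h]; trivial
      exact this
    obtain ⟨d, hd⟩ := isCharacter_apply_one hc
    have h1 := classInner_irr_self χ.2
    unfold classInner at h1
    simp only [hconst, hd, Finset.sum_const, Finset.card_univ, nsmul_eq_mul, Complex.conj_natCast,
      ← Nat.card_eq_fintype_card] at h1
    have hS : (Nat.card S : ℂ) ≠ 0 := by exact_mod_cast Nat.card_pos.ne'
    have h2 : ((d * d : ℕ) : ℂ) = 1 := by
      push_cast
      field_simp at h1
      linear_combination h1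
    have h3 : d * d = 1 := by exact_mod_cast h2
    have h4 : d = 1 := Nat.eq_one_of_mul_eq_one_right h3
    apply hχ
    apply Subtype.ext
    funext x
    rw [hconst x, hd, h4]
    simp [oneIrr]

theorem center_eq_bot_of_simple (hnc : ¬ ∀ a b : S, a * b = b * a) : center S = ⊥ := by
  rcases (center S).normal_of_characteristic.eq_bot_or_eq_top with h | h
  · exact h
  · exfalso
    apply hnc
    intro a b
    have : a ∈ center S := by rw [h]; trivial
    exact (mem_center_iff.1 this b).symm

theorem degree_ne_one_of_simple (hnc : ¬ ∀ a b : S, a * b = b * a) (χ : IrrCharacter S)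
    (hχ : χ ≠ oneIrr S) : charDegree (χ : S → ℂ) ≠ 1 := by
  intro h1
  apply hnc
  intro a b
  have hc := isIrr_isChar χ.2
  have h2 : (χ : S → ℂ) 1 = 1 := by rw [isChar_one_eq hc, h1]; simp
  obtain ⟨f, hf⟩ := exists_hom_of_linear (χ : S → ℂ) ⟨hc, h2⟩
  have h3 : a * b * a⁻¹ * b⁻¹ = 1 := by
    apply faithful_of_simple χ hχ
    rw [hf]
    simp only [homFun_apply, map_mul, map_inv, map_one]
    rw [mul_comm (f a) (f b), mul_inv_cancel_right, mul_inv_cancel]
  have h5 : a * b * a⁻¹ * b⁻¹ * b * a = 1 * b * a := by rw [h3]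
  simpa using h5

/-- if a character vanishes on the non-identity elements of a subgroup, the order of the subgroup
divides the degree -/
theorem card_dvd_of_vanish {G : Type*} [Group G] [Finite G] {χ : G → ℂ} (hχ : IsCharacter G χ)
    (A : Subgroup G) (h : ∀ y ∈ A, y ≠ 1 → χ y = 0) : Nat.card A ∣ charDegree χ := by
  classical
  have := Fintype.ofFinite A
  obtain ⟨k, hk⟩ := isCharacter_classInner_nat' (isCharacter_restrict hχ A)
    (isCharacter_one (G := A))
  unfold classInner at hk
  have hsum : ∑ y : A, χ y * conj ((fun _ : A => (1 : ℂ)) y) = χ 1 := by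
    rw [Finset.sum_eq_single (1 : A)]
    · simp
    · intro y _ hy
      rw [h y y.2 (fun e => hy (Subtype.ext e))]; simp
    · intro hh; exact absurd (Finset.mem_univ _) hh
  rw [hsum, isChar_one_eq hχ] at hk
  have hA : (Nat.card A : ℂ) ≠ 0 := by exact_mod_cast Nat.card_pos.ne'
  refine ⟨k, ?_⟩
  have : (charDegree χ : ℂ) = ((Nat.card A * k : ℕ) : ℂ) := by
    push_cast
    field_simp at hk
    linear_combination hk
  exact_mod_cast this

/-- hypothesis: all nonlinear irreducible characters have prime degree -/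
def PD (G : Type*) [Group G] : Prop :=
  ∀ χ : IrrCharacter G, charDegree (χ : G → ℂ) ≠ 1 → (charDegree (χ : G → ℂ)).Prime

/-- In a simple group with `PD`, a degree `r` divides the order exactly once. -/
theorem not_sq_dvd_of_degree (hnc : ¬ ∀ a b : S, a * b = b * a) (χ : IrrCharacter S)
    (hχ : χ ≠ oneIrr S) {r : ℕ} (hr : r.Prime) (hdeg : charDegree (χ : S → ℂ) = r) :
    ¬ r ^ 2 ∣ Nat.card S := by
  classical
  have := Fintype.ofFinite S
  have : Fact r.Prime := ⟨hr⟩
  have hc := isIrr_isChar χ.2
  have hfaith := faithful_of_simple χ hχ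
  have h1 : (χ : S → ℂ) 1 = r := by rw [isChar_one_eq hc, hdeg]
  obtain ⟨R⟩ : Nonempty (Sylow r S) := inferInstance
  have hψ : IsCharacter R (fun y : R => (χ : S → ℂ) y) := isCharacter_restrict hc _
  have hψf := Helper4.restrict_faithful hfaith (R : Subgroup S)
  obtain ⟨k, hk⟩ := IsPGroup.iff_card.1 R.2
  have hRab : ∀ a b : R, a * b = b * a := by
    by_cases hirr : IsIrrCharacter R (fun y : R => (χ : S → ℂ) y)
    · exfalso
      have hnt : Nontrivial R := by
        by_contra hn
        rw [not_nontrivial_iff_subsingleton] at hn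
        have h2 := isIrr_one_eq_one_of_comm (fun a b : R => Subsingleton.elim _ _) hirr
        change (χ : S → ℂ) 1 = 1 at h2
        rw [h1] at h2
        have : r = 1 := by exact_mod_cast h2
        exact hr.one_lt.ne' this
      have hcn := R.2.center_nontrivial
      obtain ⟨z, hz⟩ := exists_ne (1 : center R)
      have h5 := isIrr_central_mul_conj hirr z.2
      have h6 := Deg2.mem_center_of_normSq hc hfaith h5
      rw [center_eq_bot_of_simple hnc, mem_bot] at h6
      exact hz (Subtype.ext (Subtype.ext h6))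
    · intro a b
      have h3 : a * b * a⁻¹ * b⁻¹ = 1 := by
        apply eq_one_of_forall_constituent_lt hψ hψf (n := r) h1 hirr
        intro ξ d hξ hd hdr
        have hd' : charDegree ξ = d := by
          have := isChar_one_eq (isIrr_isChar hξ)
          rw [hd] at this
          exact_mod_cast this.symm
        have hdv : d ∣ r ^ k := by
          rw [← hk, ← hd']; exact isIrr_charDegree_dvd_card hξ
        obtain ⟨j, -, hj⟩ := (Nat.dvd_prime_pow hr).1 hdv
        have hj0 : j = 0 := by
          by_contra hne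
          have : r ≤ r ^ j := Nat.le_self_pow hne r
          omega
        rw [hj0, pow_zero] at hj
        subst hj
        obtain ⟨f, rfl⟩ := exists_hom_of_linear ξ ⟨isIrr_isChar hξ, by simpa using hd⟩
        simp only [homFun_apply, map_mul, map_inv, map_one]
        rw [mul_comm (f a) (f b), mul_inv_cancel_right, mul_inv_cancel]
      have h5 : a * b * a⁻¹ * b⁻¹ * b * a = 1 * b * a := by rw [h3]
      simpa using h5
  have hvan : ∀ y ∈ (R : Subgroup S), y ≠ 1 → (χ : S → ℂ) y = 0 := by
    intro y hy hy1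
    apply vanish_of_coprime_simple hnc χ hχ y hy1
    rw [hdeg, Nat.Prime.coprime_iff_not_dvd hr]
    have hle : (R : Subgroup S) ≤ centralizer ({y} : Set S) := by
      intro x hx
      rw [mem_centralizer_singleton_iff]
      exact congrArg Subtype.val (hRab ⟨x, hx⟩ ⟨y, hy⟩)
    exact fun hd => R.not_dvd_index (hd.trans (index_dvd_of_le hle))
  have hdv := card_dvd_of_vanish hc (R : Subgroup S) hvan
  rw [hdeg, R.card_eq_multiplicity] at hdv
  intro hsq
  have h2 : 2 ≤ (Nat.card S).factorization r :=
    (hr.pow_dvd_iff_le_factorization Nat.card_pos.ne').1 hsq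
  have h3 : r ^ 2 ∣ r := (pow_dvd_pow r h2).trans hdv
  have h4 := Nat.le_of_dvd hr.pos h3
  have h5 := hr.two_le
  nlinarith

/-- characters of degree `r` vanish on elements of order `r` -/
theorem vanish_of_orderOf (hnc : ¬ ∀ a b : S, a * b = b * a) (χ : IrrCharacter S)
    (hχ : χ ≠ oneIrr S) {r : ℕ} (hr : r.Prime) (hdeg : charDegree (χ : S → ℂ) = r) (x : S)
    (hx : orderOf x = r) : (χ : S → ℂ) x = 0 := by
  have hx1 : x ≠ 1 := by
    rintro rfl
    rw [orderOf_one] at hx
    exact hr.one_lt.ne hx
  apply vanish_of_coprime_simple hnc χ hχ x hx1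
  rw [hdeg, Nat.Prime.coprime_iff_not_dvd hr]
  intro hd
  apply not_sq_dvd_of_degree hnc χ hχ hr hdeg
  have h1 : r ∣ Nat.card (centralizer ({x} : Set S)) := by
    have hmem : x ∈ centralizer ({x} : Set S) := by rw [mem_centralizer_singleton_iff]
    have h2 : orderOf (⟨x, hmem⟩ : centralizer ({x} : Set S)) = r := by
      rw [← hx]; exact Subgroup.orderOf_mk x hmem
    rw [← h2]
    exact orderOf_dvd_natCard _
  rw [← (centralizer ({x} : Set S)).card_mul_index, sq]
  exact Nat.mul_dvd_mul h1 hd

/-- a simple group of even order not divisible by 4 is abelian -/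
theorem comm_of_simple_of_two (h2 : 2 ∣ Nat.card S) (h4 : ¬ 2 ^ 2 ∣ Nat.card S) :
    ∀ a b : S, a * b = b * a := by
  have : Fact (Nat.Prime 2) := ⟨Nat.prime_two⟩
  obtain ⟨P⟩ : Nonempty (Sylow 2 S) := inferInstance
  have hfac : (Nat.card S).factorization 2 = 1 := by
    have h5 : 1 ≤ (Nat.card S).factorization 2 :=
      (Nat.prime_two.pow_dvd_iff_le_factorization Nat.card_pos.ne').1 (by simpa using h2)
    have h6 : ¬ 2 ≤ (Nat.card S).factorization 2 := fun h =>
      h4 ((Nat.prime_two.pow_dvd_iff_le_factorization Nat.card_pos.ne').2 h)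
    omega
  have hcard : Nat.card P = 2 := by
    rw [P.card_eq_multiplicity, hfac, pow_one]
  have hcyc : IsCyclic P := isCyclic_of_prime_card hcard
  have hmin : (Nat.card S).minFac = 2 := (Nat.minFac_eq_two_iff _).2 h2
  have hP := IsCyclic.normalizer_le_centralizer hmin hcyc
  have hcompl := MonoidHom.ker_transferSylow_isComplement' P hP
  have hidx : (MonoidHom.transferSylow P hP).ker.index = 2 := by
    rw [hcompl.symm.index_eq_card, hcard]
  rcases (MonoidHom.normal_ker (MonoidHom.transferSylow P hP)).eq_bot_or_eq_top with h | h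
  · rw [h, index_bot] at hidx
    have : IsCyclic S := isCyclic_of_prime_card hidx
    intro a b
    exact (IsCyclic.isMulCommutative (α := S)).is_comm.comm a b
  · rw [h, index_top] at hidx
    omega

theorem false_of_simple_PD (hnc : ¬ ∀ a b : S, a * b = b * a) (h : PD S) : False := by
  classical
  have := Fintype.ofFinite S
  have := Cfsg.Agent.Lib.Helper20.finite_irrCharacter (G := S)
  have := Fintype.ofFinite (IrrCharacter S)
  have hone : charDegree ((oneIrr S : IrrCharacter S) : S → ℂ) = 1 := by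
    simp [oneIrr, charDegree]
  have hex : ∃ χ : IrrCharacter S, χ ≠ oneIrr S := by
    by_contra hcon
    push Not at hcon
    apply hnc
    apply Helper5.comm_of_all_linear
    intro χ
    rw [hcon χ, hone]
  have hexd : ∃ d : ℕ, ∃ χ : IrrCharacter S, χ ≠ oneIrr S ∧ charDegree (χ : S → ℂ) = d := by
    obtain ⟨χ, hχ⟩ := hex
    exact ⟨_, χ, hχ, rfl⟩
  obtain ⟨χ₀, hχ₀, hp₀⟩ := Nat.find_spec hexd
  set p := Nat.find hexd with hpdef
  have hmin : ∀ χ : IrrCharacter S, χ ≠ oneIrr S → p ≤ charDegree (χ : S → ℂ) :=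
    fun χ hχ => Nat.find_min' hexd ⟨χ, hχ, rfl⟩
  have hprime : ∀ χ : IrrCharacter S, χ ≠ oneIrr S → (charDegree (χ : S → ℂ)).Prime :=
    fun χ hχ => h χ (degree_ne_one_of_simple hnc χ hχ)
  have hp : p.Prime := hp₀ ▸ hprime χ₀ hχ₀
  have hdvd : ∀ χ : IrrCharacter S, charDegree (χ : S → ℂ) ∣ Nat.card S :=
    fun χ => isIrr_charDegree_dvd_card χ.2
  have hp2 : p ≠ 2 := by
    intro h2
    apply hnc
    apply comm_of_simple_of_two
    · rw [← h2, ← hp₀]; exact hdvd χ₀
    · exact not_sq_dvd_of_degree hnc χ₀ hχ₀ Nat.prime_two (by rw [hp₀, h2])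
  obtain ⟨A, hAab, hAπ, hAidx⟩ := Cfsg.Agent.S4465.result (χ₀ : S → ℂ) (isIrr_isChar χ₀.2)
    (faithful_of_simple χ₀ hχ₀) p hp₀
  have hq : ∀ χ : IrrCharacter S, χ ≠ oneIrr S → charDegree (χ : S → ℂ) ≠ p →
      charDegree (χ : S → ℂ) = Nat.card A := by
    intro χ hχ hne
    have hqp := hprime χ hχ
    set q := charDegree (χ : S → ℂ) with hqdef
    have hlt : p + 1 < q := by
      have h1 := hmin χ hχ
      have h2 : q ≠ p + 1 := by
        intro h3
        rcases hp.eq_two_or_odd' with h4 | h4
        · exact hp2 h4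
        · have h5 : Even q := by rw [h3]; exact h4.add_one
          have h6 := (Nat.Prime.even_iff hqp).1 h5
          have := hp.two_le
          omega
      omega
    have hnidx : ¬ q ∣ A.index := fun hd => by
      have := hAidx q hqp hd
      omega
    have hqA : q ∣ Nat.card A := by
      have h1 : q ∣ Nat.card A * A.index := by rw [A.card_mul_index]; exact hdvd χ
      exact (hqp.dvd_mul.1 h1).resolve_right hnidx
    have hvan : ∀ y ∈ A, y ≠ 1 → (χ : S → ℂ) y = 0 := by
      intro y hy hy1
      apply vanish_of_coprime_simple hnc χ hχ y hy1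
      rw [← hqdef, Nat.Prime.coprime_iff_not_dvd hqp]
      have hle : A ≤ centralizer ({y} : Set S) := by
        intro x hx
        rw [mem_centralizer_singleton_iff]
        exact hAab x hx y hy
      exact fun hd => hnidx (hd.trans (index_dvd_of_le hle))
    have hAq := card_dvd_of_vanish (isIrr_isChar χ.2) A hvan
    exact Nat.dvd_antisymm hqA hAq
  obtain ⟨q, hqprime, ⟨ψ, hψ, hψq⟩, hall⟩ : ∃ q : ℕ, q.Prime ∧
      (∃ ψ : IrrCharacter S, ψ ≠ oneIrr S ∧ charDegree (ψ : S → ℂ) = q) ∧
      ∀ χ : IrrCharacter S, χ ≠ oneIrr S → charDegree (χ : S → ℂ) = p ∨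
        charDegree (χ : S → ℂ) = q := by
    by_cases hother : ∃ χ : IrrCharacter S, χ ≠ oneIrr S ∧ charDegree (χ : S → ℂ) ≠ p
    · obtain ⟨ψ, hψ, hψp⟩ := hother
      refine ⟨_, hprime ψ hψ, ⟨ψ, hψ, rfl⟩, ?_⟩
      intro χ hχ
      by_cases hχp : charDegree (χ : S → ℂ) = p
      · exact Or.inl hχp
      · right
        rw [hq χ hχ hχp, hq ψ hψ hψp]
    · push Not at hother
      exact ⟨p, hp, ⟨χ₀, hχ₀, hp₀⟩, fun χ hχ => Or.inl (hother χ hχ)⟩
  have : Fact q.Prime := ⟨hqprime⟩
  obtain ⟨x, hx⟩ := exists_prime_orderOf_dvd_card' q (hψq ▸ hdvd ψ)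
  have hx1 : x ≠ 1 := by
    rintro rfl
    rw [orderOf_one] at hx
    exact hqprime.one_lt.ne hx
  have horth := finsum_irr_mul_one (g := x) hx1
  rw [finsum_eq_sum_of_fintype, ← Finset.add_sum_erase Finset.univ _ (Finset.mem_univ (oneIrr S))]
    at horth
  have hB : ∑ χ ∈ Finset.univ.erase (oneIrr S), (χ : S → ℂ) x * (χ : S → ℂ) 1 =
      (p : ℂ) * ∑ χ ∈ Finset.univ.erase (oneIrr S),
        (if charDegree (χ : S → ℂ) = q then 0 else (χ : S → ℂ) x) := by
    rw [Finset.mul_sum]
    apply Finset.sum_congr rfl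
    intro χ hχ
    have hχ1 := Finset.ne_of_mem_erase hχ
    by_cases hχq : charDegree (χ : S → ℂ) = q
    · rw [if_pos hχq, vanish_of_orderOf hnc χ hχ1 hqprime hχq x hx]; simp
    · rw [if_neg hχq, isChar_one_eq (isIrr_isChar χ.2), (hall χ hχ1).resolve_right hχq]
      ring
  have hint : IsIntegral ℤ (∑ χ ∈ Finset.univ.erase (oneIrr S),
      (if charDegree (χ : S → ℂ) = q then 0 else (χ : S → ℂ) x)) := by
    apply IsIntegral.sum
    intro χ _
    split_ifs
    · exact isIntegral_zero
    · exact isCharacter_isIntegral (isIrr_isChar χ.2) x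
  rw [hB] at horth
  have h1 : ((1 : ℕ) : ℂ) = (p : ℂ) * (-∑ χ ∈ Finset.univ.erase (oneIrr S),
      (if charDegree (χ : S → ℂ) = q then 0 else (χ : S → ℂ) x)) := by
    have h2 : ((oneIrr S : IrrCharacter S) : S → ℂ) x * ((oneIrr S : IrrCharacter S) : S → ℂ) 1 = 1 := by
      simp [oneIrr]
    rw [h2] at horth
    push_cast
    linear_combination horth
  have := nat_dvd_of_isIntegral hint.neg h1 hp.ne_zero
  exact hp.one_lt.ne' (Nat.dvd_one.1 this)

end simple

theorem PD.of_normal {G : Type*} [Group G] [Finite G] (h : PD G) (N : Subgroup G) [N.Normal] :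
    PD N := by
  intro θ hθ
  obtain ⟨χ, hχ⟩ := Helper5.exists_irr_over_dvd N θ
  by_cases h1 : charDegree (χ : G → ℂ) = 1
  · rw [h1] at hχ
    exact absurd (Nat.dvd_one.1 hχ) hθ
  · rcases (Nat.dvd_prime (h χ h1)).1 hχ with h2 | h2
    · exact absurd h2 hθ
    · rw [h2]; exact h χ h1

theorem PD.quotient {G : Type*} [Group G] [Finite G] (h : PD G) (N : Subgroup G) [N.Normal] :
    PD (G ⧸ N) := by
  intro ψ hψ
  obtain ⟨χ, hχ, -⟩ := Helper5.exists_irr_inflate N ψ
  rw [← hχ] at hψ ⊢
  exact h χ hψ

/-- **Isaacs–Passman**: if all nonlinear irreducible characters have prime degree, the group is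
solvable. -/
theorem isSolvable_of_PD : ∀ (n : ℕ) (G : Type u) [Group G] [Finite G], Nat.card G = n → PD G →
    Group.IsSolvable G := by
  intro n
  induction n using Nat.strong_induction_on with
  | _ n ih =>
    intro G _ _ hn h
    by_cases hex : ∃ N : Subgroup G, N.Normal ∧ N ≠ ⊥ ∧ N ≠ ⊤
    · obtain ⟨N, hNn, hbot, htop⟩ := hex
      have h1 : Nat.card N < n := by
        rw [← hn]
        by_contra hcon
        exact htop (Subgroup.eq_top_of_le_card N (by omega))
      have h2 : Nat.card (G ⧸ N) < n := by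
        rw [← hn, ← N.card_mul_index, ← Subgroup.index_eq_card]
        have h3 : Nat.card N ≠ 1 := fun h => hbot (card_eq_one.1 h)
        have h4 : 0 < Nat.card N := Nat.card_pos
        have h5 : 0 < N.index := Nat.pos_of_ne_zero FiniteIndex.index_ne_zero
        have h6 : 2 ≤ Nat.card N := by omega
        nlinarith
      have s1 := ih _ h1 N rfl (h.of_normal N)
      have s2 := ih _ h2 (G ⧸ N) rfl (h.quotient N)
      exact Group.isSolvable_of_ker_le_range N.subtype (QuotientGroup.mk' N)
        (by rw [QuotientGroup.ker_mk', Subgroup.range_subtype])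
    · push Not at hex
      by_cases hnt : Nontrivial G
      · have : IsSimpleGroup G :=
          { exists_pair_ne := hnt.exists_pair_ne
            eq_bot_or_eq_top_of_normal := fun N hN => by
              by_cases hb : N = ⊥
              · exact Or.inl hb
              · exact Or.inr (hex N hN hb) }
        by_cases hc : ∀ a b : G, a * b = b * a
        · exact Group.isSolvable_of_comm hc
        · exact (false_of_simple_PD hc h).elim
      · rw [not_nontrivial_iff_subsingleton] at hnt
        exact Group.isSolvable_of_comm (fun a b => Subsingleton.elim _ _)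

end Cfsg.Agent.Lib.Helper19
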