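import Mathlib
import Cfsg.Agent.Lib.Helper83.Star.Base
import Cfsg.Agent.Lib.Helper83.Star.CH
import Cfsg.Agent.Lib.Helper83.Star.PROJV
import Cfsg.Agent.Lib.Helper83.Star.LDI
import Cfsg.Agent.Lib.Helper83.Star.PK
import Cfsg.Agent.Lib.Helper20.CharColumn
import Cfsg.Agent.Lib.Helper4.CharBasic
import Cfsg.Agent.Lib.Helper4.CharDecomp

/-! Projective characters attached to idempotents of the group algebra over the local ring:
`Phi hM i g = ∑ x, i (x g x⁻¹)`.  For an idempotent `i` this is a character of `G` vanishing on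
`p`-singular elements.  Two idempotents of augmentation `1` have a common "summand". -/

set_option autoImplicit false
set_option linter.unusedSectionVars false

namespace Cfsg.Agent.Lib.Helper19.ProjChar

open scoped BigOperators ComplexConjugate
open Cfsg Cfsg.Agent.Lib.Helper80 Cfsg.Agent.Lib.Helper80.GA Cfsg.Agent.Lib.Helper81
  Cfsg.Agent.Lib.Helper83.Star

variable {p : ℕ} [Fact p.Prime] {M : Ideal AlgInt} {G : Type*} [Group G] [Fintype G]

/-- the class function attached to an element of `𝒪G` -/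
noncomputable def Phi (hM : IsPModular p M) (a : GA (locRing hM) G) : G → ℂ :=
  fun g => ∑ x : G, ((a (x * g * x⁻¹) : locRing hM) : ℂ)

theorem Phi_apply (hM : IsPModular p M) (a : GA (locRing hM) G) (g : G) :
    Phi hM a g = ∑ x : G, ((a (x * g * x⁻¹) : locRing hM) : ℂ) := rfl

theorem Phi_add (hM : IsPModular p M) (a b : GA (locRing hM) G) :
    Phi hM (a + b) = Phi hM a + Phi hM b := by
  funext g
  simp only [Phi_apply, Pi.add_apply, GA.add_apply]
  push_cast
  rw [Finset.sum_add_distrib]

theorem Phi_isClassFunction (hM : IsPModular p M) (a : GA (locRing hM) G) :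
    IsClassFunction G (Phi hM a) := by
  intro g h
  rw [Phi_apply, Phi_apply]
  refine Fintype.sum_equiv (Equiv.mulRight h) _ _ (fun x => ?_)
  simp only [Equiv.coe_mulRight]
  congr 2
  group

/-- number of `x` with `x g x⁻¹ = h` -/
noncomputable def cnt (g h : G) : ℂ := by
  classical exact ∑ x : G, if x * g * x⁻¹ = h then 1 else 0

theorem cnt_isClassFunction (g : G) : IsClassFunction G (cnt g) := by
  classical
  intro h y
  unfold cnt
  refine Fintype.sum_equiv (Equiv.mulLeft y⁻¹) _ _ (fun x => ?_)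
  simp only [Equiv.coe_mulLeft]
  have : (x * g * x⁻¹ = y * h * y⁻¹) ↔ (y⁻¹ * x * g * (y⁻¹ * x)⁻¹ = h) := by
    constructor
    · intro e
      calc y⁻¹ * x * g * (y⁻¹ * x)⁻¹ = y⁻¹ * (x * g * x⁻¹) * y := by group
        _ = h := by rw [e]; group
    · intro e
      rw [← e]; group
  simp only [this]
  congr

theorem Phi_eq_ev (hM : IsPModular p M) (a : GA (locRing hM) G) (g : G) :
    Phi hM a g = ev hM (cnt g) a := by
  classical
  unfold ev cnt
  simp only [Finset.mul_sum, mul_ite, mul_one, mul_zero]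
  rw [Finset.sum_comm, Phi_apply]
  refine Finset.sum_congr rfl (fun x _ => ?_)
  rw [Finset.sum_ite_eq]
  simp

theorem Phi_mul_comm (hM : IsPModular p M) (a b : GA (locRing hM) G) :
    Phi hM (a * b) = Phi hM (b * a) := by
  funext g
  rw [Phi_eq_ev, Phi_eq_ev, ev_mul_comm hM _ (cnt_isClassFunction g)]

theorem classInner_Phi (hM : IsPModular p M) (a : GA (locRing hM) G) {τ : G → ℂ}
    (hτ : IsClassFunction G τ) :
    classInner (Phi hM a) τ = ev hM (fun g => conj (τ g)) a := by
  classical
  have hcard : (Nat.card G : ℂ) ≠ 0 := by exact_mod_cast Nat.card_pos.ne'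
  unfold classInner
  rw [inv_mul_eq_iff_eq_mul₀ hcard]
  have h1 : ∀ x : G, ev hM (fun g => conj (τ g)) a
      = ∑ g : G, ((a (x * g * x⁻¹) : locRing hM) : ℂ) * conj (τ g) := by
    intro x
    unfold ev
    refine (Fintype.sum_equiv (MulAut.conj x).toEquiv _ _ (fun g => ?_)).symm
    simp only [MulEquiv.toEquiv_eq_coe, EquivLike.coe_coe, MulAut.conj_apply]
    rw [hτ]
  calc ∑ g : G, Phi hM a g * conj (τ g)
      = ∑ g : G, ∑ x : G, ((a (x * g * x⁻¹) : locRing hM) : ℂ) * conj (τ g) := by
        refine Finset.sum_congr rfl (fun g _ => ?_)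
        rw [Phi_apply, Finset.sum_mul]
    _ = ∑ x : G, ∑ g : G, ((a (x * g * x⁻¹) : locRing hM) : ℂ) * conj (τ g) := Finset.sum_comm
    _ = ∑ _x : G, ev hM (fun g => conj (τ g)) a :=
        Finset.sum_congr rfl (fun x _ => (h1 x).symm)
    _ = (Nat.card G : ℂ) * ev hM (fun g => conj (τ g)) a := by
        rw [Finset.sum_const, Finset.card_univ, nsmul_eq_mul, Nat.card_eq_fintype_card]

/-- the value of a character at an idempotent is a natural number -/
theorem ev_idem_nat (hM : IsPModular p M) {i : GA (locRing hM) G} (hi : i * i = i) {χ : G → ℂ}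
    (hχ : IsCharacter G χ) : ∃ n : ℕ, ev hM χ i = n := by
  have hfix : FixBy (⊥ : Subgroup G) i := by
    intro x hx
    rw [Subgroup.mem_bot] at hx
    subst hx
    exact GA.one_cj i
  have h := isCharacter_tw hM hχ hfix hi
  obtain ⟨n, hn⟩ := Cfsg.Agent.Lib.Helper4.char_apply_one h
  refine ⟨n, ?_⟩
  rw [← hn]
  unfold tw
  simp [GA.of_one]

theorem Phi_isCharacter (hM : IsPModular p M) {i : GA (locRing hM) G} (hi : i * i = i) :
    IsCharacter G (Phi hM i) := by
  classical
  have : Finite (IrrCharacter G) := Cfsg.Agent.Lib.Helper4.finite_irrCharacter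
  have : Fintype (IrrCharacter G) := Fintype.ofFinite _
  rw [Cfsg.Agent.Lib.Helper20.eq_sum_classInner_smul (Phi_isClassFunction hM i)]
  apply Cfsg.Agent.Lib.Helper4.isCharacter_sum
  intro χ _
  have hχ : IsCharacter G (χ : G → ℂ) := Cfsg.Agent.Lib.Helper4.isCharacter_of_irr χ.2
  rw [classInner_Phi hM i (Cfsg.Agent.Lib.Helper4.isClassFunction_of_char hχ)]
  obtain ⟨n, hn⟩ := ev_idem_nat hM hi (Cfsg.Agent.Lib.Helper4.isCharacter_conj hχ)
  have : ev hM (fun g => conj ((χ : G → ℂ) g)) i = n := hn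
  rw [this]
  exact Cfsg.Agent.Lib.Helper4.isCharacter_natCast_smul hχ n

theorem Phi_eq_zero_of_sing (hM : IsPModular p M) {i : GA (locRing hM) G} (hi : i * i = i)
    {g : G} (hg : p ∣ orderOf g) : Phi hM i g = 0 := by
  classical
  have h := sum_conj_idem_eq_zero hM (H := ⊤) (suppOn_top i) hi (Subgroup.mem_top g) hg
  rw [Phi_apply, ← h]
  refine Finset.sum_congr rfl (fun x _ => ?_)
  rw [if_pos (Subgroup.mem_top x)]

/-- augmentation -/
theorem classInner_Phi_one (hM : IsPModular p M) (a : GA (locRing hM) G) :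
    classInner (Phi hM a) (fun _ => 1) = ∑ g : G, ((a g : locRing hM) : ℂ) := by
  rw [classInner_Phi hM a (fun _ _ => rfl)]
  unfold ev
  simp

/-- the augmentation (complex valued) -/
noncomputable def aug (hM : IsPModular p M) (a : GA (locRing hM) G) : ℂ :=
  ∑ g : G, ((a g : locRing hM) : ℂ)

theorem aug_add (hM : IsPModular p M) (a b : GA (locRing hM) G) :
    aug hM (a + b) = aug hM a + aug hM b := by
  unfold aug
  rw [← Finset.sum_add_distrib]
  refine Finset.sum_congr rfl (fun g _ => ?_)
  rw [GA.add_apply]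
  push_cast
  rfl

theorem aug_neg (hM : IsPModular p M) (a : GA (locRing hM) G) :
    aug hM (-a) = - aug hM a := by
  unfold aug
  rw [← Finset.sum_neg_distrib]
  refine Finset.sum_congr rfl (fun g _ => ?_)
  rw [GA.neg_apply]
  push_cast
  rfl

theorem aug_mul (hM : IsPModular p M) (a b : GA (locRing hM) G) :
    aug hM (a * b) = aug hM a * aug hM b := by
  unfold aug
  have h1 : ∀ g : G, (((a * b) g : locRing hM) : ℂ)
      = ∑ x : G, ((a x : locRing hM) : ℂ) * ((b (x⁻¹ * g) : locRing hM) : ℂ) := by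
    intro g
    rw [GA.mul_apply]
    push_cast
    rfl
  simp only [h1]
  rw [Finset.sum_comm, Finset.sum_mul_sum]
  refine Finset.sum_congr rfl (fun x _ => ?_)
  rw [← Finset.mul_sum, ← Finset.mul_sum]
  congr 1
  exact Fintype.sum_equiv (Equiv.mulLeft x⁻¹) _ _ (fun g => rfl)

theorem aug_mem (hM : IsPModular p M) (a : GA (locRing hM) G) : MemLocalRing M (aug hM a) :=
  memLocalRing_sum hM _ _ (fun g _ => (a g).2)

theorem classInner_Phi_one' (hM : IsPModular p M) (a : GA (locRing hM) G) :
    classInner (Phi hM a) (fun _ => 1) = aug hM a := classInner_Phi_one hM a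

end Cfsg.Agent.Lib.Helper19.ProjChar
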