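import Mathlib
import Cfsg.Agent.Lib.Helper19.ProjChar
import Cfsg.Agent.Lib.Helper81.StarLD

/-! Common projective summand of two idempotents of augmentation one. -/

set_option autoImplicit false
set_option linter.unusedSectionVars false

namespace Cfsg.Agent.Lib.Helper19.ProjChar

open scoped BigOperators ComplexConjugate
open Cfsg Cfsg.Agent.Lib.Helper80 Cfsg.Agent.Lib.Helper80.GA Cfsg.Agent.Lib.Helper81
  Cfsg.Agent.Lib.Helper83.Star

/-- `Helper81.LD.equiv_mod` (same proof), also recording that the two equivalent parts are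
idempotents. -/
theorem equiv_mod_idem {A : Type*} [Ring A] {D : LD A} {K : A → Prop} (K_add : ∀ {a b : A}, K a → K b → K (a + b))
    (K_neg : ∀ {a : A}, K a → K (-a)) (K_left : ∀ {a b : A}, b ∈ D.S → K a → K (b * a))
    (K_right : ∀ {a b : A}, b ∈ D.S → K a → K (a * b)) (K_sm : ∀ {a : A}, D.sm a → K a)
    {i j : A} (hi : i ∈ D.S) (hj : j ∈ D.S) (hii : i * i = i) (hjj : j * j = j) (hK : K (i - j)) :
    ∃ j₁ j₂ i₁ i₂ a b : A, j₁ ∈ D.S ∧ j₂ ∈ D.S ∧ i₁ ∈ D.S ∧ i₂ ∈ D.S ∧ a ∈ D.S ∧ b ∈ D.S ∧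
      j = j₁ + j₂ ∧ i = i₁ + i₂ ∧ j₂ * j₂ = j₂ ∧ i₂ * i₂ = i₂ ∧ j₁ = a * b ∧ i₁ = b * a ∧
      K j₂ ∧ K i₂ ∧ j₁ * j₁ = j₁ ∧ i₁ * i₁ = i₁ := by
  have K_sub : ∀ {a b : A}, K a → K b → K (a - b) := fun ha hb => by
    rw [sub_eq_add_neg]; exact K_add ha (K_neg hb)
  set g := j * i * j with hg
  have hgS : g ∈ D.S := D.S.mul_mem (D.S.mul_mem hj hi) hj
  have hgj : K (g - j) := by
    have : g - j = j * (i - j) * j := by
      rw [hg, mul_sub, sub_mul, hjj, hjj]
    rw [this]; exact K_right hj (K_left hj hK)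
  obtain ⟨ε, hε, c, hc, n, h1, h2, h3, h4, h5, h6⟩ := D.fit g hgS
  have hjg : j * g = g := by rw [hg, ← mul_assoc, ← mul_assoc, hjj]
  have hgj' : g * j = g := by rw [hg, mul_assoc, hjj]
  have h5' : c * ε * g = ε := by
    calc c * ε * g = c * (ε * g) := mul_assoc c ε g
      _ = c * (g * ε) := by rw [h2]
      _ = (c * g) * ε := (mul_assoc c g ε).symm
      _ = ε := by rw [← h3, h5]
  have hεl : j * ε = ε := by rw [← h5, ← mul_assoc, ← mul_assoc, hjg]
  have hεr : ε * j = ε := by rw [← h5', mul_assoc, hgj']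
  have h1ε : (1 - ε) ∈ D.S := D.S.sub_mem D.S.one_mem hε
  -- `K (j - ε)`
  have hKpow : ∀ k : ℕ, K (g ^ (k + 1) - j) := by
    intro k
    induction k with
    | zero => simpa using hgj
    | succ k ih =>
      have : g ^ (k + 1 + 1) - j = (g ^ (k + 1) - j) * g + (g - j) := by
        rw [_root_.pow_succ g (k + 1), sub_mul, hjg]; abel
      rw [this]; exact K_add (K_right hgS ih) hgj
  have hKj2 : K (j - ε) := by
    have h7 : D.sm (g ^ (n + 1) * (1 - ε)) := by
      rw [_root_.pow_succ', mul_assoc]; exact D.sm_mul_left hgS h6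
    have : j - ε = g ^ (n + 1) * (1 - ε) - (g ^ (n + 1) - j) * (1 - ε) := by
      rw [sub_mul (g ^ (n + 1)), mul_sub j, mul_one, hεl]; abel
    rw [this]
    exact K_sub (K_sm h7) (K_right h1ε (hKpow n))
  set a := ε * c * j * i with ha
  set b := i * j * ε with hb
  have hab : a * b = ε := by
    calc a * b = ε * c * (j * (i * i) * j) * ε := by rw [ha, hb]; noncomm_ring
      _ = ε * c * g * ε := by rw [hii]
      _ = ε * (c * g * ε) := by noncomm_ring
      _ = ε := by rw [← h3, h5, h1]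
  have haS : a ∈ D.S := D.S.mul_mem (D.S.mul_mem (D.S.mul_mem hε hc) hj) hi
  have hbS : b ∈ D.S := D.S.mul_mem (D.S.mul_mem hi hj) hε
  have hεa : ε * a = a := by rw [ha, ← mul_assoc, ← mul_assoc, ← mul_assoc, h1]
  have hbaidem : (b * a) * (b * a) = b * a := by
    calc (b * a) * (b * a) = b * (a * b) * a := by noncomm_ring
      _ = b * a := by rw [hab, mul_assoc, hεa]
  have hiba : i * (b * a) = b * a := by rw [hb]; simp only [← mul_assoc, hii]
  have hbai : (b * a) * i = b * a := by rw [ha]; simp only [mul_assoc, hii]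
  -- `K (i - b a)`
  have hKi2 : K (i - b * a) := by
    -- `b a = i j ε c j i`, and `ε ≡ j`, `j c j ≡ ... `
    have hKε : K (ε - j) := by
      have := K_neg hKj2; rwa [neg_sub] at this
    -- `ε = g c ε`, so `ε c j`-type expressions: use `b a = i (j ε c j) i` and `j ε c j = ε c`
    have e1 : b * a = i * (ε * c) * i := by
      calc b * a = i * (j * (ε * ε)) * c * j * i := by rw [ha, hb]; noncomm_ring
        _ = i * ε * c * j * i := by rw [h1, hεl]
        _ = i * (c * (ε * j)) * i := by rw [mul_assoc i ε c, ← h4]; noncomm_ring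
        _ = i * (ε * c) * i := by rw [hεr, h4]
    -- `ε c ≡ j` : `ε = g c ε = g (ε c)`, and `g ≡ j`, `j (ε c) = ε c`
    have e2 : K (ε * c - j) := by
      have x1 : ε = g * (ε * c) := by rw [← h4, ← mul_assoc, h5]
      have x2 : ε * c - j = -((g - j) * (ε * c)) + (ε - j) := by
        rw [sub_mul, ← x1, ← mul_assoc, hεl]; abel
      rw [x2]
      exact K_add (K_neg (K_right (D.S.mul_mem hε hc) hgj)) hKε
    have e3 : i - b * a = -(i * (ε * c - j) * i) - i * (j - i) * i := by
      rw [e1, mul_sub, sub_mul, mul_sub i j i, sub_mul (i * j), hii, hii]; abel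
    rw [e3]
    have hK' : K (j - i) := by have := K_neg hK; rwa [neg_sub] at this
    exact K_sub (K_neg (K_right hi (K_left hi e2))) (K_right hi (K_left hi hK'))
  refine ⟨ε, j - ε, b * a, i - b * a, a, b, hε, D.S.sub_mem hj hε, D.S.mul_mem hbS haS,
    D.S.sub_mem hi (D.S.mul_mem hbS haS), haS, hbS, by abel, by abel, ?_, ?_, hab.symm, rfl,
    hKj2, hKi2, h1, hbaidem⟩
  · rw [mul_sub, sub_mul, sub_mul, hjj, hεl, hεr, h1]; abel
  · rw [mul_sub, sub_mul, sub_mul, hii, hiba, hbai, hbaidem]; abel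

variable {p : ℕ} [Fact p.Prime] {M : Ideal AlgInt} {G : Type*} [Group G] [Fintype G]

theorem not_memLocalIdeal_one (hM : IsPModular p M) : ¬ MemLocalIdeal M (1 : ℂ) := by
  intro h
  have h1 : (1 : locRing hM) ∈ locIdeal hM := (mem_locIdeal hM).2 (by simpa using h)
  exact (Ideal.ne_top_iff_one _).1 (locIdeal_ne_top hM) h1

theorem exists_common (hM : IsPModular p M) {i j : GA (locRing hM) G} (hi : i * i = i)
    (hj : j * j = j) (hai : aug hM i = 1) (haj : aug hM j = 1) :
    ∃ Φ Ξi Ξj : G → ℂ, IsCharacter G Φ ∧ IsCharacter G Ξi ∧ IsCharacter G Ξj ∧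
      Phi hM i = Φ + Ξi ∧ Phi hM j = Φ + Ξj ∧ (∀ g, p ∣ orderOf g → Φ g = 0) ∧
      classInner Φ (fun _ => 1) = 1 := by
  classical
  obtain ⟨D, hDS, hDsm⟩ := exists_ldO hM (⊤ : Subgroup G) (⊥ : Subgroup G)
  have hmem : ∀ a : GA (locRing hM) G, a ∈ D.S := by
    intro a
    rw [hDS, mem_sfRing]
    refine ⟨suppOn_top a, ?_⟩
    intro x hx
    rw [Subgroup.mem_bot] at hx
    subst hx
    exact GA.one_cj a
  obtain ⟨j₁, j₂, i₁, i₂, a, b, -, -, -, -, -, -, hjs, his, hj2, hi2, hj1, hi1, hKj, hKi, hj11, hi11⟩ :=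
    equiv_mod_idem (D := D) (K := fun a => MemLocalIdeal M (aug hM a))
      (fun {a b} ha hb => by rw [aug_add]; exact memLocalIdeal_add hM ha hb)
      (fun {a} ha => by rw [aug_neg]; exact memLocalIdeal_neg ha)
      (fun {a b} _ ha => by rw [aug_mul]; exact memLocalIdeal_mul_left hM (aug_mem hM b) ha)
      (fun {a b} _ ha => by rw [aug_mul]; exact memLocalIdeal_mul_right hM ha (aug_mem hM b))
      (fun {a} ha => by
        rw [hDsm] at ha
        refine memLocalIdeal_sum hM _ _ (fun g _ => ?_)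
        have h1 : redO hM a g = 0 := by rw [ha]; rfl
        rw [redO_apply, resR_eq_zero_iff] at h1
        exact h1)
      (hmem i) (hmem j) hi hj
      (by
        have : aug hM (i - j) = 0 := by
          rw [sub_eq_add_neg, aug_add, aug_neg, hai, haj]; ring
        rw [this]
        exact memLocalIdeal_zero hM)
  have haug2 : aug hM j₂ = 0 := by
    have h1 : aug hM j₂ * aug hM j₂ = aug hM j₂ := by rw [← aug_mul, hj2]
    have h2 : aug hM j₂ * (aug hM j₂ - 1) = 0 := by rw [mul_sub, h1]; ring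
    rcases mul_eq_zero.1 h2 with h | h
    · exact h
    · exfalso
      have h3 : aug hM j₂ = 1 := by linear_combination h
      rw [h3] at hKj
      exact not_memLocalIdeal_one hM hKj
  refine ⟨Phi hM j₁, Phi hM i₂, Phi hM j₂, Phi_isCharacter hM hj11, Phi_isCharacter hM hi2,
    Phi_isCharacter hM hj2, ?_, ?_, fun g hg => Phi_eq_zero_of_sing hM hj11 hg, ?_⟩
  · rw [his, Phi_add, hi1, hj1, Phi_mul_comm]
  · rw [hjs, Phi_add]
  · rw [classInner_Phi_one']
    have : aug hM j = aug hM j₁ + aug hM j₂ := by rw [hjs, aug_add]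
    rw [haj, haug2, add_zero] at this
    exact this.symm

end Cfsg.Agent.Lib.Helper19.ProjChar
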