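import Mathlib
import Cfsg.Agent.Lib.Helper19.ProjCommon
import Cfsg.Agent.Lib.Helper19.IndFun
import Cfsg.Agent.Lib.Helper19.NormalKer
import Cfsg.Agent.Lib.Helper83.Star.BR
import Cfsg.Agent.Lib.Helper4.CharInner

/-! If `|G| = n₀ |Q| |R|` with `Q, R` `p'`-subgroups having no common nontrivial conjugate elements
and `G` has exactly `|Q| |R|` `p`-regular elements, these form a normal subgroup. -/

set_option autoImplicit false
set_option linter.unusedSectionVars false

namespace Cfsg.Agent.Lib.Helper19.ProjChar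

open scoped BigOperators ComplexConjugate
open Cfsg Cfsg.Agent.Lib.Helper80 Cfsg.Agent.Lib.Helper80.GA Cfsg.Agent.Lib.Helper81
  Cfsg.Agent.Lib.Helper83.Star Cfsg.Agent.Lib.Helper4

variable {p : ℕ} [Fact p.Prime] {M : Ideal AlgInt} {G : Type*} [Group G] [Fintype G]

/-- the idempotent of a `p'`-subgroup -/
theorem exists_subgroupIdem (hM : IsPModular p M) (K : Subgroup G) (hK : ¬ p ∣ Nat.card K) :
    ∃ j : GA (locRing hM) G, j * j = j ∧ aug hM j = 1 ∧
      Phi hM j 1 = (Nat.card G : ℂ) / (Nat.card K : ℂ) ∧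
      ∀ g, (∀ x : G, x * g * x⁻¹ ∉ K) → Phi hM j g = 0 := by
  classical
  obtain ⟨j, hj, hjj⟩ := exists_linIdem hM K 1 hK
  have hK0 : (Nat.card K : ℂ) ≠ 0 := by exact_mod_cast Nat.card_pos.ne'
  have hin : ∀ g ∈ K, ((j g : locRing hM) : ℂ) = (Nat.card K : ℂ)⁻¹ := by
    intro g hg
    rw [hj, Cfsg.Agent.Lib.Helper19.extendByZero_of_mem K _ hg]
    simp
  have hout : ∀ g ∉ K, ((j g : locRing hM) : ℂ) = 0 := by
    intro g hg
    rw [hj, Cfsg.Agent.Lib.Helper19.extendByZero_of_not_mem K _ hg, mul_zero]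
  refine ⟨j, hjj, ?_, ?_, ?_⟩
  · unfold aug
    have h1 : ∀ g : G, ((j g : locRing hM) : ℂ) = if g ∈ K then (Nat.card K : ℂ)⁻¹ else 0 := by
      intro g
      split_ifs with hg
      · exact hin g hg
      · exact hout g hg
    simp only [h1]
    rw [← Finset.sum_filter, Finset.sum_const, nsmul_eq_mul]
    have h2 : (Finset.univ.filter (fun g : G => g ∈ K)).card = Nat.card K := by
      rw [Nat.card_eq_fintype_card, Fintype.card_subtype]
    rw [h2, mul_inv_cancel₀ hK0]
  · rw [Phi_apply]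
    have : ∀ x : G, ((j (x * 1 * x⁻¹) : locRing hM) : ℂ) = (Nat.card K : ℂ)⁻¹ := by
      intro x
      apply hin
      simp [K.one_mem]
    simp only [this]
    rw [Finset.sum_const, Finset.card_univ, nsmul_eq_mul, ← Nat.card_eq_fintype_card,
      div_eq_mul_inv]
  · intro g hg
    rw [Phi_apply]
    exact Finset.sum_eq_zero (fun x _ => hout _ (hg x))

theorem normal_of_count (hM : IsPModular p M) (Q R : Subgroup G) (hQ : ¬ p ∣ Nat.card Q)
    (hR : ¬ p ∣ Nat.card R)
    (hQR : ∀ g x y : G, x * g * x⁻¹ ∈ Q → y * g * y⁻¹ ∈ R → g = 1) (n₀ : ℕ)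
    (hcard : Nat.card G = n₀ * Nat.card Q * Nat.card R)
    (hcount : Nat.card {g : G // ¬ p ∣ orderOf g} = Nat.card Q * Nat.card R) :
    ∃ N : Subgroup G, N.Normal ∧ ∀ g, g ∈ N ↔ ¬ p ∣ orderOf g := by
  classical
  have hG0 : (Nat.card G : ℂ) ≠ 0 := by exact_mod_cast Nat.card_pos.ne'
  have hQ0 : (Nat.card Q : ℂ) ≠ 0 := by exact_mod_cast Nat.card_pos.ne'
  have hR0 : (Nat.card R : ℂ) ≠ 0 := by exact_mod_cast Nat.card_pos.ne'
  have hn0 : n₀ ≠ 0 := by
    rintro rfl
    have : 0 < Nat.card G := Nat.card_pos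
    rw [hcard] at this
    simp at this
  have hn0' : (n₀ : ℂ) ≠ 0 := by exact_mod_cast hn0
  have hcardC : (Nat.card G : ℂ) = n₀ * Nat.card Q * Nat.card R := by exact_mod_cast hcard
  obtain ⟨eQ, hQi, hQa, hQ1, hQz⟩ := exists_subgroupIdem hM Q hQ
  obtain ⟨eR, hRi, hRa, hR1, hRz⟩ := exists_subgroupIdem hM R hR
  obtain ⟨Φ, Ξi, Ξj, hΦ, hΞi, hΞj, hα, hβ, hsing, hone⟩ := exists_common hM hQi hRi hQa hRa
  -- the inner product of the two permutation characters
  have hαβ : classInner (Phi hM eQ) (Phi hM eR) = n₀ := by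
    unfold classInner
    rw [Finset.sum_eq_single (1 : G)]
    · rw [hQ1, hR1, hcardC]
      simp only [map_div₀, map_mul, Complex.conj_natCast]
      field_simp
    · intro g _ hg
      by_cases h1 : ∀ x : G, x * g * x⁻¹ ∉ Q
      · rw [hQz g h1, zero_mul]
      · by_cases h2 : ∀ y : G, y * g * y⁻¹ ∉ R
        · rw [hRz g h2, map_zero, mul_zero]
        · push Not at h1 h2
          obtain ⟨x, hx⟩ := h1
          obtain ⟨y, hy⟩ := h2
          exact absurd (hQR g x y hx hy) hg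
    · intro h; exact absurd (Finset.mem_univ _) h
  obtain ⟨k, hk⟩ := classInner_char_char hΦ hΦ
  obtain ⟨k₁, hk₁⟩ := classInner_char_char hΦ hΞj
  obtain ⟨k₂, hk₂⟩ := classInner_char_char hΞi hΦ
  obtain ⟨k₃, hk₃⟩ := classInner_char_char hΞi hΞj
  have hle : k ≤ n₀ := by
    rw [hα, hβ, classInner_add_left, classInner_add_right, classInner_add_right, hk, hk₁, hk₂,
      hk₃] at hαβ
    have : k + k₁ + (k₂ + k₃) = n₀ := by exact_mod_cast hαβ
    omega
  set ϑ : G → ℂ := fun g => if p ∣ orderOf g then 0 else (n₀ : ℂ) with hϑ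
  have hϑϑ : classInner ϑ ϑ = n₀ := by
    unfold classInner
    have h1 : ∀ g : G, ϑ g * conj (ϑ g) = if ¬ p ∣ orderOf g then (n₀ : ℂ) * n₀ else 0 := by
      intro g
      simp only [hϑ]
      by_cases hg : p ∣ orderOf g
      · rw [if_pos hg, if_neg (not_not.2 hg), zero_mul]
      · rw [if_neg hg, if_pos hg, Complex.conj_natCast]
    simp only [h1]
    rw [← Finset.sum_filter, Finset.sum_const, nsmul_eq_mul]
    have h2 : (Finset.univ.filter (fun g : G => ¬ p ∣ orderOf g)).card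
        = Nat.card Q * Nat.card R := by
      rw [← hcount, Nat.card_eq_fintype_card, Fintype.card_subtype]
    rw [h2, hcardC]
    push_cast
    field_simp
  have hΦϑ : classInner Φ ϑ = n₀ := by
    have h1 : classInner Φ ϑ = n₀ * classInner Φ (fun _ => 1) := by
      unfold classInner
      have h2 : ∀ g : G, Φ g * conj (ϑ g) = (n₀ : ℂ) * (Φ g * conj (1 : ℂ)) := by
        intro g
        simp only [hϑ]
        by_cases hg : p ∣ orderOf g
        · rw [hsing g hg]; simp
        · rw [if_neg hg, Complex.conj_natCast, map_one]; ring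
      simp only [h2]
      rw [← Finset.mul_sum, mul_left_comm]
    rw [h1, hone, mul_one]
  have hϑΦ : classInner ϑ Φ = n₀ := by
    rw [← classInner_conj_symm, hΦϑ, Complex.conj_natCast]
  have hzero : classInner (ϑ - Φ) (ϑ - Φ) = ((k : ℂ) - n₀) := by
    rw [classInner_sub_left, classInner_sub_right, classInner_sub_right, hϑϑ, hϑΦ, hΦϑ, hk]
    ring
  have hkn : k = n₀ := by
    rw [classInner_self_eq] at hzero
    have h1 : ((Nat.card G : ℝ)⁻¹ * ∑ g : G, ‖(ϑ - Φ) g‖ ^ 2 : ℝ) = (k : ℝ) - n₀ := by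
      exact_mod_cast hzero
    have h2 : (0 : ℝ) ≤ (Nat.card G : ℝ)⁻¹ * ∑ g : G, ‖(ϑ - Φ) g‖ ^ 2 := by positivity
    rw [h1] at h2
    have h3 : (n₀ : ℝ) ≤ k := by linarith
    have h4 : n₀ ≤ k := by exact_mod_cast h3
    omega
  have hEq : ϑ = Φ := by
    rw [hkn, sub_self] at hzero
    have := classInner_self_eq_zero hzero
    exact sub_eq_zero.1 this
  have hϑchar : IsCharacter G ϑ := hEq ▸ hΦ
  have hp1 : ¬ p ∣ orderOf (1 : G) := by
    rw [orderOf_one]
    exact (Fact.out : p.Prime).one_lt.ne' ∘ Nat.dvd_one.1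
  have hϑ1 : ϑ 1 = n₀ := by simp only [hϑ, if_neg hp1]
  have hmem : ∀ g : G, ¬ p ∣ orderOf g ↔ ϑ g = ϑ 1 := by
    intro g
    rw [hϑ1]
    simp only [hϑ]
    constructor
    · intro h; rw [if_neg h]
    · intro h hg
      rw [if_pos hg] at h
      exact hn0' h.symm
  refine ⟨{ carrier := {g | ¬ p ∣ orderOf g}
            one_mem' := hp1
            mul_mem' := ?_
            inv_mem' := ?_ }, ⟨?_⟩, fun g => Iff.rfl⟩
  · intro x y hx hy
    simp only [Set.mem_ofPred_eq] at hx hy ⊢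
    rw [hmem] at hx hy ⊢
    rw [Cfsg.Agent.Lib.Helper19.char_mul_of_ker hϑchar hx y, hy]
  · intro x hx
    simp only [Set.mem_ofPred_eq] at hx ⊢
    rwa [orderOf_inv]
  · intro n hn g
    change ¬ p ∣ orderOf (g * n * g⁻¹)
    have : orderOf (g * n * g⁻¹) = orderOf n := by
      have := (MulAut.conj g).toMonoidHom
      exact orderOf_injective (MulAut.conj g).toMonoidHom (MulAut.conj g).injective n
    rw [this]
    exact hn

end Cfsg.Agent.Lib.Helper19.ProjChar
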