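import Mathlib
import Cfsg.Prelude.Def_Characters
import Cfsg.Agent.Lib.Helper19.SubTransfer
import Cfsg.Agent.Lib.Helper19.CharMisc
import Cfsg.Agent.Lib.Helper82.Constituent
import Cfsg.Agent.Lib.Helper71.PRegular

set_option autoImplicit false

namespace Cfsg.Agent.Lib.Helper19

open Cfsg Cfsg.Agent.Lib.Helper20 Cfsg.Agent.Lib.Helper5 Cfsg.Agent.Lib.Helper82
open scoped ComplexConjugate

section
variable {H : Type*} [Group H]

/-- the two incarnations of `T ⊓ N` -/
def swapEquiv (T N : Subgroup H) : N.subgroupOf T ≃* T.subgroupOf N where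
  toFun a := ⟨⟨a.1.1, a.2⟩, a.1.2⟩
  invFun b := ⟨⟨b.1.1, b.2⟩, b.1.2⟩
  left_inv _ := rfl
  right_inv _ := rfl
  map_mul' _ _ := rfl

theorem charDegree_congr {A B : Type*} [Group A] [Group B] {f : A → ℂ} {g : B → ℂ}
    (h : f 1 = g 1) : charDegree f = charDegree g := by
  unfold charDegree
  rw [h]

/-- If `ψ = η^H` and `ψ_N` are irreducible then so is the restriction of `η` to `T ⊓ N`. -/
theorem irr_restrict_of_induced [Fintype H] (T N : Subgroup H) [N.Normal] [Fintype T]
    {η : T → ℂ} (hη : IsIrrCharacter T η) {ψ : H → ℂ} (hψ : IsIrrCharacter H ψ)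
    (hind : indFun T η = ψ) (hN : IsIrrCharacter N (fun n : N => ψ n)) :
    IsIrrCharacter (N.subgroupOf T) (fun a : N.subgroupOf T => η a) := by
  classical
  haveI : Fintype N := Fintype.ofFinite N
  haveI : Fintype (N.subgroupOf T) := Fintype.ofFinite _
  haveI : Fintype (T.subgroupOf N) := Fintype.ofFinite _
  have hηc := isCharacter_of_isIrrCharacter hη
  have hψc := isCharacter_of_isIrrCharacter hψ
  have hψcl := isClassFunction_of_isCharacter hψc
  have hηA : IsCharacter (N.subgroupOf T) (fun a : N.subgroupOf T => η a) :=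
    isCharacter_restrict hηc _
  obtain ⟨ξ', hξ'⟩ := exists_irr_constituent hηA (irr_one_ne_zero hη)
  -- `η` is a constituent of `ψ_T`
  have h1 : classInner (fun t : T => ψ t) η ≠ 0 := by
    have h2 := frobenius_reciprocity T η ψ hψcl
    rw [hind, classInner_irr_self hψ] at h2
    rw [← classInner_conj_symm, ← h2]
    simp
  obtain ⟨Δ, hΔ, hsum⟩ := exists_add_of_inner_ne_zero (isCharacter_restrict hψc T) hη h1
  have hΔA : IsCharacter (N.subgroupOf T) (fun a : N.subgroupOf T => Δ a) :=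
    isCharacter_restrict hΔ _
  have h3 : classInner (fun a : N.subgroupOf T => ψ ((a : T) : H)) (ξ' : N.subgroupOf T → ℂ) ≠ 0 := by
    have h4 : (fun a : N.subgroupOf T => ψ ((a : T) : H)) =
        (fun a : N.subgroupOf T => η a) + (fun a : N.subgroupOf T => Δ a) := by
      funext a
      exact congrFun hsum (a : T)
    rw [h4, classInner_add_left]
    obtain ⟨n1, hn1⟩ := isCharacter_classInner_nat hηA ξ'.2
    obtain ⟨n2, hn2⟩ := isCharacter_classInner_nat hΔA ξ'.2
    rw [hn1] at hξ' ⊢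
    rw [hn2]
    have : n1 ≠ 0 := by exact_mod_cast hξ'
    have : n1 + n2 ≠ 0 := by omega
    exact_mod_cast this
  -- transport to `T.subgroupOf N`
  let ι := swapEquiv T N
  have hξ : IsIrrCharacter (T.subgroupOf N) ((ξ' : N.subgroupOf T → ℂ) ∘ ι.symm) :=
    isIrrCharacter_comp_equiv ι.symm ξ'.2
  have h5 : classInner (fun b : T.subgroupOf N => (fun n : N => ψ n) b)
      ((ξ' : N.subgroupOf T → ℂ) ∘ ι.symm) ≠ 0 := by
    have h6 : (fun b : T.subgroupOf N => (fun n : N => ψ n) b) =
        (fun a : N.subgroupOf T => ψ ((a : T) : H)) ∘ ι.symm := rfl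
    rw [h6, classInner_comp_equiv]
    exact h3
  have h7 := inner_indFun_ne_zero (T.subgroupOf N) (isCharacter_of_isIrrCharacter hN) h5
  have h8 := degree_le_of_constituent
    (isCharacter_indFun (T.subgroupOf N) _ (isCharacter_of_isIrrCharacter hξ)) hN h7
  rw [charDegree_indFun _ (isCharacter_of_isIrrCharacter hξ)] at h8
  have h9 : charDegree (fun n : N => ψ n) = T.index * charDegree η := by
    rw [← charDegree_indFun T hηc, hind]
    exact charDegree_congr rfl
  have h10 : charDegree ((ξ' : N.subgroupOf T → ℂ) ∘ ι.symm) =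
      charDegree (ξ' : N.subgroupOf T → ℂ) := charDegree_congr rfl
  have h11 : (T.subgroupOf N).index ≤ T.index :=
    Nat.le_of_dvd (Nat.pos_of_ne_zero T.index_ne_zero_of_finite)
      (Cfsg.Agent.Lib.Helper71.relIndex_dvd_index_of_normal_right T N)
  rw [h9, h10] at h8
  have h12 : T.index * charDegree η ≤ T.index * charDegree (ξ' : N.subgroupOf T → ℂ) :=
    h8.trans (Nat.mul_le_mul_right _ h11)
  have h13 : charDegree η ≤ charDegree (ξ' : N.subgroupOf T → ℂ) :=
    Nat.le_of_mul_le_mul_left h12 (Nat.pos_of_ne_zero T.index_ne_zero_of_finite)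
  have h14 : charDegree (fun a : N.subgroupOf T => η a) = charDegree η := charDegree_congr rfl
  rw [eq_of_constituent_of_degree_le hηA ξ'.2 hξ' (by rw [h14]; exact h13)]
  exact ξ'.2

end

/-- all Sylow subgroups are abelian -/
def AbSyl (X : Type*) [Group X] : Prop :=
  ∀ (p : ℕ) [Fact p.Prime] (P : Sylow p X), ∀ a ∈ P, ∀ b ∈ P, a * b = b * a

theorem AbSyl.of_injective {X Y : Type*} [Group X] [Group Y] (h : AbSyl X) (f : Y →* X)
    (hf : Function.Injective f) : AbSyl Y := by
  intro p _ Q a ha b hb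
  obtain ⟨P, hP⟩ := (Q.2.map f).exists_le_sylow
  apply hf
  rw [map_mul, map_mul]
  exact h p P _ (hP ⟨a, ha, rfl⟩) _ (hP ⟨b, hb, rfl⟩)

theorem AbSyl.of_surjective {X Y : Type*} [Group X] [Finite X] [Group Y] (h : AbSyl X)
    (f : X →* Y) (hf : Function.Surjective f) : AbSyl Y := by
  intro p _ Q a ha b hb
  obtain ⟨P, rfl⟩ := Sylow.mapSurjective_surjective hf p Q
  obtain ⟨a', ha', rfl⟩ := ha
  obtain ⟨b', hb', rfl⟩ := hb
  rw [← map_mul, ← map_mul, h p P a' ha' b' hb']

end Cfsg.Agent.Lib.Helper19
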