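import Mathlib
import Cfsg.Prelude.Def_Characters
import Cfsg.Agent.Lib.Helper19.RelM
import Cfsg.Agent.Lib.Helper19.GoingDown
import Cfsg.Agent.Lib.Helper5.Inertia
import Cfsg.Agent.Lib.Helper82.LinCount
import Cfsg.Agent.S0089
import Cfsg.Agent.S0138

set_option autoImplicit false

namespace Cfsg.Agent.Lib.Helper19

open Cfsg Cfsg.Agent.Lib.Helper20 Cfsg.Agent.Lib.Helper5 Cfsg.Agent.Lib.Helper82
open scoped ComplexConjugate

section
variable {H : Type*} [Group H]

/-- iterated commutators of `N` inside `H` -/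
def dser (N : Subgroup H) : ℕ → Subgroup H
  | 0 => N
  | (i + 1) => ⁅dser N i, dser N i⁆

theorem dser_zero (N : Subgroup H) : dser N 0 = N := rfl

theorem dser_succ (N : Subgroup H) (i : ℕ) : dser N (i + 1) = ⁅dser N i, dser N i⁆ := rfl

theorem dser_normal (N : Subgroup H) [N.Normal] (i : ℕ) : (dser N i).Normal := by
  induction i with
  | zero => rw [dser_zero]; infer_instance
  | succ i ih => rw [dser_succ]; infer_instance

theorem dser_le (N : Subgroup H) (i : ℕ) : dser N i ≤ N := by
  induction i with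
  | zero => exact le_rfl
  | succ i ih => rw [dser_succ]; exact (Subgroup.commutator_le_self _).trans ih

theorem dser_le_derived (N : Subgroup H) (i : ℕ) : dser N i ≤ derivedSeries H i := by
  induction i with
  | zero => exact le_top
  | succ i ih => rw [dser_succ, derivedSeries_succ]; exact Subgroup.commutator_mono ih ih

variable [Fintype H]

theorem deg_one_of_scalar {d : ℕ} (ρ : Representation ℂ H (Fin d → ℂ)) (N : Subgroup H)
    (hsc : ∀ n ∈ N, ∃ ω : ℂ, ρ n = ω • (LinearMap.id : (Fin d → ℂ) →ₗ[ℂ] (Fin d → ℂ)))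
    (hN : IsIrrCharacter N (fun n : N => ρ.character n)) : ρ.character 1 = 1 := by
  classical
  haveI : Fintype N := Fintype.ofFinite N
  have h1 := card_mul_classInner_restrict N ρ.character
  rw [classInner_irr_self hN, mul_one] at h1
  have h2 : ∀ n : N, ‖ρ.character n‖ ^ 2 = (d : ℝ) ^ 2 := by
    intro n
    rw [(Cfsg.Agent.S0138.result ρ (n : H)).mpr (hsc n n.2), Module.finrank_fin_fun]
  rw [Finset.sum_congr rfl (fun n _ => h2 n), Finset.sum_const, Finset.card_univ,
    ← Nat.card_eq_fintype_card] at h1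
  have h3 : (Nat.card N : ℝ) = Nat.card N * (d : ℝ) ^ 2 := by
    rw [nsmul_eq_mul] at h1
    exact_mod_cast h1
  have h4 : Nat.card N * 1 = Nat.card N * d ^ 2 := by
    rw [mul_one]; exact_mod_cast h3
  have h5 : d ^ 2 = 1 := (Nat.eq_of_mul_eq_mul_left Nat.card_pos h4).symm
  have h6 : d = 1 := by
    rcases Nat.pow_eq_one.mp h5 with h | h
    · exact h
    · omega
  rw [Representation.char_one, Module.finrank_fin_fun, h6]
  simp

theorem scalar_of_homogeneous {d : ℕ} (ρ : Representation ℂ H (Fin d → ℂ))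
    (hρ : ρ.IsIrreducible) (M : Subgroup H) [Fintype M] (hM : M.Normal)
    (hcomm : ∀ x ∈ ⁅M, M⁆, ρ x = 1)
    (hhom : ∀ φ : M → ℂ, IsIrrCharacter M φ → classInner (fun m : M => ρ.character m) φ ≠ 0 →
      inertia hM φ = ⊤) :
    ∀ m ∈ M, ∃ ω : ℂ, ρ m = ω • (LinearMap.id : (Fin d → ℂ) →ₗ[ℂ] (Fin d → ℂ)) := by
  classical
  have hψ : IsIrrCharacter H ρ.character := ⟨d, ρ, hρ, rfl⟩
  have hψc := isCharacter_of_isIrrCharacter hψ
  have hres := isCharacter_restrict hψc M
  obtain ⟨φ, hc⟩ := exists_irr_constituent hres (irr_one_ne_zero hψ)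
  obtain ⟨φ, hφ⟩ := φ
  simp only at hc
  obtain ⟨e, he⟩ := isCharacter_classInner_nat hres hφ
  have he0 : (e : ℂ) ≠ 0 := by rw [← he]; exact hc
  have hinv : ∀ g : H, cjF hM φ g = φ := by
    intro g
    rw [← mem_inertia, hhom φ hφ hc]; exact Subgroup.mem_top g
  have hcl := clifford_invariant hM hψ hφ hc hinv
  rw [he] at hcl
  have hval : ∀ m : M, ρ.character m = e * φ m := fun m => congrFun hcl m
  have hφ1 : φ 1 = 1 := by
    rw [isIrr_linear_iff hφ]
    intro x hx
    have hx' : (x : H) ∈ ⁅M, M⁆ := by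
      rw [← Subgroup.map_subtype_commutator]
      exact ⟨x, hx, rfl⟩
    have h1 : ρ.character (x : H) = ρ.character ((1 : M) : H) := by
      show LinearMap.trace ℂ _ (ρ x) = LinearMap.trace ℂ _ (ρ ((1 : M) : H))
      rw [hcomm _ hx']
      simp
    rw [hval, hval] at h1
    exact mul_left_cancel₀ he0 h1
  have hd : (d : ℂ) = e := by
    have h1 := hval 1
    rw [hφ1, mul_one] at h1
    rw [← h1]
    show (d : ℂ) = ρ.character 1
    rw [Representation.char_one, Module.finrank_fin_fun]
  intro m hm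
  rw [← Cfsg.Agent.S0138.result ρ m, Module.finrank_fin_fun]
  have h1 := hval ⟨m, hm⟩
  simp only at h1
  rw [h1, norm_mul, norm_linear_eq_one (isCharacter_of_isIrrCharacter hφ) hφ1, mul_one, ← hd]
  simp

theorem linear_of_homogeneous [Group.IsSolvable H] (N : Subgroup H) [hNn : N.Normal]
    (hAS : AbSyl N) {ψ : H → ℂ} (hψ : IsIrrCharacter H ψ)
    (hN : IsIrrCharacter N (fun n : N => ψ n))
    (hhom : ∀ (M : Subgroup H) [Fintype M] (hM : M.Normal), M ≤ N → ∀ φ : M → ℂ,
      IsIrrCharacter M φ → classInner (fun m : M => ψ m) φ ≠ 0 → inertia hM φ = ⊤) :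
    ψ 1 = 1 := by
  classical
  obtain ⟨d, ρ, hρ, rfl⟩ := hψ
  obtain ⟨n, hn⟩ := (inferInstance : Group.IsSolvable H).solvable
  have hex : ∃ i, ∀ x ∈ dser N i, ρ x = 1 := by
    refine ⟨n, fun x hx => ?_⟩
    have := dser_le_derived N n hx
    rw [hn, Subgroup.mem_bot] at this
    rw [this, map_one]
  rcases hi : Nat.find hex with _ | j
  · -- `N` acts trivially
    have h0 := Nat.find_spec hex
    rw [hi] at h0
    apply deg_one_of_scalar ρ N _ hN
    intro x hx
    exact ⟨1, by rw [h0 x hx, one_smul]; rfl⟩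
  · have h1 := Nat.find_spec hex
    rw [hi] at h1
    have h2 : ¬ ∀ x ∈ dser N j, ρ x = 1 := Nat.find_min hex (by rw [hi]; exact Nat.lt_succ_self j)
    haveI : Fintype (dser N j) := Fintype.ofFinite _
    have hsc := scalar_of_homogeneous ρ hρ (dser N j) (dser_normal N j) h1
      (hhom (dser N j) (dser_normal N j) (dser_le N j))
    rcases j with _ | j'
    · exact deg_one_of_scalar ρ N hsc hN
    · exfalso
      apply h2
      let f : N →* (Module.End ℂ (Fin d → ℂ))ˣ := ρ.asGroupHom.comp N.subtype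
      have hY : AbSyl f.range := hAS.of_surjective f.rangeRestrict f.rangeRestrict_surjective
      have hT := Cfsg.Agent.S0089.result (G := f.range) (fun p hp P => by
        haveI : Fact p.Prime := ⟨hp⟩
        exact ⟨⟨fun a b => Subtype.ext (hY p P a a.2 b b.2)⟩⟩)
      intro m hm
      have hmN : m ∈ N := dser_le N _ hm
      have hmc : (⟨m, hmN⟩ : N) ∈ commutator N := by
        have h3 : m ∈ ⁅N, N⁆ := by
          rw [dser_succ] at hm
          exact Subgroup.commutator_mono (dser_le N j') (dser_le N j') hm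
        rw [← Subgroup.map_subtype_commutator] at h3
        obtain ⟨x, hx, hxm⟩ := h3
        have : x = ⟨m, hmN⟩ := Subtype.ext hxm
        rw [← this]; exact hx
      have h4 : f.rangeRestrict ⟨m, hmN⟩ ∈ commutator f.range := by
        have h5 : (commutator N).map f.rangeRestrict ≤ commutator f.range := by
          rw [commutator_def, commutator_def, Subgroup.map_commutator]
          exact Subgroup.commutator_mono le_top le_top
        exact h5 ⟨_, hmc, rfl⟩
      have h5 : f.rangeRestrict ⟨m, hmN⟩ ∈ Subgroup.center f.range := by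
        rw [Subgroup.mem_center_iff]
        intro y
        obtain ⟨ω, hω⟩ := hsc m hm
        apply Subtype.ext
        apply Units.ext
        show ((y : (Module.End ℂ (Fin d → ℂ))ˣ) : Module.End ℂ (Fin d → ℂ)) * ρ m =
          ρ m * ((y : (Module.End ℂ (Fin d → ℂ))ˣ) : Module.End ℂ (Fin d → ℂ))
        rw [hω]
        ext v i
        simp
      have h6 : f.rangeRestrict ⟨m, hmN⟩ ∈ commutator f.range ⊓ Subgroup.center f.range :=
        ⟨h4, h5⟩
      rw [hT, Subgroup.mem_bot] at h6
      have h7 := congrArg (fun y : f.range =>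
        ((y : (Module.End ℂ (Fin d → ℂ))ˣ) : Module.End ℂ (Fin d → ℂ))) h6
      exact h7

end

end Cfsg.Agent.Lib.Helper19
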